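import Mathlib
import Cfsg.Agent.UnitMono91.Closure
import Cfsg.Agent.SUSix96.Mono.Closure

/-!
In degree four a non-monomial element fixing an axis yields a centre of transvections.
-/

set_option autoImplicit false
set_option linter.unusedSectionVars false

namespace CfsgLib.SUFour96.Mono

open Matrix CfsgLib.UnitMono CfsgLib.UnitMono91 CfsgLib.TransvGL CfsgLib.MonoBasics CfsgLib.UnitCentres
  CfsgLib.PseudoRefl CfsgLib.CircleSums
open CfsgLib.SUSix96.Mono (centre_of_pair)

variable {ι : Type} [Fintype ι] [DecidableEq ι] {F : Type*} [Field F] [Fintype F]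
variable {q : ℕ} {σ : F ≃+* F}

/-- Three circle weights: a non-trivial solution. -/
theorem three_sum (hS : Std q σ) {A B C : F} (hA : σ A = A) (hB : σ B = B) (hC : σ C = C) (hA0 : A ≠ 0)
    (hB0 : B ≠ 0) (hC0 : C ≠ 0) :
    ∃ s u w, Cir σ s ∧ Cir σ u ∧ Cir σ w ∧ s ≠ 1 ∧ s * A + u * B + w * C = 1 := by
  classical
  set K := Finset.univ.filter fun z : F => σ z = z
  set S₁ := ((Finset.univ.filter fun z : F => Cir σ z).erase 1).image fun s => (1 - s * A) * σ (1 - s * A)
    with hS₁
  set S₂ := (Finset.univ.filter fun z : F => Cir σ z).image fun u => (B + C * u) * σ (B + C * u) with hS₂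
  have h1 : q ≤ 2 * S₁.card := by
    have := card_cir hS.card hS.frob
    refine le_trans ?_ (Finset.card_le_mul_card_image_of_maps_to
      (s := (Finset.univ.filter fun z : F => Cir σ z).erase 1)
      (fun z hz => Finset.mem_image_of_mem _ hz) 2 fun t _ => ?_)
    · rw [Finset.card_erase_of_mem (Finset.mem_filter.2 ⟨Finset.mem_univ _, cir_one σ⟩), this]; omega
    rcases Finset.eq_empty_or_nonempty (((Finset.univ.filter fun z : F => Cir σ z).erase 1).filter
      fun s => (1 - s * A) * σ (1 - s * A) = t) with he | ⟨z0, hz0⟩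
    · rw [he]; simp
    refine (Finset.card_le_card (t := {z0, z0⁻¹}) fun z hz => ?_).trans Finset.card_le_two
    simp only [Finset.mem_filter, Finset.mem_erase, Finset.mem_univ, true_and] at hz hz0
    have e := hz.2.trans hz0.2.symm
    simp only [map_sub, map_one, map_mul, hA, hz.1.2.conj_eq, hz0.1.2.conj_eq] at e
    have n1 := hz.1.2.ne_zero
    have n2 := hz0.1.2.ne_zero
    field_simp at e
    have e' : A * ((z - z0) * (z * z0 - 1)) = 0 := by linear_combination -e
    simp only [Finset.mem_insert, Finset.mem_singleton]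
    rcases mul_eq_zero.1 ((mul_eq_zero.1 e').resolve_left hA0) with h | h
    · exact Or.inl (sub_eq_zero.1 h)
    · exact Or.inr (eq_inv_of_mul_eq_one_left (sub_eq_zero.1 h))
  have h2 : q + 1 ≤ 2 * S₂.card := by
    have h := trace_card hS.card hS.frob (mul_ne_zero hB0 hC0)
      ((Finset.univ.filter fun u : F => Cir σ u).image fun u => B * C * u + σ (B * C * u))
      fun u hu => Finset.mem_image_of_mem _ (by simpa using hu)
    refine h.trans (le_of_eq ?_)
    rw [hS₂]
    congr 1
    rw [← Finset.card_image_of_injective _ (add_right_injective (B * B + C * C)), Finset.image_image]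
    refine congrArg Finset.card (Finset.image_congr fun u hu => ?_)
    simp only [Finset.coe_filter, Finset.mem_univ, true_and, Set.mem_setOf_eq] at hu
    simp only [Function.comp_apply, map_add, map_mul, hB, hC]
    linear_combination (-(C * C)) * (id hu : u * σ u = 1)
  obtain ⟨t, ht⟩ : (S₁ ∩ S₂).Nonempty := by
    refine Finset.inter_nonempty_of_card_lt_card_add_card (s := K) ?_ ?_
      (by rw [card_fixed hS.card hS.frob]; omega)
    all_goals
      intro z hz
      simp only [hS₁, hS₂, Finset.mem_image] at hz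
      obtain ⟨x, -, rfl⟩ := hz
      exact Finset.mem_filter.2 ⟨Finset.mem_univ _, norm_fixed hS.card hS.frob _⟩
  simp only [hS₁, hS₂, Finset.mem_inter, Finset.mem_image, Finset.mem_erase, Finset.mem_filter,
    Finset.mem_univ, true_and] at ht
  obtain ⟨⟨s, ⟨hs1, hs⟩, hst⟩, u, hu, hut⟩ := ht
  obtain ⟨ρ, hρ, hρe⟩ : ∃ ρ, Cir σ ρ ∧ ρ * (B + C * u) = 1 - s * A := by
    by_cases hz : B + C * u = 0
    · refine ⟨1, cir_one σ, ?_⟩
      rw [hz, mul_zero]
      rw [hz, zero_mul] at hut
      have h0 := hst.trans hut.symm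
      rw [mul_eq_zero] at h0
      exact (h0.elim id fun h => (map_eq_zero σ).1 h).symm
    · refine ⟨(1 - s * A) / (B + C * u), ?_, div_mul_cancel₀ _ hz⟩
      have hz' := (map_ne_zero σ).2 hz
      show (1 - s * A) / (B + C * u) * σ ((1 - s * A) / (B + C * u)) = 1
      rw [map_div₀, div_mul_div_comm, hst, hut, div_self (hut ▸ mul_ne_zero hz hz')]
  exact ⟨s, ρ, ρ * u, hs, hρ, hρ.mul hu, hs1, by linear_combination hρe⟩

variable {M : Subgroup (GL ι F)}

local notation "ax" i:max => (Pi.single i (1 : F) : ι → F)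

variable (hO : Over q σ M) {a : ι} (hn : Fintype.card ι = 4)
include hO hn

/-- A closure vector with all three coordinates off `a`. -/
theorem exists_wide {h : GL ι F} (hh : h ∈ M) (hnm : ¬ IsMono h) {c : F}
    (hha : (h : Matrix ι ι F) *ᵥ ax a = c • ax a)
    : ∃ u, Pc hO.std M a u ∧ ∀ i, i ≠ a → u i ≠ 0 := by
  classical
  have hf := hO.std.isUnitary (ι := ι)
  have hcc : Cir σ c := by
    have := hO.iso h hh (ax a) (ax a)
    rwa [hha, hf.smul_left, smul_right hf, sf_ax_self, mul_one] at this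
  set sp : (ι → F) → Finset ι := fun u => Finset.univ.filter fun i => u i ≠ 0 with hsp
  set U := Finset.univ.filter fun u => Pc hO.std M a u with hU
  haveI : Nonempty ι := ⟨a⟩
  obtain ⟨i, hi⟩ : ∃ i, ∀ k, (h : Matrix ι ι F) *ᵥ ax i ∉ Submodule.span F {ax k} := by
    by_contra hc
    push Not at hc
    exact hnm hc
  have hia : i ≠ a := fun e => hi a (by rw [e, hha]; exact Submodule.smul_mem _ _ (Submodule.mem_span_singleton_self _))
  have hu0 : Pc hO.std M a ((h : Matrix ι ι F) *ᵥ ax i) := (Pc.axis hO hia).image hO hh hcc hha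
  have h2 : 2 ≤ (sp ((h : Matrix ι ι F) *ᵥ ax i)).card := by
    by_contra hlt
    push Not at hlt
    obtain ⟨k, hk⟩ := Finset.card_le_one_iff_subset_singleton.1 (Nat.lt_succ_iff.1 hlt)
    refine hi k (mem_axis_iff.2 fun j hj => ?_)
    by_contra hne
    exact hj (Finset.mem_singleton.1 (hk (Finset.mem_filter.2 ⟨Finset.mem_univ _, hne⟩)))
  obtain ⟨u, huU, humax⟩ := Finset.exists_max_image U (fun u => (sp u).card)
    ⟨_, Finset.mem_filter.2 ⟨Finset.mem_univ _, hu0⟩⟩
  have hu : Pc hO.std M a u := (Finset.mem_filter.1 huU).2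
  have hs2 : 2 ≤ (sp u).card := h2.trans (humax _ (Finset.mem_filter.2 ⟨Finset.mem_univ _, hu0⟩))
  refine ⟨u, hu, ?_⟩
  suffices h3 : 3 ≤ (sp u).card by
    have hsub : sp u ⊆ Finset.univ.erase a := fun j hj => Finset.mem_erase.2
      ⟨fun e => (Finset.mem_filter.1 hj).2 (e ▸ hu.2.1), Finset.mem_univ _⟩
    have he := Finset.eq_of_subset_of_card_le hsub (by
      rw [Finset.card_erase_of_mem (Finset.mem_univ _), Finset.card_univ]; omega)
    exact fun j hj => (Finset.mem_filter.1 (he.ge (Finset.mem_erase.2 ⟨hj, Finset.mem_univ _⟩))).2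
  by_contra hlt
  push Not at hlt
  obtain ⟨huu, hua, -⟩ := hu
  obtain ⟨ε0, hε0, hε2⟩ := exists_cir_sq_ne_one hO.std.card hO.std.frob
  set ε : Fˣ := Units.mk0 ε0 hε0.ne_zero with hε
  have hεi : Cir σ ((ε⁻¹ : Fˣ) : F) := by rw [Units.val_inv_eq_inv_val]; exact hε0.inv
  have hpick : ∀ T : Finset ι, T.card = 0 → ∃ p, p ∉ sp u ∧ p ≠ a ∧ p ∉ T := by
    intro T hT
    obtain ⟨p, -, hp⟩ := Finset.exists_mem_notMem_of_card_lt_card (s := sp u ∪ T ∪ {a})
      (t := (Finset.univ : Finset ι)) (by
        have := Finset.card_union_le (sp u ∪ T) {a}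
        have := Finset.card_union_le (sp u) T
        rw [Finset.card_singleton] at *
        rw [Finset.card_univ]
        omega)
    simp only [Finset.mem_union, Finset.mem_singleton, not_or] at hp
    exact ⟨p, hp.1.1, hp.2, hp.1.2⟩
  have hne1 : (ε : F) ≠ 1 := fun e => hε2 (by rw [show ε0 = 1 from e, one_pow])
  obtain ⟨i, hi, j₀, hj₀, hij₀⟩ := Finset.one_lt_card.1 (show 1 < (sp u).card by omega)
  have hNi : u i * σ (u i) ≠ 1 := by
    intro hN1
    have hsum : u i * σ (u i) + u j₀ * σ (u j₀) = 1 := by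
      have h1 : sf σ u u = 1 := huu
      rwa [sf, Fintype.sum_eq_add i j₀ hij₀ fun k hk => ?_] at h1
      have hk' : k ∉ sp u := fun hk'' => by
        have h3 := Finset.card_le_card (s := ({i, j₀, k} : Finset ι)) (t := sp u) (by
          intro z hz
          simp only [Finset.mem_insert, Finset.mem_singleton] at hz
          rcases hz with rfl | rfl | rfl <;> assumption)
        rw [Finset.card_eq_three.2 ⟨i, j₀, k, hij₀, Ne.symm hk.1, Ne.symm hk.2, rfl⟩] at h3
        omega
      simp only [hsp, Finset.mem_filter, Finset.mem_univ, true_and, not_not] at hk'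
      rw [hk', zero_mul]
    rw [hN1, add_eq_left] at hsum
    exact mul_ne_zero (Finset.mem_filter.1 hj₀).2 ((map_ne_zero σ).2 (Finset.mem_filter.1 hj₀).2) hsum
  · have hiu : u i ≠ 0 := (Finset.mem_filter.1 hi).2
    have hia : i ≠ a := fun e => hiu (e ▸ hua)
    obtain ⟨p, hp, hpa, -⟩ := hpick ∅ (by simp)
    have hup : u p = 0 := by simpa [hsp] using hp
    have hip : i ≠ p := fun e => hiu (e ▸ hup)
    obtain ⟨g, hg, s, hs, hgj⟩ := hO.exists_perm (Equiv.swap i p) a
    have hga : (g : Matrix ι ι F) *ᵥ ax a = (s : F) • ax a := by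
      rw [hgj, if_pos rfl, Equiv.swap_apply_of_ne_of_ne (Ne.symm hia) (Ne.symm hpa)]
    set u' := (g : Matrix ι ι F) *ᵥ u with hu'
    have hPu' : Pc hO.std M a u' :=
      (show Pc hO.std M a u from (Finset.mem_filter.1 huU).2).image hO hg hs hga
    have hu'e : u' = u - u i • ax i + u i • ax p := by
      rw [hu', ← Finset.univ_sum_single u, mulVec_sum, Finset.univ_sum_single u]
      funext j
      rw [Finset.sum_apply]
      have : ∀ k, ((g : Matrix ι ι F) *ᵥ Pi.single k (u k)) j =
          u k * (ax (Equiv.swap i p k)) j := fun k => by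
        rw [show Pi.single k (u k) = u k • ax k by simp [← Pi.single_smul'], mulVec_smul, hgj]
        by_cases hk : k = a
        · subst hk; simp [hua]
        · simp [hk]
      simp only [this]
      rw [Finset.sum_eq_single (Equiv.swap i p j) (fun k _ hk => by
        rw [Pi.single_eq_of_ne (fun e => hk (by rw [e, Equiv.swap_apply_self])), mul_zero]) (by simp),
        Equiv.swap_apply_self, Pi.single_eq_same, mul_one]
      rcases eq_or_ne j i with rfl | hji
      · simp [hup, hip]
      rcases eq_or_ne j p with rfl | hjp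
      · simp [hup, Ne.symm hip]
      · simp [Equiv.swap_apply_of_ne_of_ne hji hjp, hji, hjp]
    have hK : sf σ u' u = 1 - u i * σ (u i) := by
      rw [hu'e, hf.add_left, UnitCentres.sub_left hf, hf.smul_left, hf.smul_left, huu, sf_ax_left,
        sf_ax_left, hup, map_zero, mul_zero, add_zero]
    set K := 1 - u i * σ (u i)
    have hK0 : K ≠ 0 := sub_ne_zero.2 (Ne.symm hNi)
    obtain ⟨δ, hδ, hδ1, hδK⟩ : ∃ δ : Fˣ, Cir σ (δ : F) ∧ (δ : F) ≠ 1 ∧ 1 + ((δ : F) - 1) * K ≠ 0 := by
      by_cases h1 : 1 + ((ε : F) - 1) * K = 0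
      · refine ⟨ε⁻¹, hεi, ?_, fun h2 => ?_⟩
        · rw [Units.val_inv_eq_inv_val]; exact fun e => hne1 (inv_eq_one.1 e)
        · have h3 : ((ε : F) - ((ε⁻¹ : Fˣ) : F)) * K = 0 := by linear_combination h1 - h2
          refine hε2 ?_
          rw [Units.val_inv_eq_inv_val] at h3
          have h4 := sub_eq_zero.1 ((mul_eq_zero.1 h3).resolve_right hK0)
          have := hε0.ne_zero
          show (ε : F) ^ 2 = 1
          rw [sq]
          nth_rewrite 2 [h4]
          exact mul_inv_cancel₀ this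
      · exact ⟨ε, hε0, hne1, h1⟩
    have hv := Pc.reflect hO (show Pc hO.std M a u from (Finset.mem_filter.1 huU).2) hPu' hδ
    rw [hK] at hv
    set v := u' + (((δ : F) - 1) * K) • u
    have hsub : insert p (sp u) ⊆ sp v := by
      intro j hj
      refine Finset.mem_filter.2 ⟨Finset.mem_univ _, ?_⟩
      simp only [v, hu'e, Pi.add_apply, Pi.sub_apply, Pi.smul_apply, smul_eq_mul]
      rcases Finset.mem_insert.1 hj with rfl | hj
      · simp [hup, Ne.symm hip, hiu]
      · have huj : u j ≠ 0 := (Finset.mem_filter.1 hj).2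
        have hjp : j ≠ p := fun e => huj (e ▸ hup)
        rcases eq_or_ne j i with rfl | hji
        · simp [hjp, hiu, hK0, sub_ne_zero.2 hδ1]
        · simp [hjp, hji]
          intro h0
          exact hδK ((mul_eq_zero.1 (show (1 + ((δ : F) - 1) * K) * u j = 0 by
            linear_combination h0)).resolve_right huj)
    have h3 := Finset.card_le_card hsub
    rw [Finset.card_insert_of_notMem hp] at h3
    have h4 := humax v (Finset.mem_filter.2 ⟨Finset.mem_univ _, hv⟩)
    omega

/-- A centre orthogonal to the axis `a`. -/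
theorem exists_centre {h : GL ι F} (hh : h ∈ M) (hnm : ¬ IsMono h) {c : F}
    (hha : (h : Matrix ι ι F) *ᵥ ax a = c • ax a) :
    ∃ w, Centre hO.std.isUnitary M w ∧ w a = 0 ∧ w ≠ 0 := by
  classical
  obtain ⟨u, hPu, hfull⟩ := exists_wide hO hn hh hnm hha
  obtain ⟨huu, hua, -⟩ := id hPu
  obtain ⟨x, y, z, hxy, hxz, hyz, hT⟩ := Finset.card_eq_three.1
    (show (Finset.univ.erase a).card = 3 by
      rw [Finset.card_erase_of_mem (Finset.mem_univ _), Finset.card_univ, hn])
  have hmem : ∀ i, i ≠ a ↔ i = x ∨ i = y ∨ i = z := fun i => by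
    rw [show i ≠ a ↔ i ∈ Finset.univ.erase a by simp, hT]; simp
  have hxa : x ≠ a := (hmem x).2 (Or.inl rfl)
  have hya : y ≠ a := (hmem y).2 (Or.inr (Or.inl rfl))
  have hza : z ≠ a := (hmem z).2 (Or.inr (Or.inr rfl))
  have hN0 : ∀ i, i ≠ a → u i * σ (u i) ≠ 0 := fun i hi =>
    mul_ne_zero (hfull i hi) ((map_ne_zero σ).2 (hfull i hi))
  have hfix := fun i => CircleSums.norm_fixed hO.std.card hO.std.frob (u i)
  obtain ⟨s, v₀, w₀, hs, hv₀, hw₀, hs1, hsum⟩ := three_sum hO.std (hfix x) (hfix y) (hfix z) (hN0 x hxa)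
    (hN0 y hya) (hN0 z hza)
  let t : ι → Fˣ := fun i => if i = x then Units.mk0 s hs.ne_zero else if i = y then
    Units.mk0 v₀ hv₀.ne_zero else if i = z then Units.mk0 w₀ hw₀.ne_zero else 1
  have htc : ∀ i, Cir σ (t i : F) := fun i => by
    simp only [t]
    split_ifs
    exacts [hs, hv₀, hw₀, cir_one σ]
  obtain ⟨g, hg, ⟨cg, hcg, hga⟩, hgi⟩ := hO.dg_fix91 t htc a
  set v := (g : Matrix ι ι F) *ᵥ u with hv
  have hPv : Pc hO.std M a v := hPu.image hO hg hcg hga
  have hvi : ∀ i, v i = (t i : F) * u i := fun i => by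
    by_cases hi : i = a
    · rw [hi, hPv.2.1, hua, mul_zero]
    · exact hgi u i hi
  have hvu : sf σ v u = 1 := by
    rw [sf, ← Finset.sum_erase_add _ _ (Finset.mem_univ a), hT, Finset.sum_insert (by simp [hxy, hxz]),
      Finset.sum_pair hyz, hvi, hvi, hvi, hvi, hua]
    simp [t, Ne.symm hxy, Ne.symm hxz, Ne.symm hyz]
    linear_combination hsum
  refine centre_of_pair hO hPu hPv hvu fun e => hs1 ?_
  have h1 := congrFun e x
  rw [hvi] at h1
  simp [t] at h1
  exact mul_right_cancel₀ (hfull x hxa) (h1.trans (one_mul _).symm)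

end CfsgLib.SUFour96.Mono
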