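import Mathlib
import Cfsg.Agent.SUSix96.Mono.Rigid
import Cfsg.Agent.SUSix96.Mono.Cert
import Cfsg.Agent.SUSix96.Mono.Big

/-!
Degree four, field of order 49: a rigid group with all axis reflections is monomial.
-/

set_option autoImplicit false
set_option linter.unusedSectionVars false

namespace CfsgLib.SUFour96.Mono

open Matrix CfsgLib.UnitMono CfsgLib.TransvGL CfsgLib.MonoBasics CfsgLib.UnitCentres CfsgLib.PseudoRefl
  CfsgLib.CircleSums CfsgLib.SUSix96.Mono

variable {ι : Type} [Fintype ι] [DecidableEq ι] {F : Type*} [Field F] [Fintype F]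
variable {q : ℕ} {σ : F ≃+* F} {G : Subgroup (GL ι F)}

local notation "ax" i:max => (Pi.single i (1 : F) : ι → F)

theorem seven_one : ∀ m < 7, m ≠ 0 → m ≠ 4 → (1 + 3 * m + 4 * (m * m)) % 7 ≠ 4 →
    m = 1 ∨ m = 2 ∨ m = 6 := by decide

theorem seven_four : ∀ a ∈ [1, 2, 6], ∀ b ∈ [1, 2, 6], ∀ c ∈ [1, 2, 6], ∀ d ∈ [1, 2, 6],
    4 * (a * b) % 7 ≠ 4 → 4 * (a * c) % 7 ≠ 4 → 4 * (a * d) % 7 ≠ 4 → 4 * (b * c) % 7 ≠ 4 →
    4 * (b * d) % 7 ≠ 4 → 4 * (c * d) % 7 ≠ 4 → (a + b + c + d) % 7 = 1 →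
    a = 2 ∧ b = 2 ∧ c = 2 ∧ d = 2 := by decide

variable (hG : Rigid q σ G) (hn : Fintype.card ι = 4)
include hG hn

set_option maxHeartbeats 1200000 in
theorem seven_absurd [CharP F q] (hq : q = 7) (hR : ∀ k, uRefl hG.std (sf_ax_self (σ := σ) k) (-1) ∈ G)
    {g : GL ι F} (hg : g ∈ G) (hgm : ¬ IsMono g) : False := by
  classical
  subst hq
  have hS := hG.std
  have hf := hS.isUnitary (ι := ι)
  have hnat : ∀ a b : ℕ, (a : F) = (b : F) ↔ a % 7 = b % 7 := fun a b => CharP.cast_eq_iff_mod_eq F 7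
  have h70 : (7 : F) = 0 := by exact_mod_cast CharP.cast_eq_zero F 7
  have h2 : (2 : F) ≠ 0 := fun e => by
    have h1 := (hnat 2 0).1 (by simpa using e)
    norm_num at h1
  -- an element of order eight on the circle
  obtain ⟨ω, hω, hω4⟩ : ∃ z : F, Cir σ z ∧ z ^ 4 ≠ 1 := by
    by_contra hno
    push Not at hno
    have h1 := (Finset.card_le_card (t := (Polynomial.nthRoots 4 (1 : F)).toFinset)
      (s := Finset.univ.filter fun z => Cir σ z) fun z hz => by
        rw [Multiset.mem_toFinset, Polynomial.mem_nthRoots (by norm_num)]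
        exact hno z (Finset.mem_filter.1 hz).2).trans
      ((Multiset.toFinset_card_le _).trans (Polynomial.card_nthRoots _ _))
    rw [card_cir hS.card hS.frob] at h1
    omega
  have hω8 : ω ^ 8 = 1 := (UnitMono91.cir_iff hS).1 hω
  have hω4' : ω ^ 4 = -1 := by
    have h1 : (ω ^ 4) ^ 2 = 1 := by rw [← pow_mul]; exact hω8
    exact (sq_eq_one_iff.1 h1).resolve_left hω4
  have hω0 : ω ≠ 0 := hω.ne_zero
  have hω2 : ω ^ 2 ≠ 1 := fun e => hω4 (by rw [show ω ^ 4 = (ω ^ 2) ^ 2 by ring, e, one_pow])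
  have hω2' : ω ^ 2 ≠ -1 := fun e => hω4 (by rw [show ω ^ 4 = (ω ^ 2) ^ 2 by ring, e]; ring)
  set εu : Fˣ := Units.mk0 ω hω0 with hεu
  have hω3 : ω ^ 3 ≠ 1 := fun e => hω2 (by
    calc ω ^ 2 = ω ^ 8 / (ω ^ 3 * ω ^ 3) := by rw [eq_div_iff (by positivity)]; ring
      _ = 1 := by rw [hω8, e, one_mul, div_one])
  have hm1 : ((-1 : Fˣ) : F) ≠ 1 := fun e => h2 (by
    rw [Units.val_neg, Units.val_one] at e
    linear_combination -e)
  -- the four indices
  let e := (Fintype.equivFinOfCardEq hn).symm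
  have huniv : ∀ f : ι → F, ∑ i, f i = f (e 0) + f (e 1) + f (e 2) + f (e 3) := fun f => by
    rw [← e.sum_comp, Fin.sum_univ_four]
  have hprod : ∀ f : ι → Fˣ, ∏ i, f i = f (e 0) * f (e 1) * f (e 2) * f (e 3) := fun f => by
    rw [← e.prod_comp, Fin.prod_univ_four]
  have hinv : ∀ h : GL ι F, ¬ IsMono h → ¬ IsMono h⁻¹ := fun h hm hi => hm (by simpa using hi.inv)
  -- no zero entries
  have hfull : ∀ h ∈ G, ¬ IsMono h → ∀ a l, ((h : Matrix ι ι F) *ᵥ ax a) l ≠ 0 := by
    intro h hh hhm a l hl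
    obtain ⟨i, m, him, -, -, -, hz⟩ := col_zero hG hm1 hR hh hhm hl
    obtain ⟨k, k', hkk, hki, hkm, hk'i, hk'm⟩ := exists_two_other (by omega) i m
    set d := dg (torPair k k' εu) with hd
    have hdG : d ∈ G := hG.tor _ (fun p => by
      unfold torPair
      split_ifs
      · exact hω
      · rw [Units.val_inv_eq_inv_val]; exact Cir.inv (z := (εu : F)) hω
      · exact cir_one σ) (prod_torPair hkk εu)
    refine tor_conj hG (ε := εu) hω hω4 hω3 hh hhm hkk (hG.hU _ (G.mul_mem (G.mul_mem (G.inv_mem hh) hdG) hh) a ?_)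
    have hfix : (d : Matrix ι ι F) *ᵥ ((h : Matrix ι ι F) *ᵥ ax a) = (h : Matrix ι ι F) *ᵥ ax a :=
      funext fun p => by
        rw [hd, dg_mulVec]
        unfold torPair
        split_ifs with h1 h2
        · rw [h1, hz k hki hkm, mul_zero]
        · rw [h2, hz k' hk'i hk'm, mul_zero]
        · rw [Units.val_one, one_mul]
    rw [Units.val_mul, Units.val_mul, ← mulVec_mulVec, ← mulVec_mulVec, hfix, inv_mulVec_mulVec]
    exact Submodule.mem_span_singleton_self _
  -- the norms of the entries of a column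
  have hcol1 : ∀ h ∈ G, ¬ IsMono h → ∀ a,
      ∑ i, ((h : Matrix ι ι F) *ᵥ ax a) i * σ (((h : Matrix ι ι F) *ᵥ ax a) i) = 1 :=
    fun h hh _ a => col_norm hG hh a
  have hrefl : ∀ h ∈ G, ¬ IsMono h → ∀ a, ∃ x ∈ G, ¬ IsMono x ∧ ∀ p i,
      ((x : Matrix ι ι F) *ᵥ ax i) p =
        (ax i) p + (-1 - 1) * σ (((h : Matrix ι ι F) *ᵥ ax a) i) * ((h : Matrix ι ι F) *ᵥ ax a) p := by
    intro h hh hhm a
    have hv := col_norm hG hh a
    have hc := conj_uRefl hS (hG.iso h hh) (sf_ax_self (σ := σ) a) (-1)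
    refine ⟨_, G.mul_mem (G.mul_mem hh (hR a)) (G.inv_mem hh), fun hm => ?_, fun p i => ?_⟩
    · rw [hc] at hm
      obtain ⟨k, k', hkk, hka, -, hk'a, -⟩ := exists_two_other (show 4 ≤ Fintype.card ι by omega) a a
      exact hfull h hh hhm a k' ((refl_mono hS _ hm1 hm (Ne.symm hka) (hfull h hh hhm a a)
        (hfull h hh hhm a k)).2 k' hk'a (Ne.symm hkk))
    · rw [hc, uRefl_mulVec, sf_ax_left, Pi.add_apply, Pi.smul_apply, smul_eq_mul, Units.val_neg, Units.val_one]
  have hhalf : ∀ h ∈ G, ¬ IsMono h → ∀ a i,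
      ((h : Matrix ι ι F) *ᵥ ax a) i * σ (((h : Matrix ι ι F) *ᵥ ax a) i) ≠ 4 := by
    intro h hh hhm a i hN
    obtain ⟨x, hx, hxm, hxe⟩ := hrefl h hh hhm a
    refine hfull x hx hxm i i ?_
    rw [hxe, Pi.single_eq_same]
    linear_combination (-1 - 1 : F) * hN - h70
  have htwo : ∀ h ∈ G, ¬ IsMono h → ∀ a i,
      ((h : Matrix ι ι F) *ᵥ ax a) i * σ (((h : Matrix ι ι F) *ᵥ ax a) i) = 2 := by
    intro h hh hhm a i
    set v := (h : Matrix ι ι F) *ᵥ ax a with hv
    obtain ⟨x, hx, hxm, hxe⟩ := hrefl h hh hhm a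
    have hj : ∀ p, ∃ j : ℕ, j < 7 ∧ (j : F) = v p * σ (v p) := fun p =>
      exists_cast hS (norm_fixed hS.card hS.frob (v p))
    choose j hj7 hje using hj
    have hv0 : ∀ p, v p * σ (v p) ≠ 0 := fun p =>
      mul_ne_zero (hfull h hh hhm a p) ((map_ne_zero σ).2 (hfull h hh hhm a p))
    have h126 : ∀ p, j p ∈ [1, 2, 6] := fun p => by
      have := seven_one (j p) (hj7 p) (fun e0 => hv0 p (by rw [← hje, e0, Nat.cast_zero]))
        (fun e4 => hhalf h hh hhm a p (by rw [← hje, e4]; norm_num)) fun e => by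
          refine hhalf x hx hxm p p ?_
          have h1 := (hnat (1 + 3 * j p + 4 * (j p * j p)) 4).2 (by rw [e])
          push_cast at h1
          rw [hje] at h1
          rw [hxe, Pi.single_eq_same]
          simp only [map_add, map_mul, map_sub, map_neg, map_one, hS.invol]
          linear_combination h1 - (v p * σ (v p)) * h70
      simpa using this
    have hoff : ∀ p p', p ≠ p' → 4 * (j p * j p') % 7 ≠ 4 := fun p p' hpp e => by
      refine hhalf x hx hxm p p' ?_
      have h1 := (hnat (4 * (j p * j p')) 4).2 (by rw [e])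
      push_cast at h1
      rw [hje, hje] at h1
      rw [hxe, Pi.single_eq_of_ne (Ne.symm hpp), zero_add]
      simp only [map_mul, map_sub, map_neg, map_one, hS.invol]
      linear_combination h1
    have hsum : (j (e 0) + j (e 1) + j (e 2) + j (e 3)) % 7 = 1 := by
      have h1 := hcol1 h hh hhm a
      rw [huniv] at h1
      have := (hnat (j (e 0) + j (e 1) + j (e 2) + j (e 3)) 1).1 (by push_cast; rw [hje, hje, hje, hje]; exact h1)
      simpa using this
    have hne : ∀ {a b : Fin 4}, a ≠ b → e a ≠ e b := fun h => e.injective.ne h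
    obtain ⟨a0, a1, a2, a3⟩ := seven_four _ (h126 (e 0)) _ (h126 (e 1)) _ (h126 (e 2)) _ (h126 (e 3))
      (hoff (e 0) (e 1) (hne (by decide))) (hoff (e 0) (e 2) (hne (by decide))) (hoff (e 0) (e 3) (hne (by decide)))
      (hoff (e 1) (e 2) (hne (by decide))) (hoff (e 1) (e 3) (hne (by decide))) (hoff (e 2) (e 3) (hne (by decide))) hsum
    obtain ⟨r, rfl⟩ := e.surjective i
    rw [← hje]
    fin_cases r <;> simp_all
  -- four torus elements
  let T : Fin 4 → Fin 4 → Fˣ :=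
    ![![1, 1, -1, -1], ![1, -1, 1, -1], ![1, -1, -1, 1], ![εu, -εu, εu ^ 3, -εu ^ 3]]
  have hc1 : Cir σ ((1 : Fˣ) : F) := by rw [Units.val_one]; exact cir_one σ
  have hcm : Cir σ ((-1 : Fˣ) : F) := by rw [Units.val_neg, Units.val_one]; exact cir_neg_one σ
  have hc3 : Cir σ ((εu ^ 3 : Fˣ) : F) := by
    rw [Units.val_pow_eq_pow_val, ← zpow_natCast]; exact Cir.zpow (z := (εu : F)) hω _
  have hTc : ∀ r k, Cir σ (T r k : F) := by
    intro r k
    have hneg : ∀ u : Fˣ, Cir σ (u : F) → Cir σ ((-u : Fˣ) : F) := fun u hu => by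
      rw [← neg_one_mul u, Units.val_mul]; exact hcm.mul hu
    fin_cases r <;> fin_cases k <;>
      simp only [T, Fin.reduceFinMk, Fin.zero_eta, Fin.mk_one, Matrix.cons_val] <;>
      first | exact hc1 | exact hcm | exact hω | exact hneg _ hω | exact hc3 | exact hneg _ hc3
  have hTs : ∀ r, (T r 0 : F) + T r 1 + T r 2 + T r 3 = 0 := by
    intro r
    fin_cases r <;> simp [T]
  have hTp : ∀ r, T r 0 * T r 1 * T r 2 * T r 3 = 1 := by
    intro r
    refine Units.ext ?_
    fin_cases r <;> simp [T, hεu]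
    linear_combination hω8
  -- the column of the inverse
  obtain ⟨a⟩ : Nonempty ι := Fintype.card_pos_iff.1 (by omega)
  set u := ((g⁻¹ : GL ι F) : Matrix ι ι F) *ᵥ ax a with hu
  have hu0 : ∀ i, u i ≠ 0 := hfull _ (G.inv_mem hg) (hinv g hgm) a
  let t : Fin 4 → ι → Fˣ := fun r i => T r (e.symm i)
  have hto : ∀ r, ∃ b, b ≠ a ∧ ∃ c : F, c ≠ 0 ∧
      ∀ i, (t r i : F) * u i = c * (((g⁻¹ : GL ι F) : Matrix ι ι F) *ᵥ ax b) i := by
    intro r
    have hd : dg (t r) ∈ G := hG.tor _ (fun i => hTc r _) (by rw [hprod]; simpa [t] using hTp r)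
    set h := g * dg (t r) * g⁻¹
    have hhG : h ∈ G := G.mul_mem (G.mul_mem hg hd) (G.inv_mem hg)
    have hcol : (h : Matrix ι ι F) *ᵥ ax a = (g : Matrix ι ι F) *ᵥ ((dg (t r) : Matrix ι ι F) *ᵥ u) := by
      rw [Units.val_mul, Units.val_mul, ← mulVec_mulVec, ← mulVec_mulVec]
    have hza : ((h : Matrix ι ι F) *ᵥ ax a) a = 0 := by
      rw [← sf_ax_right (σ := σ) a ((h : Matrix ι ι F) *ᵥ ax a), hcol,
        show (ax a) = (g : Matrix ι ι F) *ᵥ u by rw [hu, mulVec_inv_mulVec], hG.iso g hg, sf, huniv]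
      simp only [dg_mulVec, t, Equiv.symm_apply_apply, mul_assoc,
        htwo _ (G.inv_mem hg) (hinv g hgm) a, hu]
      linear_combination (2 : F) * hTs r
    have hm : IsMono h := by
      by_contra hm
      exact hfull h hhG hm a a hza
    obtain ⟨b, hb⟩ := hm a
    obtain ⟨c, hc⟩ := Submodule.mem_span_singleton.1 hb
    have hc0 : c ≠ 0 := fun e0 => MonoBasics.mulVec_ne_zero h (ax_ne_zero a) (by rw [← hc, e0, zero_smul])
    have hba : b ≠ a := by
      rintro rfl
      have := congrFun hc b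
      rw [Pi.smul_apply, Pi.single_eq_same, smul_eq_mul, mul_one, hza] at this
      exact hc0 this
    refine ⟨b, hba, c, hc0, fun i => ?_⟩
    have h1 := congrArg (((g⁻¹ : GL ι F) : Matrix ι ι F) *ᵥ ·) (hc.trans hcol)
    simp only [inv_mulVec_mulVec, mulVec_smul] at h1
    have h3 := congrFun h1 i
    rw [Pi.smul_apply, smul_eq_mul, dg_mulVec] at h3
    exact h3.symm
  choose b hba c hc0 hc using hto
  obtain ⟨r, r', hrr, hbb⟩ := Fintype.exists_ne_map_eq_of_card_lt
    (fun r => (⟨b r, hba r⟩ : {i : ι // i ≠ a})) (by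
      rw [Fintype.card_subtype_compl, Fintype.card_subtype_eq, Fintype.card_fin, hn]; norm_num)
  have hb' : b r = b r' := congrArg Subtype.val hbb
  have hk : ∀ k, c r' * (T r k : F) = c r * T r' k := fun k => by
    have h1 := hc r (e k)
    have h1' := hc r' (e k)
    rw [← hb'] at h1'
    simp only [t, Equiv.symm_apply_apply] at h1 h1'
    exact mul_right_cancel₀ (hu0 (e k)) (by linear_combination c r' * h1 - c r * h1')
  have k0 := hk 0
  have k1 := hk 1
  have k2 := hk 2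
  have k3 := hk 3
  have hne : ∀ {x : F}, x ≠ 0 → ∀ {y : F}, x * (1 - y) = 0 → y = 1 := fun hx _ h =>
    (sub_eq_zero.1 ((mul_eq_zero.1 h).resolve_left hx)).symm
  have hsgn : ∀ {x : F}, x ≠ 0 → ∀ {y : F}, x = y → x = -y → False := fun hx _ h h' =>
    mul_ne_zero h2 hx (by linear_combination h + h')
  have hc0r := hc0 r
  have hc0r' := hc0 r'
  fin_cases r <;> fin_cases r' <;>
    (try exact hrr rfl) <;>
    simp [T, hεu] at k0 k1 k2 k3 hc0r hc0r' <;>
    first
    | exact mul_ne_zero h2 hc0r (by linear_combination k0 + k1)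
    | exact mul_ne_zero h2 hc0r (by linear_combination k0 + k2)
    | exact mul_ne_zero h2 hc0r (by linear_combination k0 - k1)
    | exact mul_ne_zero h2 hc0r' (by linear_combination k0 + k1)
    | exact mul_ne_zero h2 hc0r' (by linear_combination k0 + k2)
    | exact mul_ne_zero h2 hc0r' (by linear_combination k0 - k1)
    | grind

end CfsgLib.SUFour96.Mono
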