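import Mathlib
import Cfsg.Agent.UnitGeoSmall91.Types
import Cfsg.Agent.SUFour96.MonoSeven
import Cfsg.Agent.SUFour96.MonoCentre
import Cfsg.Agent.SUFour96.MonoSpread

/-!
The monomial subgroup of `SU_4(q)`, `q ≠ 3`, is maximal.
-/

set_option autoImplicit false
set_option linter.unusedSectionVars false

namespace CfsgLib.SUFour96.Mono

open Matrix CfsgLib.UnitMono CfsgLib.UnitMono91 CfsgLib.TransvGL CfsgLib.MonoBasics CfsgLib.UnitCentres
  CfsgLib.PseudoRefl CfsgLib.CircleSums
open CfsgLib.SUSix96.Mono (Rigid big_absurd uRefl_inv)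

section
variable {ι : Type} [Fintype ι] [DecidableEq ι] {F : Type*} [Field F] [Fintype F]
variable {q : ℕ} {σ : F ≃+* F} {M : Subgroup (GL ι F)}

local notation "ax" i:max => (Pi.single i (1 : F) : ι → F)

/-- Some non-monomial element fixes an axis. -/
theorem exists_fix (hO : Over q σ M) (hn : Fintype.card ι = 4) (hq3 : q ≠ 3) {g₀ : GL ι F}
    (hg₀ : g₀ ∈ M) (hgm₀ : ¬ IsMono g₀) :
    ∃ h ∈ M, ¬ IsMono h ∧ ∃ a, (h : Matrix ι ι F) *ᵥ ax a ∈ Submodule.span F {ax a} := by
  classical
  by_contra hno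
  push Not at hno
  have hS := hO.std
  have hU : ∀ h : GL ι F, h ∈ M → ∀ a : ι,
      (h : Matrix ι ι F) *ᵥ ax a ∈ Submodule.span F {ax a} → IsMono h := fun h hh a hab =>
    by_contra fun hm => hno h hh hm a hab
  obtain ⟨a⟩ : Nonempty ι := Fintype.card_pos_iff.1 (by omega)
  let R : Fˣ → GL ι F := fun δ => uRefl hS (sf_ax_self (σ := σ) a) δ
  have hR1 : R 1 = 1 := by
    refine ext_mulVec fun x => ?_
    show ((uRefl hS (sf_ax_self (σ := σ) a) 1 : GL ι F) : Matrix ι ι F) *ᵥ x = _
    rw [uRefl_mulVec]; simp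
  have hRm : ∀ δ δ', R (δ * δ') = R δ * R δ' := fun δ δ' => by
    show uRefl hS (sf_ax_self (σ := σ) a) (δ * δ') = uRefl hS _ δ * uRefl hS _ δ'
    refine ext_mulVec fun x => funext fun i => ?_
    rw [Units.val_mul (uRefl hS _ δ), ← mulVec_mulVec, uRefl_ax_mulVec, uRefl_ax_mulVec, uRefl_ax_mulVec]
    split_ifs
    · rw [Units.val_mul]; ring
    · ring
  have hRi : ∀ δ, R δ⁻¹ = (R δ)⁻¹ := fun δ => (uRefl_inv hS (sf_ax_self (σ := σ) a) δ).symm
  have hnorm : ∀ {g : GL ι F}, g ∈ M → ∀ {ε : Fˣ}, Cir σ (ε : F) → R (ε ^ 4) * g * (R (ε ^ 4))⁻¹ ∈ M := by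
    intro g hg ε hε
    have := UnitMono91.scalar_conj_mem hO hg hε a
    rwa [hn] at this
  have hci : ∀ {ε : Fˣ}, Cir σ (ε : F) → Cir σ ((ε⁻¹ : Fˣ) : F) := fun h => by
    rw [Units.val_inv_eq_inv_val]; exact h.inv
  let Mt : Subgroup (GL ι F) :=
    { carrier := {h | ∃ m ∈ M, ∃ ε : Fˣ, Cir σ (ε : F) ∧ h = m * R (ε ^ 4)}
      one_mem' := ⟨1, M.one_mem, 1, by simpa using cir_one σ, by rw [one_pow, hR1, mul_one]⟩
      mul_mem' := by
        rintro _ _ ⟨m, hm, ε, hε, rfl⟩ ⟨m', hm', ε', hε', rfl⟩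
        refine ⟨m * (R (ε ^ 4) * m' * (R (ε ^ 4))⁻¹), M.mul_mem hm (hnorm hm' hε), ε * ε', ?_, ?_⟩
        · rw [Units.val_mul]; exact hε.mul hε'
        · rw [mul_pow, hRm]; group
      inv_mem' := by
        rintro _ ⟨m, hm, ε, hε, rfl⟩
        refine ⟨R (ε⁻¹ ^ 4) * m⁻¹ * (R (ε⁻¹ ^ 4))⁻¹, hnorm (M.inv_mem hm) (hci hε), ε⁻¹, hci hε, ?_⟩
        rw [inv_pow, hRi]; group }
  have hMle : ∀ m ∈ M, m ∈ Mt := fun m hm => ⟨m, hm, 1, by simpa using cir_one σ, by rw [one_pow, hR1, mul_one]⟩
  have hpow : ∀ {ε : Fˣ}, Cir σ (ε : F) → Cir σ ((ε ^ 4 : Fˣ) : F) := fun h => by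
    rw [Units.val_pow_eq_pow_val, ← zpow_natCast]; exact h.zpow _
  have hG : Rigid q σ Mt :=
    { std := hS
      iso := by
        rintro _ ⟨m, hm, ε, hε, rfl⟩
        exact (hO.iso m hm).mul (uRefl_iso _ _ (hpow hε))
      tor := fun t ht hp => hMle _ (hO.dg_mem ht hp)
      perm := fun π r => by
        obtain ⟨h, hh, s, hs, hj⟩ := hO.exists_perm π r
        exact ⟨h, hMle h hh, s, hs, hj⟩
      hU := by
        rintro _ ⟨m, hm, ε, hε, rfl⟩ b hb
        have hRmono : IsMono (R (ε ^ 4)) := by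
          show IsMono (uRefl hS _ _)
          rw [uRefl_ax_eq_dg]; exact isMono_dg _
        refine (hU m hm b ?_).mul hRmono
        have hR' : (R (ε ^ 4) : Matrix ι ι F) *ᵥ ax b =
            (if b = a then ((ε ^ 4 : Fˣ) : F) else 1) • ax b := funext fun i => by
          show (((uRefl hS (sf_ax_self (σ := σ) a) (ε ^ 4) : GL ι F) : Matrix ι ι F) *ᵥ ax b) i = _
          rw [uRefl_ax_mulVec, Pi.smul_apply, smul_eq_mul]
          rcases eq_or_ne i b with rfl | hib
          · rfl
          · rw [Pi.single_eq_of_ne hib, mul_zero, mul_zero]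
        rw [Units.val_mul, ← mulVec_mulVec, hR', mulVec_smul] at hb
        refine (Submodule.smul_mem_iff _ ?_).1 hb
        split_ifs
        · exact Units.ne_zero _
        · exact one_ne_zero }
  have hRt : ∀ ε : Fˣ, Cir σ (ε : F) → ∀ k, uRefl hS (sf_ax_self (σ := σ) k) (ε ^ 4) ∈ Mt := by
    intro ε hε k
    refine ⟨uRefl hS (sf_ax_self (σ := σ) k) (ε ^ 4) * (R (ε ^ 4))⁻¹, ?_, ε, hε, by rw [inv_mul_cancel_right]⟩
    rcases eq_or_ne k a with rfl | hk
    · rw [mul_inv_cancel]; exact M.one_mem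
    · rw [show uRefl hS (sf_ax_self (σ := σ) k) (ε ^ 4) * (R (ε ^ 4))⁻¹ = dg (torPair k a (ε ^ 4)) from ?_]
      · exact hO.torPair_mem hk (hpow hε)
      rw [← hRi]
      refine ext_mulVec fun x => funext fun i => ?_
      show ((uRefl hS _ _ * uRefl hS _ _ : GL ι F) : Matrix ι ι F).mulVec x i = _
      rw [Units.val_mul, ← mulVec_mulVec, uRefl_ax_mulVec, uRefl_ax_mulVec, dg_mulVec]
      unfold torPair
      rcases eq_or_ne i k with rfl | hik
      · simp [hk]
      · split_ifs <;> simp_all
  by_cases hall : ∀ z : F, Cir σ z → z ^ 8 = 1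
  swap
  · push Not at hall
    obtain ⟨z, hz, hz8⟩ := hall
    refine big_absurd hG (by omega) (δ := Units.mk0 z hz.ne_zero ^ 4) ?_ ?_ (hRt (Units.mk0 z hz.ne_zero) hz)
      (hMle g₀ hg₀) hgm₀
    · exact hpow (ε := Units.mk0 z hz.ne_zero) hz
    · rw [Units.val_pow_eq_pow_val, ← pow_mul]; exact hz8
  have hroots : ∀ d, 0 < d → (∀ z : F, Cir σ z → z ^ d = 1) → q + 1 ≤ d := fun d hd h => by
    rw [← card_cir hS.card hS.frob]
    refine (Finset.card_le_card (t := (Polynomial.nthRoots d (1 : F)).toFinset)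
      fun z hz => ?_).trans ((Multiset.toFinset_card_le _).trans (Polynomial.card_nthRoots _ _))
    rw [Multiset.mem_toFinset, Polynomial.mem_nthRoots hd]
    exact h z (Finset.mem_filter.1 hz).2
  have hle := hroots (Nat.gcd 8 (q + 1)) (Nat.gcd_pos_of_pos_left _ (by norm_num)) fun z hz =>
    pow_gcd_eq_one.2 ⟨hall z hz, (UnitMono91.cir_iff hS).1 hz⟩
  have hq7 : q = 7 := by
    have h8 := Nat.le_of_dvd (by norm_num) (Nat.gcd_dvd_left 8 (q + 1))
    have h2 := hS.two_le
    have hq' : q ≤ 7 := by omega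
    exact (by decide : ∀ n < 8, 2 ≤ n → n ≠ 3 → n + 1 ≤ Nat.gcd 8 (n + 1) → n = 7) q (by omega) h2 hq3 hle
  haveI : CharP F q := by
    haveI := Fact.mk (show Nat.Prime q by rw [hq7]; norm_num)
    exact charP_of_card_eq_prime_pow hS.card
  refine seven_absurd hG hn hq7 (fun k => ?_) (hMle g₀ hg₀) hgm₀
  obtain ⟨z, hz, hz4⟩ : ∃ z : F, Cir σ z ∧ z ^ 4 ≠ 1 := by
    by_contra hno
    push Not at hno
    have := hroots 4 (by norm_num) hno
    omega
  have e : Units.mk0 z hz.ne_zero ^ 4 = -1 := by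
    refine Units.ext ?_
    rw [Units.val_pow_eq_pow_val, Units.val_mk0, Units.val_neg, Units.val_one]
    have h1 := hall z hz
    rw [show (8 : ℕ) = 4 * 2 by norm_num, pow_mul] at h1
    exact (sq_eq_one_iff.1 h1).resolve_left hz4
  have := hRt (Units.mk0 z hz.ne_zero) hz k
  rwa [e] at this

/-- The field of order four. -/
theorem two_centres (hO : Over q σ M) (hn : Fintype.card ι = 4) (hq : q = 2) {g : GL ι F} (hg : g ∈ M)
    (hgm : ¬ IsMono g) : ∀ y, sf σ y y = 0 → Centre hO.std.isUnitary M y := by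
  classical
  subst hq
  have hS := hO.std
  have hf := hS.isUnitary (ι := ι)
  have hone : ∀ z : F, z ≠ 0 → z * σ z = 1 := fun z hz => by
    have h := FiniteField.pow_card_sub_one_eq_one z hz
    rw [hS.card] at h
    rw [hS.frob]; linear_combination h
  have h20 : (2 : F) = 0 := by
    have h5 := Nat.cast_card_eq_zero F
    rw [hS.card] at h5
    push_cast at h5
    exact pow_eq_zero_iff (show 2 ≠ 0 by norm_num) |>.1 (by linear_combination h5)
  haveI : CharP F 2 := CharTwo.of_one_ne_zero_of_two_eq_zero one_ne_zero h20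
  have hsum : ∀ y : ι → F, sf σ y y = ((Finset.univ.filter fun i => y i ≠ 0).card : F) := fun y => by
    rw [sf, ← Finset.sum_filter_ne_zero, Finset.card_eq_sum_ones, Nat.cast_sum]
    refine Finset.sum_congr (Finset.filter_congr fun i _ => by simp) fun i hi => ?_
    rw [Nat.cast_one]
    exact hone _ (Finset.mem_filter.1 hi).2
  -- pairs
  have hpair : ∀ i j, i ≠ j → ∀ x y : F, x ≠ 0 → y ≠ 0 → Centre hf M (UnitMono91.pv i j x y) := by
    intro i j hij x y hx hy
    have hz : sf σ (UnitMono91.pv i j x y) (UnitMono91.pv i j x y) = 0 := by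
      rw [sf, Fintype.sum_eq_add i j hij fun p hp => by simp [UnitMono91.pv_apply hij, hp.1, hp.2]]
      simp only [UnitMono91.pv_apply hij, if_pos, if_neg (Ne.symm hij)]
      rw [hone x hx, hone y hy]
      linear_combination h20
    refine ⟨hz, fun c hc => ?_⟩
    rcases eq_or_ne c 0 with rfl | hc0
    · convert M.one_mem using 1
      exact ext_mulVec fun z => by simp [uT_mulVec]
    have hc1 : c = 1 := by
      have h1 := hone c hc0
      rw [show σ c = -c by linear_combination hc] at h1
      have h2 : (c + 1) * (c + 1) = 0 := by linear_combination -h1 + c * h20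
      linear_combination (mul_self_eq_zero.1 h2) - h20
    subst hc1
    refine hO.mono_mem _ (uT_iso hf hz hc) (uT_mem_specialLinear hf hz 1) fun k => ?_
    have e1 : x * σ x = 1 := hone x hx
    have e2 : y * σ y = 1 := hone y hy
    have key : ∀ p, (((uT hf hz 1 : GL ι F) : Matrix ι ι F) *ᵥ ax k) p =
        (ax k) p + σ (UnitMono91.pv i j x y k) * UnitMono91.pv i j x y p := fun p => by
      rw [uT_mulVec, sf_ax_left, one_mul, Pi.add_apply, Pi.smul_apply, smul_eq_mul]
    refine ⟨Equiv.swap i j k, mem_axis_iff.2 fun p hp => ?_⟩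
    rw [key, UnitMono91.pv_apply hij, UnitMono91.pv_apply hij]
    rcases eq_or_ne k i with rfl | hki
    · rw [Equiv.swap_apply_left] at hp
      rcases eq_or_ne p k with rfl | hpk
      · simp
        linear_combination e1 + h20
      · simp [hp, hpk]
    rcases eq_or_ne k j with rfl | hkj
    · rw [Equiv.swap_apply_right] at hp
      rcases eq_or_ne p k with rfl | hpk
      · simp [hki]
        linear_combination e2 + h20
      · simp [hp, hpk]
    · rw [Equiv.swap_apply_of_ne_of_ne hki hkj] at hp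
      simp [hki, hkj, hp]
  have hmul : ∀ i, ((g : Matrix ι ι F) *ᵥ ax i) ≠ 0 := fun i => MonoBasics.mulVec_ne_zero g (ax_ne_zero i)
  -- non-axis columns have three entries
  have hthree : ∀ i, (∀ r, (g : Matrix ι ι F) *ᵥ ax i ∉ Submodule.span F {ax r}) →
      ∃ p, ∀ r, ((g : Matrix ι ι F) *ᵥ ax i) r = 0 ↔ r = p := by
    intro i hi
    set v := (g : Matrix ι ι F) *ᵥ ax i with hv
    have hv1 : sf σ v v = 1 := by rw [hv, hO.iso g hg, sf_ax_self]
    rw [hsum] at hv1
    set S := Finset.univ.filter fun r => v r ≠ 0 with hS'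
    have hodd : S.card % 2 = 1 := by
      have := (CharP.cast_eq_iff_mod_eq F 2 (a := S.card) (b := 1)).1 (by rw [hv1, Nat.cast_one])
      simpa using this
    obtain ⟨a, b, hab, ha, hb⟩ := SUSix96.Mono.exists_two (hmul i) hi
    have h2 : 1 < S.card := Finset.one_lt_card.2 ⟨a, Finset.mem_filter.2 ⟨Finset.mem_univ _, ha⟩, b, Finset.mem_filter.2 ⟨Finset.mem_univ _, hb⟩, hab⟩
    have hle := Finset.card_le_univ S
    obtain ⟨p, hp⟩ := Finset.card_eq_one.1 (show Sᶜ.card = 1 by rw [Finset.card_compl]; omega)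
    refine ⟨p, fun r => ?_⟩
    have := Finset.ext_iff.1 hp r
    simpa [hS'] using this
  obtain ⟨w, hw, hwfull⟩ : ∃ w, Centre hf M w ∧ ∀ r, w r ≠ 0 := by
    obtain ⟨i, hi⟩ : ∃ i, ∀ r, (g : Matrix ι ι F) *ᵥ ax i ∉ Submodule.span F {ax r} := by
      by_contra hc
      push Not at hc
      exact hgm hc
    obtain ⟨p, hp⟩ := hthree i hi
    set v := (g : Matrix ι ι F) *ᵥ ax i with hv
    have himg : ∀ j, j ≠ i → ∀ ξ : F, ξ ≠ 0 → Centre hf M (v + ξ • ((g : Matrix ι ι F) *ᵥ ax j)) := by
      intro j hj ξ hξ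
      have := (hpair i j (Ne.symm hj) 1 ξ one_ne_zero hξ).image hg (hO.iso g hg)
      rwa [UnitMono91.pv, mulVec_add, mulVec_smul, mulVec_smul, one_smul] at this
    by_cases hax : ∃ j, j ≠ i ∧ ∃ r, (g : Matrix ι ι F) *ᵥ ax j ∈ Submodule.span F {ax r}
    · obtain ⟨j, hj, r, hr⟩ := hax
      obtain ⟨c, hc⟩ := Submodule.mem_span_singleton.1 hr
      have hc0 : c ≠ 0 := fun e => hmul j (by rw [← hc, e, zero_smul])
      have hvr : v r = 0 := by
        have h := hO.iso g hg (ax i) (ax j)
        rw [← hv, ← hc, smul_right hf, sf_ax_right, sf_ax_right, Pi.single_eq_of_ne hj] at h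
        exact (mul_eq_zero.1 h).resolve_left ((map_ne_zero σ).2 hc0)
      refine ⟨_, himg j hj 1 one_ne_zero, fun l => ?_⟩
      rw [← hc, Pi.add_apply, Pi.smul_apply, Pi.smul_apply, smul_eq_mul, one_mul, smul_eq_mul]
      rcases eq_or_ne l r with rfl | hlr
      · rw [hvr, Pi.single_eq_same, zero_add, mul_one]; exact hc0
      · rw [Pi.single_eq_of_ne hlr, mul_zero, add_zero]
        exact fun h => hlr (((hp l).1 h).trans ((hp r).1 hvr).symm)
    push Not at hax
    obtain ⟨j, hj, pj, hpj, hne⟩ : ∃ j, j ≠ i ∧ ∃ pj, (∀ r, ((g : Matrix ι ι F) *ᵥ ax j) r = 0 ↔ r = pj) ∧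
        pj ≠ p := by
      by_contra hc
      push Not at hc
      have hz : ∀ j, ((g : Matrix ι ι F) *ᵥ ax j) p = 0 := by
        intro j
        rcases eq_or_ne j i with rfl | hj
        · exact (hp p).2 rfl
        · obtain ⟨pj, hpj⟩ := hthree j (hax j hj)
          exact (hpj p).2 (hc j hj pj hpj).symm
      have h1 : ((g : Matrix ι ι F) *ᵥ (((g⁻¹ : GL ι F) : Matrix ι ι F) *ᵥ ax p)) p = 0 := by
        rw [Matrix.mulVec, dotProduct]
        refine Finset.sum_eq_zero fun k _ => ?_
        rw [← UnitMono91.col_apply g k p, hz k, zero_mul]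
      rw [mulVec_inv_mulVec, Pi.single_eq_same] at h1
      exact one_ne_zero h1
    set u := (g : Matrix ι ι F) *ᵥ ax j
    obtain ⟨l, m, hlm, hlp, hlpj, hmp, hmpj⟩ := SUSix96.Mono.exists_two_other (ι := ι) (by omega) p pj
    obtain ⟨ξ, -, hξ⟩ := Finset.exists_mem_notMem_of_card_lt_card
      (s := ({0, -(v l) / u l, -(v m) / u m} : Finset F)) (t := (Finset.univ : Finset F)) (by
        rw [Finset.card_univ, hS.card]
        exact Finset.card_le_three.trans_lt (by norm_num))
    simp only [Finset.mem_insert, Finset.mem_singleton, not_or] at hξ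
    refine ⟨_, himg j hj ξ hξ.1, fun r => ?_⟩
    rw [Pi.add_apply, Pi.smul_apply, smul_eq_mul]
    rcases eq_or_ne r p with rfl | hrp
    · rw [(hp r).2 rfl, zero_add]; exact mul_ne_zero hξ.1 fun e => hne ((hpj r).1 e).symm
    rcases eq_or_ne r pj with rfl | hrpj
    · have hz := (hpj r).2 rfl
      change v r + ξ * u r ≠ 0
      rw [show u r = 0 from hz, mul_zero, add_zero]; exact fun e => hrp ((hp r).1 e)
    have hr : r = l ∨ r = m := by
      by_contra h
      rw [not_or] at h
      have hd : ({p, pj, l, m, r} : Finset ι).card = 5 := by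
        simp [Ne.symm hne, Ne.symm hlp, Ne.symm hmp, Ne.symm hrp, Ne.symm hlpj, Ne.symm hmpj, Ne.symm hrpj,
          hlm, Ne.symm h.1, Ne.symm h.2]
      have := Finset.card_le_univ ({p, pj, l, m, r} : Finset ι)
      omega
    have hur : u r ≠ 0 := fun e => hrpj ((hpj r).1 e)
    intro h0
    have e : ξ = -(v r) / u r := by rw [eq_div_iff hur]; linear_combination h0
    rcases hr with rfl | rfl
    · exact hξ.2.1 e
    · exact hξ.2.2 e
  intro y hy
  have hev := hy
  rw [hsum] at hev
  set S := Finset.univ.filter fun i => y i ≠ 0 with hS'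
  have heven : S.card % 2 = 0 := by
    have := (CharP.cast_eq_iff_mod_eq F 2 (a := S.card) (b := 0)).1 (by rw [hev, Nat.cast_zero])
    simpa using this
  have hle := Finset.card_le_univ S
  obtain h0 | h2 | h4 : S.card = 0 ∨ S.card = 2 ∨ S.card = 4 := by omega
  · have : y = 0 := funext fun i => by
      by_contra hne
      have := Finset.card_pos.2 ⟨i, show i ∈ S by simp [hS', show y i ≠ 0 from hne]⟩
      omega
    subst this
    exact ⟨hy, fun c _ => by convert M.one_mem using 1; exact ext_mulVec fun x => by simp [uT_mulVec]⟩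
  · obtain ⟨i, j, hij, he⟩ := Finset.card_eq_two.1 h2
    have hyi : y i ≠ 0 := by
      have : i ∈ S := by rw [he]; simp
      simpa [hS'] using this
    have hyj : y j ≠ 0 := by
      have : j ∈ S := by rw [he]; simp
      simpa [hS'] using this
    convert hpair i j hij _ _ hyi hyj using 1
    funext k
    rw [UnitMono91.pv_apply hij]
    split_ifs with h1 h2
    · rw [h1]
    · rw [h2]
    · by_contra hk
      have : k ∈ S := by simp [hS', hk]
      rw [he] at this
      simp [h1, h2] at this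
  · have hyf : ∀ i, y i ≠ 0 := fun i => by
      have : i ∈ S := by rw [Finset.eq_univ_of_card S (h4.trans hn.symm)]; exact Finset.mem_univ _
      simpa [hS'] using this
    let r : ι → Fˣ := fun i => Units.mk0 (y i / w i) (div_ne_zero (hyf i) (hwfull i))
    set c := ∏ i, r i
    have hc3 : c ^ 3 = 1 := by
      have := FiniteField.pow_card_sub_one_eq_one (c : F) c.ne_zero
      rw [hS.card] at this
      exact Units.ext (by simpa using this)
    let t : ι → Fˣ := fun i => r i * c⁻¹
    have hd : dg t ∈ M := by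
      refine hO.dg_mem (fun i => hone _ (t i).ne_zero) ?_
      rw [Finset.prod_mul_distrib, Finset.prod_const, Finset.card_univ, hn]
      show c * c⁻¹ ^ 4 = 1
      rw [inv_pow, show c ^ 4 = c by rw [pow_succ, hc3, one_mul], mul_inv_cancel]
    convert (hw.image hd (hO.iso _ hd)).smul (c : F) using 1
    funext i
    have := hwfull i
    simp [dg_mulVec, t, r]
    field_simp

/-- All isotropic vectors are centres. -/
theorem all_centres (hO : Over q σ M) (hq3 : q ≠ 3) (hn : Fintype.card ι = 4) {g₀ : GL ι F}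
    (hg₀ : g₀ ∈ M) (hnm : ¬ IsMono g₀) : ∀ y, sf σ y y = 0 → Centre hO.std.isUnitary M y := by
  by_cases hq2 : q = 2
  · exact two_centres hO hn hq2 hg₀ hnm
  have h3 : 3 ≤ q := by have := hO.std.two_le; omega
  have hn4 : 4 ≤ Fintype.card ι := by omega
  obtain ⟨h, hh, hhm, a, ha⟩ := exists_fix hO hn hq3 hg₀ hnm
  obtain ⟨c, hc⟩ := Submodule.mem_span_singleton.1 ha
  obtain ⟨w, hw, hwa, hw0⟩ := exists_centre hO hn hh hhm hc.symm
  obtain ⟨l, m, x, y, hlm, hx, hy, hC⟩ := pair_seed hO hn4 h3 hw hwa hw0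
  exact all_isotropic hO hn4
    (fun hij _ _ hx' hy' h0 => pair_all hO hn4 hlm hx hy hC hij hx' hy' h0) h3

end

open Cfsg in
/-- The stabiliser of a decomposition into orthogonal axes is maximal. -/
theorem monomial_maximal {F : Type*} [Field F] [Fintype F] (n q : ℕ) (hF : Fintype.card F = q ^ 2) (hn : n = 4) (hq3 : q ≠ 3) {t : ℕ} (k : ℕ) (hk1 : k = 1) (D : Fin t → Submodule F (Fin n → F)) (hD : Cfsg.Geo.IsNondegenerateMDecomposition (Cfsg.hermForm n F q) k D) : Cfsg.Geo.IsMaximalIn (Cfsg.GU n F q ⊓ Cfsg.Geo.specialLinear (Fin n) F) (Cfsg.Geo.decompositionStabilizer D ⊓ (Cfsg.GU n F q ⊓ Cfsg.Geo.specialLinear (Fin n) F)) := by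
  classical
  open Matrix CfsgLib.TransvGL CfsgLib.UnitCentres CfsgLib.UnitMono CfsgLib.UnitBlock CfsgLib.CircleSums
    CfsgLib.MonoBasics CfsgLib.DecompProj in
  exact (by
    have hkt := mul_eq_card hD.decomp
    rw [Fintype.card_fin] at hkt
    have hk0 := hD.decomp.pos
    have ht2 := hD.decomp.two_le
    obtain ⟨σ, hσ, hσne, -⟩ := CfsgLib.LinAlg.Witt.exists_conjAut hF
    have hS : Std q σ := ⟨hF, hσ⟩
    have hsf : (sf σ : (Fin n → F) → (Fin n → F) → F) = Cfsg.hermForm n F q := by
      funext x y; simp [sf, Cfsg.hermForm, hσ]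
    have hfn : Cfsg.Geo.IsUnitaryForm σ (Cfsg.hermForm n F q) := hsf ▸ hS.isUnitary
    have hnd : ∀ i, CfsgLib.Unitary.IsNondeg q (D i) := fun i u hu h => by
      by_contra hne
      obtain ⟨-, x, hx, hxu⟩ := hD.nondegenerate i u hu hne
      exact hxu (h x hx)
    choose b hb hbD hbspan using fun i =>
      CfsgLib.Unitary.exists_orthonorm_basis hF (hnd i) (hD.decomp.finrank_eq i)
    let G : Fin k × Fin t → (Fin n → F) := fun p => b p.2 p.1
    have hG : ∀ p p', Cfsg.hermForm n F q (G p) (G p') = if p = p' then 1 else 0 := by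
      rintro ⟨j, i⟩ ⟨j', i'⟩
      by_cases h : i = i'
      · subst h
        rw [show Cfsg.hermForm n F q (G (j, i)) (G (j', i)) = _ from hb i j j']
        simp
      · rw [hD.orthogonal i i' h _ (hbD i j) _ (hbD i' j'), if_neg (by simp [h])]
    let L0 : (Fin k × Fin t → F) →ₗ[F] (Fin n → F) := Fintype.linearCombination F G
    have hL0 : ∀ x, L0 x = ∑ p, x p • G p := fun x => rfl
    have hcoord : ∀ x p, Cfsg.hermForm n F q (L0 x) (G p) = x p := fun x p => by
      rw [hL0, CfsgLib.Unitary.herm_sum_left, Finset.sum_eq_single p]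
      · rw [CfsgLib.Unitary.herm_smul_left, hG, if_pos rfl, mul_one]
      · intro p' _ hp'
        rw [CfsgLib.Unitary.herm_smul_left, hG, if_neg hp', mul_zero]
      · simp
    have hinj : Function.Injective L0 := fun x y h => funext fun p => by
      rw [← hcoord x p, h, hcoord]
    let L : (Fin k × Fin t → F) ≃ₗ[F] (Fin n → F) :=
      LinearMap.linearEquivOfInjective L0 hinj (by
        rw [Module.finrank_fintype_fun_eq_card, Module.finrank_fintype_fun_eq_card, Fintype.card_prod,
          Fintype.card_fin, Fintype.card_fin, Fintype.card_fin, ← hkt, mul_comm])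
    have hL : ∀ x, L x = L0 x := fun x => rfl
    have hLf : ∀ x y, Cfsg.hermForm n F q (L x) (L y) = sf σ x y := fun x y => by
      rw [hL, hL, hL0 y, CfsgLib.Unitary.herm_sum_right hF, sf]
      refine Finset.sum_congr rfl fun p _ => ?_
      rw [CfsgLib.Unitary.herm_smul_right, hcoord, hσ, mul_comm]
    have hLsupp : ∀ i y, L (emb i y) ∈ D i := fun i y => by
      rw [hL, hL0]
      refine Submodule.sum_mem _ fun p _ => ?_
      obtain ⟨j, i'⟩ := p
      by_cases h : i' = i
      · subst h; exact Submodule.smul_mem _ _ (hbD i' j)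
      · simp [emb, h]
    have hLsurj : ∀ i, ∀ v ∈ D i, ∃ y, L (emb i y) = v := fun i v hv => by
      rw [← hbspan i, Submodule.mem_span_range_iff_exists_fun] at hv
      obtain ⟨c, rfl⟩ := hv
      refine ⟨c, ?_⟩
      rw [hL, hL0, Fintype.sum_prod_type]
      refine Finset.sum_congr rfl fun j _ => ?_
      rw [Finset.sum_eq_single i (fun i' _ h => by simp [emb, h]) (by simp)]
      simp [emb, G]
    set Φ := Cfsg.Agent.S5655.transport L with hΦ
    have hΦiso : ∀ g, g ∈ (Cfsg.GU n F q ⊓ Cfsg.Geo.specialLinear (Fin n) F).comap Φ ↔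
        Iso (sf σ) g ∧ g ∈ Cfsg.Geo.specialLinear (Fin k × Fin t) F := fun g => by
      rw [Subgroup.mem_comap, mem_special, CfsgLib.PseudoRefl.mem_specialLinear_iff,
        CfsgLib.PseudoRefl.mem_specialLinear_iff, Cfsg.Agent.S5655.det_transport]
      refine and_congr_left' ⟨fun h x y => ?_, fun h u v => ?_⟩
      · rw [← hLf, ← hLf, ← Cfsg.Agent.S5655.transport_mulVec, ← Cfsg.Agent.S5655.transport_mulVec, h]
      · obtain ⟨x, rfl⟩ := L.surjective u
        obtain ⟨y, rfl⟩ := L.surjective v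
        rw [Cfsg.Agent.S5655.transport_mulVec, Cfsg.Agent.S5655.transport_mulVec, hLf, hLf, h]
    have hstab : ∀ g, StabBlocks g → Φ g ∈ Cfsg.Geo.decompositionStabilizer D := by
      rintro g ⟨π, hπ⟩
      refine mem_decompositionStabilizer_of_maps hD.decomp π fun i v hv => ?_
      obtain ⟨y, rfl⟩ := hLsurj i v hv
      obtain ⟨y', hy'⟩ := hπ i y
      rw [Cfsg.Agent.S5655.transport_mulVec, hy']
      exact hLsupp _ _
    refine ⟨lt_of_le_of_ne inf_le_right ?_, fun M hHM hMK => ?_⟩
    · -- a transvection mixing members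
      intro e
      obtain ⟨j0⟩ : Nonempty (Fin k) := ⟨⟨0, hk0⟩⟩
      set i0 : Fin t := ⟨0, by omega⟩
      set i1 : Fin t := ⟨1, by omega⟩
      have hi01 : i0 ≠ i1 := by simp [i0, i1]
      have hout : ∀ (z : Fin k × Fin t → F) (c : F) (y : Fin k → F), sf σ z z = 0 → c + σ c = 0 →
          ∀ (hz : sf σ z z = 0), ∀ p p', p ≠ p' →
          blk (emb i0 y + (c * sf σ (emb i0 y) z) • z) p ≠ 0 →
          blk (emb i0 y + (c * sf σ (emb i0 y) z) • z) p' ≠ 0 → False := by
        intro z c y _ hc hz p p' hpp hp hp'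
        have hmem : uT (hS.isUnitary) hz c ∈ (Cfsg.GU n F q ⊓ Cfsg.Geo.specialLinear (Fin n) F).comap Φ :=
          (hΦiso _).2 ⟨uT_iso _ hz hc, uT_mem_specialLinear _ hz c⟩
        rw [Subgroup.mem_comap, ← e] at hmem
        obtain ⟨i, hi⟩ := image_mem_of_stabilizer (Subgroup.mem_inf.1 hmem).1 (hLsupp i0 y)
        obtain ⟨y', hy'⟩ := hLsurj i _ hi
        rw [Cfsg.Agent.S5655.transport_mulVec, uT_mulVec] at hy'
        rw [← L.injective hy', blk_emb] at hp hp'
        have h1 : p = i := by by_contra h; exact hp (if_neg h)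
        have h2 : p' = i := by by_contra h; exact hp' (if_neg h)
        exact hpp (h1.trans h2.symm)
      by_cases hq : q = 2
      · have hone : ∀ z : F, z ≠ 0 → z * σ z = 1 := fun z hz => by
          have := FiniteField.pow_card_sub_one_eq_one z hz
          rw [hF, hq] at this
          rw [hσ, hq]; linear_combination this
        have h20 : (2 : F) = 0 := by
          have h5 := Nat.cast_card_eq_zero F
          rw [hF, hq] at h5
          push_cast at h5
          exact pow_eq_zero_iff (show 2 ≠ 0 by norm_num) |>.1 (by linear_combination h5)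
        subst hk1
        set i2 : Fin t := ⟨2, by omega⟩
        set i3 : Fin t := ⟨3, by omega⟩
        set z : Fin 1 × Fin t → F := fun p => if p.2.val < 4 then 1 else 0 with hzdef
        have hz : sf σ z z = 0 := by
          rw [sf_blk, ← Finset.sum_subset (Finset.subset_univ ({i0, i1, i2, i3} : Finset (Fin t)))
            fun i _ hi => by
              simp only [i0, i1, i2, i3, Finset.mem_insert, Finset.mem_singleton, Fin.ext_iff, not_or] at hi
              simp [sf, blk, hzdef, show ¬ (i.val < 4) by omega]]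
          simp [sf, blk, hzdef, i0, i1, i2, i3]
          linear_combination 2 * h20
        have e1 : sf σ (emb i0 (fun _ : Fin 1 => (1 : F))) z = 1 := by
          rw [sf_emb_left]; simp [sf, blk, hzdef, i0]
        refine hout z 1 (fun _ => 1) hz (by rw [map_one]; linear_combination h20) hz i2 i3
          (by simp [i2, i3]) ?_ ?_
        all_goals
          intro h
          have := congrFun h 0
          rw [e1, mul_one, one_smul] at this
          simp [blk, emb, hzdef, i0, i2, i3] at this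
      · obtain ⟨c, hc0, hc, hc1⟩ : ∃ c : F, c ≠ 0 ∧ c + σ c = 0 ∧ c + 1 ≠ 0 := by
          obtain ⟨c, hc0, hc⟩ := exists_traceZero (hS.isUnitary (ι := Fin k))
          by_cases h1 : c + 1 = 0
          · obtain ⟨r, hr, hr'⟩ := Finset.exists_mem_notMem_of_card_lt_card (s := ({0, 1} : Finset F))
              (t := Finset.univ.filter fun z : F => σ z = z)
              (by rw [card_fixed hF hσ]; have := hS.two_le; exact Finset.card_le_two.trans_lt (by omega))
            simp only [Finset.mem_insert, Finset.mem_singleton, not_or] at hr'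
            refine ⟨r * c, mul_ne_zero hr'.1 hc0, ?_, fun e => hr'.2 (by linear_combination r * h1 - e)⟩
            rw [map_mul, (Finset.mem_filter.1 hr).2]
            linear_combination r * hc
          · exact ⟨c, hc0, hc, h1⟩
        obtain ⟨ξ, hξ⟩ := exists_norm hF hσ (r := (-1 : F)) (by simp)
        have hξ0 : ξ ≠ 0 := fun e => by simp [e] at hξ
        set z : Fin k × Fin t → F := emb i0 (Pi.single j0 1) + emb i1 (Pi.single j0 ξ) with hzdef
        have hz : sf σ z z = 0 := by
          rw [sf_two hS hi01 (fun p h1 h2 => by rw [hzdef, blk_add, blk_emb, blk_emb, if_neg h1, if_neg h2, add_zero]),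
            hzdef, blk_add, blk_add, blk_emb, blk_emb, blk_emb, blk_emb, if_pos rfl, if_neg hi01,
            if_neg hi01.symm, if_pos rfl, add_zero, zero_add, sf_ax_self]
          simp [sf, Pi.single_apply, apply_ite σ]
          linear_combination hξ
        refine hout z c (Pi.single j0 1) hz hc hz i0 i1 hi01 ?_ ?_
        · intro h
          have := congrFun h j0
          simp [blk, emb, hzdef, sf_emb_left, sf_ax_left, hi01, hi01.symm] at this
          exact hc1 (by linear_combination this)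
        · intro h
          have := congrFun h j0
          simp [blk, emb, hzdef, sf_emb_left, sf_ax_left, hi01, hi01.symm] at this
          rcases this with h' | h'
          · exact hc0 h'
          · exact hξ0 h'
    by_cases hle : M ≤ Cfsg.Geo.decompositionStabilizer D
    · exact Or.inl (le_antisymm (le_inf hle hMK) hHM)
    obtain ⟨g₀, hg₀M, hg₀⟩ := SetLike.not_le_iff_exists.1 hle
    obtain ⟨g, rfl⟩ := Cfsg.Agent.S5655.transport_surjective L g₀
    refine Or.inr (le_antisymm hMK ?_)
    set M' := M.comap Φ with hM'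
    have hmem : ∀ x, Iso (sf σ) x → x ∈ Cfsg.Geo.specialLinear (Fin k × Fin t) F → StabBlocks x → x ∈ M' :=
      fun x h1 h2 h3 => hHM (Subgroup.mem_inf.2 ⟨hstab x h3, (hΦiso x).2 ⟨h1, h2⟩⟩)
    have hiso' : ∀ x ∈ M', Iso (sf σ) x ∧ x ∈ Cfsg.Geo.specialLinear (Fin k × Fin t) F :=
      fun x hx => (hΦiso x).1 (hMK hx)
    have hcent : ∀ y, sf σ y y = 0 → Centre hS.isUnitary M' y := by
      have hmono : ∀ x : GL (Fin k × Fin t) F, IsMono x → StabBlocks x := fun x hx => by
        subst hk1
        choose π hπ using hx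
        have hπi := mono_index_injective hπ
        refine ⟨Equiv.ofBijective (fun i => (π (0, i)).2) (Finite.injective_iff_bijective.1 fun a a' h => ?_),
          fun i y => ⟨blk ((x : Matrix _ _ F) *ᵥ emb i y) ((π (0, i)).2), emb_eq_of_blk fun l hl => ?_⟩⟩
        · have : π (0, a) = π (0, a') := Prod.ext (Subsingleton.elim _ _) h
          exact congrArg Prod.snd (hπi this)
        · have e : emb i y = y 0 • (Pi.single ((0 : Fin 1), i) 1 : Fin 1 × Fin t → F) := funext fun p => by
            obtain ⟨j, i'⟩ := p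
            obtain rfl : j = 0 := Subsingleton.elim _ _
            by_cases h : i' = i
            · subst h; simp [emb]
            · simp [emb, h]
          obtain ⟨c, hc⟩ := Submodule.mem_span_singleton.1 (hπ (0, i))
          rw [e, mulVec_smul, ← hc]
          funext j
          have : (j, l) ≠ π (0, i) := fun h => hl (by simpa using congrArg Prod.snd h)
          simp [blk, this]
      have hO : Over q σ M' :=
        ⟨hS, fun x h1 h2 h3 => hmem x h1 h2 (hmono x h3), fun x hx => (hiso' x hx).1,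
          fun x hx => (hiso' x hx).2⟩
      exact all_centres hO hq3 (by rw [Fintype.card_prod, Fintype.card_fin, Fintype.card_fin, hk1]; subst hk1; omega)
        (g₀ := g) hg₀M (fun h => hg₀ (hstab g (hmono g h)))
    refine gu_le_of_centres hF (by omega) hσ hfn fun v hv => ?_
    obtain ⟨y, rfl⟩ := L.surjective v
    rw [hLf] at hv
    obtain ⟨hv', hc⟩ := hcent y hv
    refine ⟨by rw [hLf]; exact hv, fun c hc0 => ?_⟩
    convert Subgroup.mem_comap.1 (hc c hc0) using 1
    refine ext_mulVec fun u => ?_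
    obtain ⟨x, rfl⟩ := L.surjective u
    rw [Cfsg.Agent.S5655.transport_mulVec, uT_mulVec, uT_mulVec, hLf, map_add, map_smul])



end CfsgLib.SUFour96.Mono
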