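import Cfsg.Agent.SUFour96.OrthLines

/-!
A subgroup strictly above the orthogonal subfield group of `SU₄(q)` contains a transvection at a rational point.
For an irrational element the product of the semilinear involution with its conjugate is scalar on elliptic
planes attached to the rational isotropic points, and so has a rational isotropic eigenvector.
-/

set_option autoImplicit false
set_option linter.unusedSectionVars false
set_option maxHeartbeats 1000000

namespace CfsgLib.SUFour96.OrthSub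

open Cfsg Module CfsgLib.Unitary CfsgLib.Subfield54 CfsgLib.UnitGeo
open scoped Matrix MatrixGroups

variable {F : Type*} [Field F] {q : ℕ} {F₀ : Subfield F} {P : GL (Fin 4) F}

local notation "hf" => hermForm 4 F q

variable [Fintype F] (hF : Fintype.card F = q ^ 2)
include hF

/-- A product of two reflections. -/
lemma exists_refl_pair_mem {p d : Fin 4 → F} (hp : hf p p ≠ 0) (hd : hf d d ≠ 0) :
    MIn (SUGL 4 F q) (rankOne q ((-2 / hf d d) • d) d * rankOne q ((-2 / hf p p) • p) p) := by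
  have hdet : (rankOne q ((-2 / hf d d) • d) d * rankOne q ((-2 / hf p p) • p) p).det = 1 := by
    rw [Matrix.det_mul, det_rankOne, det_rankOne, herm_smul_left, herm_smul_left, div_mul_cancel₀ _ hd,
      div_mul_cancel₀ _ hp]
    ring
  have hpres : ∀ v : Fin 4 → F, hf v v ≠ 0 → ∀ x y,
      hf (rankOne q ((-2 / hf v v) • v) v *ᵥ x) (rankOne q ((-2 / hf v v) • v) v *ᵥ y) = hf x y := fun v hv x y =>
    rankOne_self_preserves hF v (-2 / hf v v) (by
      have e : (-2 / hf v v) ^ q = -2 / hf v v := by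
        rw [div_pow, neg_pow_q hF, pow_q_two hF, herm_self_fixed hF v]
      rw [pow_succ, e]
      field_simp
      ring) x y
  refine ⟨Matrix.GeneralLinearGroup.mkOfDetNeZero _ (by rw [hdet]; exact one_ne_zero),
    ⟨fun x y => ?_, Units.ext hdet⟩, rfl⟩
  show hf ((rankOne q ((-2 / hf d d) • d) d * rankOne q ((-2 / hf p p) • p) p) *ᵥ x)
    ((rankOne q ((-2 / hf d d) • d) d * rankOne q ((-2 / hf p p) • p) p) *ᵥ y) = hf x y
  rw [← Matrix.mulVec_mulVec, ← Matrix.mulVec_mulVec, hpres d hd, hpres p hp]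

variable (hS : RStr q F₀ 1 P) (h2 : (2 : F) ≠ 0)
include hS h2

omit h2 in
lemma reflection_rat {v x : Fin 4 → F} (hv : InW F₀ P v) (hx : InW F₀ P x) :
    InW F₀ P (rankOne q ((-2 / hf v v) • v) v *ᵥ x) := by
  rw [rankOne_mulVec, smul_smul]
  exact hx.add (hv.smul (F₀.mul_mem (rat_one hF hS hx hv)
    (F₀.div_mem (F₀.neg_mem two_mem) (rat_one hF hS hv hv))))

omit h2 in
lemma exists_sqrt (h2' : ringChar F ≠ 2) {a : F} (ha : a ∈ F₀) : ∃ η : F, η * η = a := by
  by_cases ha0 : a = 0
  · exact ⟨0, by rw [ha0, mul_zero]⟩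
  obtain ⟨η, hη⟩ := (FiniteField.isSquare_iff h2' ha0).2 (by
    have hodd : q % 2 = 1 := by
      have h1 := FiniteField.odd_card_of_char_ne_two h2'
      rw [hF, Nat.pow_mod] at h1
      rcases Nat.mod_two_eq_zero_or_one q with h | h
      · rw [h] at h1; simp at h1
      · exact h
    obtain ⟨m, hm⟩ : ∃ m, q = 2 * m + 1 := ⟨q / 2, by omega⟩
    have h2m : a ^ (2 * m) = 1 := by
      have h := pow_q_of_mem hF hS ha
      rw [hm, pow_succ] at h
      exact mul_right_cancel₀ ha0 (h.trans (one_mul a).symm)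
    rw [hF, show q ^ 2 = 2 * (2 * m * (m + 1)) + 1 by rw [hm]; ring,
      show (2 * (2 * m * (m + 1)) + 1) / 2 = 2 * m * (m + 1) by omega, pow_mul, h2m, one_pow])
  exact ⟨η, hη.symm⟩

variable (hq : 5 ≤ q)
include hq

lemma exists_slope (η : F) : ∃ k ∈ F₀, k ≠ 0 ∧ k ≠ η ∧ k ≠ -η := by
  classical
  by_contra hno
  push Not at hno
  have hsub : (F₀ : Set F) ⊆ ↑({0, η, -η} : Finset F) := fun x hx => by
    simp only [Finset.coe_insert, Finset.coe_singleton, Set.mem_insert_iff, Set.mem_singleton_iff]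
    tauto
  have h1 := Set.ncard_le_ncard hsub (Finset.finite_toSet _)
  rw [Set.ncard_coe_finset] at h1
  have h3 := Finset.card_le_three (a := (0 : F)) (b := η) (c := -η)
  have hc : (F₀ : Set F).ncard = q := by
    rw [← Nat.card_coe_set_eq, show (F₀ : Set F) = {x : F | x ^ q = x} from Set.ext fun x => hS.fix x]
    exact card_fixed hF
  omega

variable {M : Subgroup (GL (Fin 4) F)} (hH : SubH q F₀ P ≤ M) (hM : M ≤ SUGL 4 F q)
variable (hno : ∀ c, InW F₀ P c → c ≠ 0 → hermForm 4 F q c c = 0 →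
  ∀ k, k + k ^ q = 0 → MIn M (tMat q c k) → k = 0)
variable {g : GL (Fin 4) F} (hg : g ∈ M) (hgn : g ∉ Cfsg.Geo.subfieldSubgroup F₀ P)

omit hq in
/-- The semilinear involution followed by its conjugate. -/
def tw (q : ℕ) (P g : GL (Fin 4) F) (x : Fin 4 → F) : Fin 4 → F :=
  (g : Matrix (Fin 4) (Fin 4) F) *ᵥ
    sigma q P (((g⁻¹ : GL (Fin 4) F) : Matrix (Fin 4) (Fin 4) F) *ᵥ sigma q P x)

/-- The data of the plane attached to a rational isotropic point. -/
def Plane (q : ℕ) (P g : GL (Fin 4) F) (w ε : Fin 4 → F) (c : F) : Prop :=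
  hermForm 4 F q ε ε ≠ 0 ∧ hermForm 4 F q ε (sigma q P ε) = 0 ∧ hermForm 4 F q ε w = 0 ∧
    hermForm 4 F q (sigma q P ε) w = 0 ∧ c ^ (q + 1) = 1 ∧ tw q P g ε = c • ε ∧
    tw q P g (sigma q P ε) = c • sigma q P ε

omit h2 hq in
lemma tw_add (x y : Fin 4 → F) : tw q P g (x + y) = tw q P g x + tw q P g y := by
  simp only [tw, sigma_add hF, Matrix.mulVec_add]

omit h2 hq in
lemma tw_smul (s : F) (x : Fin 4 → F) : tw q P g (s • x) = s • tw q P g x := by
  simp only [tw, sigma_smul hF, Matrix.mulVec_smul, pow_q_q hF]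

include hH hM hg

omit hH h2 hq in
lemma tw_herm (x y : Fin 4 → F) : hf (tw q P g x) (tw q P g y) = hf x y := by
  exact ((hM hg).1 _ _).trans ((herm_sigma_swap hF hS _ _).trans (((hM (M.inv_mem hg)).1 _ _).trans (herm_sigma_swap hF hS _ _)))

include hno hgn

/-- No rational isotropic vector is an eigenvector. -/
lemma no_eigen {r : Fin 4 → F} (hr : InW F₀ P r) (hr0 : r ≠ 0) (hrr : hf r r = 0) {c : F}
    (h : tw q P g r = c • r) : False := by
  have h1 := congrArg (((g⁻¹ : GL (Fin 4) F) : Matrix (Fin 4) (Fin 4) F) *ᵥ ·) h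
  simp only [tw, hr.sigma_eq hF hS, mulVec_inv_P, Matrix.mulVec_smul] at h1
  obtain ⟨s, w, hw, ew⟩ := line_of_sigma hF hS h1
  have := rational_of_line hF hS h2 hH hM hno (M.inv_mem hg) hr hw hr0 hrr ew
  exact hgn (by simpa using (Cfsg.Geo.subfieldSubgroup F₀ P).inv_mem this)

/-- A non-degenerate pair of rational vectors perpendicular to a preimage gives a plane. -/
lemma exists_plane_of_pair {w p p' : Fin 4 → F} (hw : InW F₀ P w) (hw0 : w ≠ 0) (hww : hf w w = 0)
    (hp : InW F₀ P p) (hp' : InW F₀ P p') (hpp : hf p p ≠ 0) (hp'p' : hf p' p' ≠ 0) (hpp' : hf p p' = 0)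
    (hpu : hf p (((g⁻¹ : GL (Fin 4) F) : Matrix (Fin 4) (Fin 4) F) *ᵥ w) = 0)
    (hp'u : hf p' (((g⁻¹ : GL (Fin 4) F) : Matrix (Fin 4) (Fin 4) F) *ᵥ w) = 0) :
    ∃ ε c, Plane q P g w ε c := by
  set G := (g : Matrix (Fin 4) (Fin 4) F) with hG
  set u := ((g⁻¹ : GL (Fin 4) F) : Matrix (Fin 4) (Fin 4) F) *ᵥ w with hu
  have hGu : G *ᵥ u = w := mulVec_P_inv g w
  set α := hf p p with hα
  set β := hf p' p' with hβ
  have hp'p := herm_eq_zero_comm hF hpp'
  have hαm : α ∈ F₀ := rat_one hF hS hp hp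
  have hβm : β ∈ F₀ := rat_one hF hS hp' hp'
  have hαq := pow_q_of_mem hF hS hαm
  have hβq := pow_q_of_mem hF hS hβm
  have hchar : ringChar F ≠ 2 := fun h => h2 (by
    have := ringChar.Nat.cast_ringChar (R := F)
    rw [h] at this
    simpa using this)
  obtain ⟨η, hη⟩ := exists_sqrt hF hS hchar (F₀.neg_mem (F₀.div_mem hαm hβm))
  have hαη : α = -(η * η) * β := by rw [hη]; field_simp
  have hη0 : η ≠ 0 := fun h => hpp (by rw [hαη, h]; ring)
  obtain ⟨k, hk, hk0, hkη, hkη'⟩ := exists_slope hF hS h2 hq η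
  have hkq := pow_q_of_mem hF hS hk
  have hm1 : η - k ≠ 0 := sub_ne_zero.2 (Ne.symm hkη)
  have hm2 : η + k ≠ 0 := fun h => hkη' (by linear_combination h)
  set d := p + k • p' with hd
  have hdr : InW F₀ P d := hp.add (hp'.smul hk)
  have hD : hf d d = β * ((k - η) * (k + η)) := by
    simp only [hd, herm_add_left, herm_add_right hF, herm_smul_left, herm_smul_right, hpp', hp'p, hkq, ← hα, ← hβ,
      hαη]
    ring
  have hkm1 : k - η ≠ 0 := sub_ne_zero.2 hkη
  have hkm2 : k + η ≠ 0 := fun h => hm2 (by linear_combination h)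
  have hD0 : hf d d ≠ 0 := by rw [hD]; exact mul_ne_zero hp'p' (mul_ne_zero hkm1 hkm2)
  obtain ⟨h, hhS, eh⟩ := exists_refl_pair_mem hF hpp hD0
  set R := (h : Matrix (Fin 4) (Fin 4) F) with hR
  have hhH : h ∈ SubH q F₀ P := mem_subH_of_preserves hhS fun x hx => by
    show InW F₀ P (R *ᵥ x)
    rw [eh, ← Matrix.mulVec_mulVec]
    exact reflection_rat hF hS hdr (reflection_rat hF hS hp hx)
  have hact : ∀ x, R *ᵥ x = (x + (hf x p * (-2 / α)) • p) +
      (hf (x + (hf x p * (-2 / α)) • p) d * (-2 / hf d d)) • d := fun x => by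
    rw [eh, ← Matrix.mulVec_mulVec, rankOne_mulVec, rankOne_mulVec, smul_smul, smul_smul]
  set e := p + η • p' with he
  set e' := p - η • p' with he'
  have hfix : ∀ x, hf x p = 0 → hf x p' = 0 → R *ᵥ x = x := fun x h1 h3 => by
    rw [hact, h1, hd, herm_add_right hF, herm_smul_right, herm_add_left, herm_add_left, herm_smul_left,
      herm_smul_left, h1, h3]
    module
  set lam := (η + k) / (η - k) with hlam
  set lam' := (η - k) / (η + k) with hlam'
  have hep : hf e p = α := by rw [he, herm_add_left, herm_smul_left, hp'p, mul_zero, add_zero]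
  have he'p : hf e' p = α := by rw [he', herm_sub_left, herm_smul_left, hp'p, mul_zero, sub_zero]
  have hep' : hf e p' = η * β := by rw [he, herm_add_left, herm_smul_left, hpp', zero_add]
  have he'p' : hf e' p' = -(η * β) := by rw [he', herm_sub_left, herm_smul_left, hpp', zero_sub]
  have hRe : R *ᵥ e = lam • e := by
    rw [hact, hep, show α * (-2 / α) = -2 by field_simp, hD, hd, he, hlam]
    simp only [herm_add_left, herm_add_right hF, herm_smul_left, herm_smul_right, hpp', hp'p, hkq, ← hα, ← hβ, hαη]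
    match_scalars <;> field_simp <;> ring
  have hRe' : R *ᵥ e' = lam' • e' := by
    rw [hact, he'p, show α * (-2 / α) = -2 by field_simp, hD, hd, he', hlam']
    simp only [herm_sub_left, herm_add_left, herm_add_right hF, herm_smul_left, herm_smul_right, hpp', hp'p, hkq,
      ← hα, ← hβ, hαη]
    match_scalars <;> field_simp <;> ring
  have hRu : R *ᵥ u = u := hfix u (herm_eq_zero_comm hF hpu) (herm_eq_zero_comm hF hp'u)
  set x := g * h * g⁻¹ with hx
  have hxM : x ∈ M := M.mul_mem (M.mul_mem hg (hH hhH)) (M.inv_mem hg)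
  have hxG : ∀ v, (x : Matrix (Fin 4) (Fin 4) F) *ᵥ (G *ᵥ v) = G *ᵥ (R *ᵥ v) := fun v => by
    rw [hx, Units.val_mul, Units.val_mul, ← Matrix.mulVec_mulVec, ← Matrix.mulVec_mulVec, hG, mulVec_inv_P]
  have hxw : (x : Matrix (Fin 4) (Fin 4) F) *ᵥ w = w := by rw [← hGu, hxG, hRu]
  have hpr := preserves_of_fix hF hS (rational_of_line hF hS h2 hH hM hno hxM hw hw hw0 hww
    (hxw.trans (one_smul F w).symm)) hw hw0 hxw
  set ε := G *ᵥ e with hε
  set v := ((g⁻¹ : GL (Fin 4) F) : Matrix (Fin 4) (Fin 4) F) *ᵥ sigma q P ε with hv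
  have hGv : G *ᵥ v = sigma q P ε := mulVec_P_inv g _
  have hRv : R *ᵥ v = lam ^ q • v := by
    have h1 := sigma_comm hF hS hpr ε
    rw [hε, hxG, hRe, Matrix.mulVec_smul, sigma_smul hF, ← hε, ← hGv, hxG] at h1
    have h3 := congrArg (((g⁻¹ : GL (Fin 4) F) : Matrix (Fin 4) (Fin 4) F) *ᵥ ·) h1
    simp only [hG, mulVec_inv_P, Matrix.mulVec_smul] at h3
    exact h3.symm
  set A := (hf v p / α + hf v p' / (β * η)) / 2 with hA
  set B := (hf v p / α - hf v p' / (β * η)) / 2 with hB
  set z := v - A • e - B • e' with hz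
  have hzp : hf z p = 0 := by
    rw [hz, herm_sub_left, herm_sub_left, herm_smul_left, herm_smul_left, hep, he'p, hA, hB]
    field_simp; ring
  have hzp' : hf z p' = 0 := by
    rw [hz, herm_sub_left, herm_sub_left, herm_smul_left, herm_smul_left, hep', he'p', hA, hB]
    field_simp; ring
  have hve : v = A • e + B • e' + z := by rw [hz]; abel
  have hev : ((lam - lam ^ q) * A) • e + ((lam' - lam ^ q) * B) • e' + (1 - lam ^ q) • z = 0 := by
    have h1 := hRv
    rw [hve, Matrix.mulVec_add, Matrix.mulVec_add, Matrix.mulVec_smul, Matrix.mulVec_smul, hRe, hRe',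
      hfix z hzp hzp'] at h1
    linear_combination (norm := module) h1
  have hAB : (lam - lam ^ q) * A = 0 ∧ (lam' - lam ^ q) * B = 0 := by
    have h1 := congrArg (fun y => hf y p) hev
    have h3 := congrArg (fun y => hf y p') hev
    simp only [herm_add_left, herm_smul_left, herm_zero_left, hep, he'p, hep', he'p', hzp, hzp', mul_zero,
      add_zero] at h1 h3
    have h4 : (lam - lam ^ q) * A + (lam' - lam ^ q) * B = 0 :=
      (mul_eq_zero.1 (show ((lam - lam ^ q) * A + (lam' - lam ^ q) * B) * α = 0 by linear_combination h1)).resolve_right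
        hpp
    have h5 : (lam - lam ^ q) * A - (lam' - lam ^ q) * B = 0 :=
      (mul_eq_zero.1 (show ((lam - lam ^ q) * A - (lam' - lam ^ q) * B) * (η * β) = 0 by
        linear_combination h3)).resolve_right (mul_ne_zero hη0 hp'p')
    exact ⟨mul_left_cancel₀ h2 (by linear_combination h4 + h5), mul_left_cancel₀ h2 (by linear_combination h4 - h5)⟩
  have hdl : lam - lam' ≠ 0 := by
    rw [hlam, hlam', div_sub_div _ _ hm1 hm2]
    refine div_ne_zero ?_ (mul_ne_zero hm1 hm2)
    rw [show (η + k) * (η + k) - (η - k) * (η - k) = 2 * (2 * (η * k)) by ring]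
    exact mul_ne_zero h2 (mul_ne_zero h2 (mul_ne_zero hη0 hk0))
  have hl1 : lam ≠ 1 := fun h' => hk0 (by
    rw [hlam, div_eq_one_iff_eq hm1] at h'
    exact (mul_eq_zero.1 (show (2 : F) * k = 0 by linear_combination h')).resolve_left h2)
  have hl1' : lam' ≠ 1 := fun h' => hk0 (by
    rw [hlam', div_eq_one_iff_eq hm2] at h'
    exact (mul_eq_zero.1 (show (2 : F) * k = 0 by linear_combination -h')).resolve_left h2)
  have hηq : η ^ q = η ∨ η ^ q = -η := by
    refine mul_self_eq_mul_self_iff.1 ?_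
    rw [← mul_pow, hη, pow_q_of_mem hF hS (F₀.neg_mem (F₀.div_mem hαm hβm))]
  rcases hηq with hηq | hηq
  · exfalso
    have hlq : lam ^ q = lam := by rw [hlam, div_pow, add_pow_q hF, sub_pow_q hF, hηq, hkq]
    rw [hlq] at hev hAB
    have hB0 : B = 0 := (mul_eq_zero.1 hAB.2).resolve_left (fun h' => hdl (by linear_combination -h'))
    rw [hB0, mul_zero, zero_smul, sub_self, zero_mul, zero_smul, zero_add, zero_add] at hev
    have hz0 : z = 0 := (smul_eq_zero.1 hev).resolve_left (sub_ne_zero.2 (Ne.symm hl1))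
    rw [hB0, hz0, zero_smul, add_zero, add_zero] at hve
    rw [hve, Matrix.mulVec_smul, ← hε] at hGv
    obtain ⟨s, w', hw', ew'⟩ := line_of_sigma hF hS hGv.symm
    have her : InW F₀ P e := hp.add (hp'.smul ((hS.fix _).2 hηq))
    have hee : hf e e = 0 := by
      simp only [he, herm_add_left, herm_add_right hF, herm_smul_left, herm_smul_right, hpp', hp'p, ← hα, ← hβ,
        hαη, hηq]
      ring
    have he0 : e ≠ 0 := fun h' => hpp (by rw [← hep, h', herm_zero_left])
    exact hgn (rational_of_line hF hS h2 hH hM hno hg her hw' he0 hee ew')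
  · have hlq : lam ^ q = lam' := by
      rw [hlam, hlam', div_pow, add_pow_q hF, sub_pow_q hF, hηq, hkq, show -η + k = -(η - k) by ring,
        show -η - k = -(η + k) by ring, neg_div_neg_eq]
    rw [hlq] at hev hAB
    have hA0 : A = 0 := (mul_eq_zero.1 hAB.1).resolve_left hdl
    rw [hA0, mul_zero, zero_smul, sub_self, zero_mul, zero_smul, zero_add, zero_add] at hev
    have hz0 : z = 0 := (smul_eq_zero.1 hev).resolve_left (sub_ne_zero.2 (Ne.symm hl1'))
    rw [hA0, hz0, zero_smul, zero_add, add_zero] at hve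
    have hse : sigma q P e = e' := by
      rw [he, he', sigma_add hF, sigma_smul hF, hp.sigma_eq hF hS, hp'.sigma_eq hF hS, hηq, neg_smul,
        sub_eq_add_neg]
    have hse' : sigma q P e' = e := by rw [← hse, sigma_sigma hF hS]
    have hee : hf e e = 2 * α := by
      simp only [he, herm_add_left, herm_add_right hF, herm_smul_left, herm_smul_right, hpp', hp'p, ← hα, ← hβ,
        hαη, hηq]
      ring
    have hee' : hf e e' = 0 := by
      simp only [he, he', herm_add_left, herm_sub_right hF, herm_smul_left, herm_smul_right, hpp', hp'p, ← hα,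
        ← hβ, hαη, hηq]
      ring
    have hgf := form_of_mem hF hS h2 hH hM hg
    rw [← hG] at hgf
    have hσε : sigma q P ε = B • G *ᵥ e' := by rw [← hGv, hve, Matrix.mulVec_smul]
    have hn : hf ε ε ≠ 0 := by rw [hε, hgf, hee]; exact mul_ne_zero h2 hpp
    have hBn : B ^ (q + 1) = 1 := by
      have h1 := herm_sigma_swap hF hS ε ε
      rw [hσε, herm_self_smul, hgf, ← hse, herm_sigma_swap hF hS, hε, hgf] at h1
      exact mul_right_cancel₀ (by rw [hee]; exact mul_ne_zero h2 hpp) (h1.trans (one_mul _).symm)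
    refine ⟨ε, B ^ q, hn, ?_, ?_, ?_, ?_, ?_, ?_⟩
    · rw [hσε, herm_smul_right, hε, hgf, hee', mul_zero]
    · rw [hε, ← hGu, hgf, he, herm_add_left, herm_smul_left, hpu, hp'u, mul_zero, add_zero]
    · rw [herm_sigma_left hF hS, hw.sigma_eq hF hS]
      refine herm_eq_zero_comm hF ?_
      rw [hε, ← hGu, hgf, he, herm_add_left, herm_smul_left, hpu, hp'u, mul_zero, add_zero]
    · rw [← pow_mul, mul_comm, pow_mul, hBn, one_pow]
    · show G *ᵥ sigma q P v = B ^ q • ε
      rw [hve, sigma_smul hF, hse', Matrix.mulVec_smul]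
    · show G *ᵥ sigma q P (((g⁻¹ : GL (Fin 4) F) : Matrix (Fin 4) (Fin 4) F) *ᵥ sigma q P (sigma q P ε)) =
        B ^ q • sigma q P ε
      rw [sigma_sigma hF hS, hε, hG, mulVec_inv_P, hse, hσε, smul_smul, ← pow_succ, hBn, one_smul]

/-- A point whose preimage has a non-degenerate rational span has a plane. -/
lemma exists_plane {w : Fin 4 → F} (hw : InW F₀ P w) (hw0 : w ≠ 0) (hww : hf w w = 0)
    (hz : hf (((g⁻¹ : GL (Fin 4) F) : Matrix (Fin 4) (Fin 4) F) *ᵥ w)
      (sigma q P (((g⁻¹ : GL (Fin 4) F) : Matrix (Fin 4) (Fin 4) F) *ᵥ w)) ≠ 0) :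
    ∃ ε c, Plane q P g w ε c := by
  obtain ⟨δ, hδ0, hδq, hδ⟩ := exists_skew_unit hF hS h2
  obtain ⟨U, U', hU, hU', hu, hsu⟩ := exists_decomp hF hS hδ
    (((g⁻¹ : GL (Fin 4) F) : Matrix (Fin 4) (Fin 4) F) *ᵥ w)
  have huu := (form_of_mem hF hS h2 hH hM (M.inv_mem hg) w w).trans hww
  rw [hsu, hu] at hz
  rw [hu] at huu
  have hU'U := herm_symm_one hF hS hU hU'
  have hB := rat_one hF hS hU hU'
  have hQ' := rat_one hF hS hU' hU'
  simp only [herm_add_left, herm_add_right hF, herm_smul_left, herm_smul_right, hδq, neg_pow_q hF, hU'U] at hz huu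
  have hD : hf U U * hf U' U' - hf U U' ^ 2 ≠ 0 := by
    intro hD
    have h5 : (hf U U' + δ * hf U' U') * (hf U U' + δ * -hf U' U') = 0 := by
      linear_combination hf U' U' * huu - hD
    have h6 : hf U U' = 0 ∧ hf U' U' = 0 := by
      rcases mul_eq_zero.1 h5 with h | h
      · exact split_eq_zero hF hS hδ hB hQ' h
      · obtain ⟨a, b⟩ := split_eq_zero hF hS hδ hB (F₀.neg_mem hQ') h
        exact ⟨a, neg_eq_zero.1 b⟩
    rw [h6.1, h6.2] at hz huu
    exact hz (by linear_combination huu)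
  obtain ⟨p, p', hp, hp', hpp, hp'p', hpp', hpU, hpU', hp'U, hp'U'⟩ := exists_orth_perp hF hS h2 hU hU' hD
  refine exists_plane_of_pair hF hS h2 hq hH hM hno hg hgn hw hw0 hww hp hp' hpp hp'p' hpp' ?_ ?_
  · rw [hu, herm_add_right hF, herm_smul_right, hpU, hpU', mul_zero, add_zero]
  · rw [hu, herm_add_right hF, herm_smul_right, hp'U, hp'U', mul_zero, add_zero]

omit hq hH hM hno hg hgn in
/-- Only multiples of the point are rational, isotropic and perpendicular to it. -/
lemma Plane.perp_iso_line {w ε : Fin 4 → F} {c : F} (hpl : Plane q P g w ε c) (hw : InW F₀ P w) (hw0 : w ≠ 0)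
    (hww : hf w w = 0) {r : Fin 4 → F} (hr : InW F₀ P r) (hrr : hf r r = 0) (hrw : hf r w = 0) :
    ∃ t : F, r = t • w := by
  obtain ⟨hn, hεσ, hεw, hσw, -, -, -⟩ := hpl
  set n := hf ε ε with hndef
  have hnq : n ^ q = n := herm_self_fixed hF ε
  have hσσ : hf (sigma q P ε) (sigma q P ε) = n := herm_sigma_swap hF hS ε ε
  have hσε := herm_eq_zero_comm hF hεσ
  have hswap : ∀ y, InW F₀ P y → hf y (sigma q P ε) = hf y ε ^ q := fun y hy => by
    conv_lhs => rw [← hy.sigma_eq hF hS, herm_sigma_swap hF hS, herm_conj hF y ε]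
  obtain ⟨y, hy, -, hwy⟩ := exists_iso_pair hF hS h2 hw hw0 hww
  set y' := y - (hf y ε / n) • ε - (hf y (sigma q P ε) / n) • sigma q P ε with hy'
  have hy'r : InW F₀ P y' := (inW_iff_sigma hF hS).2 (by
    rw [hy', sub_eq_add_neg, sub_eq_add_neg, ← neg_smul, ← neg_smul, sigma_add hF, sigma_add hF, sigma_smul hF,
      sigma_smul hF, sigma_sigma hF hS, hy.sigma_eq hF hS, neg_pow_q hF, neg_pow_q hF, div_pow, div_pow, hnq,
      hswap y hy, pow_q_q hF]
    module)
  have hy'ε : hf y' ε = 0 := by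
    rw [hy', herm_sub_left, herm_sub_left, herm_smul_left, herm_smul_left, hσε, div_mul_cancel₀ _ hn]; ring
  have hy'σ : hf y' (sigma q P ε) = 0 := by
    rw [hy', herm_sub_left, herm_sub_left, herm_smul_left, herm_smul_left, hσσ, hεσ, div_mul_cancel₀ _ hn]; ring
  have hwy' : hf w y' = 1 := by
    rw [hy', herm_sub_right hF, herm_sub_right hF, herm_smul_right, herm_smul_right, herm_eq_zero_comm hF hεw,
      herm_eq_zero_comm hF hσw, hwy]
    ring
  have hy'w : hf y' w = 1 := by rw [herm_conj hF w y', hwy', one_pow]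
  set m := hf y' y' / 2 with hm
  have hmm : m ∈ F₀ := F₀.div_mem (rat_one hF hS hy'r hy'r) two_mem
  have hmq := pow_q_of_mem hF hS hmm
  set w2 := y' - m • w with hw2
  have h22 : hf w2 w2 = 0 := by
    simp only [hw2, herm_sub_left, herm_sub_right hF, herm_smul_left, herm_smul_right, hww, hwy', hy'w, hmq]
    rw [hm]
    field_simp; ring
  have hni : (n⁻¹) ^ q = n⁻¹ := by rw [inv_pow, hnq]
  have hw2w : hf w2 w = 1 := by rw [hw2, herm_sub_left, herm_smul_left, hy'w, hww, mul_zero, sub_zero]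
  have hww2 : hf w w2 = 1 := by rw [herm_conj hF w2 w, hw2w, one_pow]
  have hw2ε : hf w2 ε = 0 := by
    rw [hw2, herm_sub_left, herm_smul_left, hy'ε, herm_eq_zero_comm hF hεw, mul_zero, sub_zero]
  have hw2σ : hf w2 (sigma q P ε) = 0 := by
    rw [hw2, herm_sub_left, herm_smul_left, hy'σ, herm_eq_zero_comm hF hσw, mul_zero, sub_zero]
  have key := expand_dual (q := q) ![w, w2, ε, sigma q P ε] ![w2, w, n⁻¹ • ε, n⁻¹ • sigma q P ε] (by
    intro i j
    fin_cases i <;> fin_cases j <;>
      simp [herm_smul_right, hww, hww2, hw2w, hεw, hσw, herm_eq_zero_comm hF hεw, herm_eq_zero_comm hF hσw, hw2ε,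
        hw2σ, herm_eq_zero_comm hF hw2ε, herm_eq_zero_comm hF hw2σ, hεσ, hσε, hσσ, ← hndef, hni, hn, h22]) r
  simp only [Fin.sum_univ_four, Matrix.cons_val_zero, Matrix.cons_val_one, Matrix.cons_val, herm_smul_right, hni,
    hrw, zero_smul, add_zero, hswap r hr] at key
  set a := hf r ε with ha
  have hnorm : 2 * (n⁻¹ * (a * a ^ q)) = 0 := by
    have h := congrArg (fun z => hf r z) key
    simp only [hrr] at h
    simp only [herm_add_right hF, herm_smul_right, hrw, mul_pow, pow_q_q hF, hni, ← ha, hswap r hr] at h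
    linear_combination -h
  have ha0 : a = 0 := by
    rcases mul_eq_zero.1 ((mul_eq_zero.1 hnorm).resolve_left h2) with h | h
    · exact absurd h (inv_ne_zero hn)
    · rcases mul_eq_zero.1 h with h | h
      · exact h
      · exact eq_zero_of_pow_eq_zero h
  refine ⟨hf r w2, ?_⟩
  rw [ha0, zero_pow_q hF, mul_zero, zero_smul, zero_smul, add_zero, add_zero] at key
  exact key

omit hq hH hM hno hg hgn in
/-- A plane excludes totally singular rational pairs. -/
lemma Plane.no_pair {w ε : Fin 4 → F} {c : F} (hpl : Plane q P g w ε c) (hw : InW F₀ P w) (hw0 : w ≠ 0)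
    (hww : hf w w = 0) {r r' : Fin 4 → F} (hr : InW F₀ P r) (hr' : InW F₀ P r') (hr0 : r ≠ 0) (hrr : hf r r = 0)
    (hr'r' : hf r' r' = 0) (hrr' : hf r r' = 0) : ∃ k : F, r' = k • r := by
  have hline := fun (z : Fin 4 → F) hz hzz hzw =>
    Plane.perp_iso_line hF hS h2 hpl hw hw0 hww (r := z) hz hzz hzw
  have hr'r := herm_eq_zero_comm hF hrr'
  by_cases hrw : hf r w = 0
  · obtain ⟨t, ht⟩ := hline r hr hrr hrw
    have ht0 : t ≠ 0 := fun h => hr0 (by rw [ht, h, zero_smul])
    have hr'w : hf r' w = 0 := by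
      rw [ht, herm_smul_right] at hr'r
      exact (mul_eq_zero.1 hr'r).resolve_left (pow_ne_zero _ ht0)
    obtain ⟨t', ht'⟩ := hline r' hr' hr'r' hr'w
    exact ⟨t' / t, by rw [ht', ht, smul_smul, div_mul_cancel₀ _ ht0]⟩
  · set s := hf r' w / hf r w with hs
    have hsm : s ∈ F₀ := F₀.div_mem (rat_one hF hS hr' hw) (rat_one hF hS hr hw)
    set z := r' - s • r with hz
    have hzr : InW F₀ P z := hr'.sub (hr.smul hsm)
    have hzz : hf z z = 0 := by
      simp [hz, herm_sub_left, herm_sub_right hF, herm_smul_left, herm_smul_right, hrr, hr'r', hrr', hr'r]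
    have hzw : hf z w = 0 := by rw [hz, herm_sub_left, herm_smul_left, hs, div_mul_cancel₀ _ hrw, sub_self]
    obtain ⟨t, ht⟩ := hline z hzr hzz hzw
    by_cases ht0 : t = 0
    · exact ⟨s, sub_eq_zero.1 (by rw [← hz, ht, ht0, zero_smul])⟩
    · exfalso
      refine hrw ?_
      have h1 : hf z r = 0 := by rw [hz, herm_sub_left, herm_smul_left, hr'r, hrr, mul_zero, sub_zero]
      rw [ht, herm_smul_left] at h1
      exact herm_eq_zero_comm hF ((mul_eq_zero.1 h1).resolve_left ht0)

/-- Some preimage has a non-degenerate rational span. -/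
lemma exists_nondeg_point : ∃ w, InW F₀ P w ∧ w ≠ 0 ∧ hf w w = 0 ∧
    hf (((g⁻¹ : GL (Fin 4) F) : Matrix (Fin 4) (Fin 4) F) *ᵥ w)
      (sigma q P (((g⁻¹ : GL (Fin 4) F) : Matrix (Fin 4) (Fin 4) F) *ᵥ w)) ≠ 0 := by
  by_contra hall
  push Not at hall
  obtain ⟨δ, hδ0, hδq, hδ⟩ := exists_skew_unit hF hS h2
  obtain ⟨w, hw, hw0, hww⟩ := exists_iso hF hS h2
  set Gi := ((g⁻¹ : GL (Fin 4) F) : Matrix (Fin 4) (Fin 4) F) with hGi
  have hgif := form_of_mem hF hS h2 hH hM (M.inv_mem hg)
  rw [← hGi] at hgif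
  obtain ⟨U, U', hU, hU', hu, hsu⟩ := exists_decomp hF hS hδ (Gi *ᵥ w)
  have hz := hall w hw hw0 hww
  have huu := (hgif w w).trans hww
  rw [hsu, hu] at hz
  rw [hu] at huu
  have hU'U₀ := herm_symm_one hF hS hU hU'
  have hB := rat_one hF hS hU hU'
  have hQ' := rat_one hF hS hU' hU'
  simp only [herm_add_left, herm_add_right hF, herm_smul_left, herm_smul_right, hδq, neg_pow_q hF, hU'U₀] at hz huu
  obtain ⟨hUU', hU'U'⟩ := split_eq_zero hF hS hδ hB hQ'
    (mul_left_cancel₀ (mul_ne_zero h2 hδ0) (by linear_combination hz - huu))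
  have hUU : hf U U = 0 := by rw [hUU', hU'U'] at huu; linear_combination huu
  have hU'U := herm_eq_zero_comm hF hUU'
  have hrat : ∀ {z : Fin 4 → F} (s : F), InW F₀ P z → Gi *ᵥ w = s • z → False := fun s hz' e => by
    have := rational_of_line hF hS h2 hH hM hno (M.inv_mem hg) hw hz' hw0 hww (l := s) e
    exact hgn (by simpa using (Cfsg.Geo.subfieldSubgroup F₀ P).inv_mem this)
  have hind : ∀ k : F, U ≠ k • U' := fun k hk => hrat (k + δ) hU' (by rw [hu, hk, add_smul])
  have hind' : ∀ k : F, U' ≠ k • U := fun k hk => hrat (1 + δ * k) hU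
    (by rw [hu, hk, add_smul, one_smul, smul_smul])
  have hU0 : U ≠ 0 := fun h => hind 0 (by rw [h, zero_smul])
  obtain ⟨y, hy, hUy, hU'y⟩ := exists_pair_rat hF hS h2 hU hU' hind
  obtain ⟨y', hy', hU'y', hUy'⟩ := exists_pair_rat hF hS h2 hU' hU hind'
  have hyU : hf y U = 1 := (herm_symm_one hF hS hU hy).trans hUy
  set m := hf y y / 2 with hm
  have hmm : m ∈ F₀ := F₀.div_mem (rat_one hF hS hy hy) two_mem
  set e1 := y - m • U with he1
  have he1r : InW F₀ P e1 := hy.sub (hU.smul hmm)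
  have h11 : hf e1 e1 = 0 := by
    simp only [he1, herm_sub_left, herm_sub_right hF, herm_smul_left, herm_smul_right, hUU, hUy, hyU,
      pow_q_of_mem hF hS hmm]
    rw [hm]
    field_simp; ring
  have hUe1 : hf U e1 = 1 := by rw [he1, herm_sub_right hF, herm_smul_right, hUU, hUy, mul_zero, sub_zero]
  have hU'e1 : hf U' e1 = 0 := by rw [he1, herm_sub_right hF, herm_smul_right, hU'U, hU'y, mul_zero, sub_zero]
  have he1U : hf e1 U = 1 := (herm_symm_one hF hS hU he1r).trans hUe1
  have he1U' := herm_eq_zero_comm hF hU'e1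
  set s := hf e1 y' with hs
  have hsm : s ∈ F₀ := rat_one hF hS he1r hy'
  set y'' := y' - s • U with hy''
  have hy''r : InW F₀ P y'' := hy'.sub (hU.smul hsm)
  have he1y'' : hf e1 y'' = 0 := by
    rw [hy'', herm_sub_right hF, herm_smul_right, he1U, pow_q_of_mem hF hS hsm, hs, mul_one, sub_self]
  have hUy'' : hf U y'' = 0 := by rw [hy'', herm_sub_right hF, herm_smul_right, hUy', hUU, mul_zero, sub_zero]
  have hU'y'' : hf U' y'' = 1 := by rw [hy'', herm_sub_right hF, herm_smul_right, hU'y', hU'U, mul_zero, sub_zero]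
  set m' := hf y'' y'' / 2 with hm'
  have hmm' : m' ∈ F₀ := F₀.div_mem (rat_one hF hS hy''r hy''r) two_mem
  set e2 := y'' - m' • U' with he2
  have he2r : InW F₀ P e2 := hy''r.sub (hU'.smul hmm')
  have h22 : hf e2 e2 = 0 := by
    simp only [he2, herm_sub_left, herm_sub_right hF, herm_smul_left, herm_smul_right, hU'U', hU'y'',
      (herm_symm_one hF hS hU' hy''r).trans hU'y'', pow_q_of_mem hF hS hmm']
    rw [hm']
    field_simp; ring
  have hUe2 : hf U e2 = 0 := by rw [he2, herm_sub_right hF, herm_smul_right, hUy'', hUU', mul_zero, sub_zero]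
  have hU'e2 : hf U' e2 = 1 := by rw [he2, herm_sub_right hF, herm_smul_right, hU'y'', hU'U', mul_zero, sub_zero]
  have he1e2 : hf e1 e2 = 0 := by rw [he2, herm_sub_right hF, herm_smul_right, he1y'', he1U', mul_zero, sub_zero]
  have he2U' : hf e2 U' = 1 := (herm_symm_one hF hS hU' he2r).trans hU'e2
  have hS' : ∀ z, InW F₀ P z → hf z z = 0 → hf U z = 0 → hf (tw q P g U) z = 0 := by
    intro z hz' hzz hUz
    have hzU := herm_eq_zero_comm hF hUz
    have e : hf (tw q P g U) z = hf (sigma q P (Gi *ᵥ U)) (Gi *ᵥ z) := by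
      rw [tw, hU.sigma_eq hF hS, ← hgif, hGi, mulVec_inv_P]
    have hall' : ∀ a, InW F₀ P a → hf a a = 0 → hf (sigma q P (Gi *ᵥ a)) (Gi *ᵥ a) = 0 := fun a ha haa => by
      by_cases ha0 : a = 0
      · rw [ha0, Matrix.mulVec_zero, herm_zero_right hF]
      · exact herm_eq_zero_comm hF (hall a ha ha0 haa)
    have h1 := hall' (U + z) (hU.add hz') (by
      rw [herm_add_left, herm_add_right hF, herm_add_right hF, hUU, hzz, hUz, hzU]; ring)
    rw [Matrix.mulVec_add, sigma_add hF, herm_add_left, herm_add_right hF, herm_add_right hF, hall' U hU hUU,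
      hall' z hz' hzz, herm_sigma_left hF hS (Gi *ᵥ z) (Gi *ᵥ U)] at h1
    rw [e]
    exact mul_left_cancel₀ h2 (by linear_combination h1)
  have key := expand_dual (q := q) ![U, U', e1, e2] ![e1, e2, U, U'] (by
    intro i j
    fin_cases i <;> fin_cases j <;>
      simp [hUe1, hUe2, hUU, hUU', hU'e1, hU'e2, hU'U, hU'U', h11, he1e2, he1U, he1U', herm_eq_zero_comm hF he1e2,
        h22, herm_eq_zero_comm hF hUe2, he2U']) (tw q P g U)
  simp only [Fin.sum_univ_four, Matrix.cons_val_zero, Matrix.cons_val_one, Matrix.cons_val, hS' e2 he2r h22 hUe2,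
    hS' U hU hUU hUU, hS' U' hU' hU'U' hUU', zero_smul, add_zero] at key
  exact no_eigen hF hS h2 hq hH hM hno hg hgn hU hU0 hUU key

/-- There is no irrational element without a rational transvection. -/
lemma irrational_absurd : False := by
  obtain ⟨w, hw, hw0, hww, hz⟩ := exists_nondeg_point hF hS h2 hq hH hM hno hg hgn
  obtain ⟨ε, c, hpl⟩ := exists_plane hF hS h2 hq hH hM hno hg hgn hw hw0 hww hz
  have hpl' := hpl
  obtain ⟨hn, hεσ, hεw, hσw, hc, hTε, hTσ⟩ := hpl'
  set n := hf ε ε with hndef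
  have hnq : n ^ q = n := herm_self_fixed hF ε
  have hσσ : hf (sigma q P ε) (sigma q P ε) = n := herm_sigma_swap hF hS ε ε
  have hσε := herm_eq_zero_comm hF hεσ
  -- a second point
  set p := ε + sigma q P ε with hp
  have hpr : InW F₀ P p := (inW_iff_sigma hF hS).2 (by rw [hp, sigma_add hF, sigma_sigma hF hS, add_comm])
  have hpw : hf p w = 0 := by rw [hp, herm_add_left, hεw, hσw, add_zero]
  have hpε : hf p ε = n := by rw [hp, herm_add_left, hσε, add_zero]
  obtain ⟨y, hy, -, hwy⟩ := exists_iso_pair hF hS h2 hw hw0 hww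
  have hyw : hf y w = 1 := (herm_symm_one hF hS hw hy).trans hwy
  set y' := y - (hf y ε / n) • ε - (hf y (sigma q P ε) / n) • sigma q P ε with hy'
  have hswap : ∀ z, InW F₀ P z → hf z (sigma q P ε) = hf z ε ^ q := fun z hz' => by
    conv_lhs => rw [← hz'.sigma_eq hF hS, herm_sigma_swap hF hS, herm_conj hF z ε]
  have hy'r : InW F₀ P y' := (inW_iff_sigma hF hS).2 (by
    rw [hy', sub_eq_add_neg, sub_eq_add_neg, ← neg_smul, ← neg_smul, sigma_add hF, sigma_add hF, sigma_smul hF,
      sigma_smul hF, sigma_sigma hF hS, hy.sigma_eq hF hS, neg_pow_q hF, neg_pow_q hF, div_pow, div_pow, hnq,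
      hswap y hy, pow_q_q hF]
    module)
  have hy'ε : hf y' ε = 0 := by
    rw [hy', herm_sub_left, herm_sub_left, herm_smul_left, herm_smul_left, hσε, div_mul_cancel₀ _ hn]; ring
  have hy'σ : hf y' (sigma q P ε) = 0 := by
    rw [hy', herm_sub_left, herm_sub_left, herm_smul_left, herm_smul_left, hσσ, hεσ, div_mul_cancel₀ _ hn]; ring
  have hy'w : hf y' w = 1 := by
    rw [hy', herm_sub_left, herm_sub_left, herm_smul_left, herm_smul_left, hεw, hσw, hyw]; ring
  have hwy' : hf w y' = 1 := (herm_symm_one hF hS hy'r hw).trans hy'w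
  have hy'p : hf y' p = 0 := by rw [hp, herm_add_right hF, hy'ε, hy'σ, add_zero]
  set a := -((hf y' y' + hf p p) / 2) with ha
  have ham : a ∈ F₀ := F₀.neg_mem (F₀.div_mem (F₀.add_mem (rat_one hF hS hy'r hy'r) (rat_one hF hS hpr hpr)) two_mem)
  set v := a • w + y' + p with hv
  have hvr : InW F₀ P v := ((hw.smul ham).add hy'r).add hpr
  have hvε : hf v ε = n := by
    simp [hv, herm_add_left, herm_smul_left, herm_eq_zero_comm hF hεw, hy'ε, hpε]
  have hvv : hf v v = 0 := by
    simp only [hv, herm_add_left, herm_add_right hF, herm_smul_left, herm_smul_right, hww, hwy', hy'w, hpw,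
      herm_eq_zero_comm hF hpw, hy'p, herm_eq_zero_comm hF hy'p, pow_q_of_mem hF hS ham]
    rw [ha]
    field_simp; ring
  have hv0 : v ≠ 0 := fun h => hn (by rw [← hvε, h, herm_zero_left])
  have hzv : hf (((g⁻¹ : GL (Fin 4) F) : Matrix (Fin 4) (Fin 4) F) *ᵥ v)
      (sigma q P (((g⁻¹ : GL (Fin 4) F) : Matrix (Fin 4) (Fin 4) F) *ᵥ v)) ≠ 0 := by
    intro h0
    obtain ⟨δ, hδ0, hδq, hδ⟩ := exists_skew_unit hF hS h2
    obtain ⟨U, U', hU, hU', hu, hsu⟩ := exists_decomp hF hS hδ
      (((g⁻¹ : GL (Fin 4) F) : Matrix (Fin 4) (Fin 4) F) *ᵥ v)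
    have huu := (form_of_mem hF hS h2 hH hM (M.inv_mem hg) v v).trans hvv
    rw [hsu, hu] at h0
    rw [hu] at huu
    have hU'U := herm_symm_one hF hS hU hU'
    simp only [herm_add_left, herm_add_right hF, herm_smul_left, herm_smul_right, hδq, neg_pow_q hF, hU'U] at h0 huu
    obtain ⟨hUU', hU'U'⟩ := split_eq_zero hF hS hδ (rat_one hF hS hU hU') (rat_one hF hS hU' hU')
      (mul_left_cancel₀ (mul_ne_zero h2 hδ0) (by linear_combination h0 - huu))
    have hUU : hf U U = 0 := by rw [hUU', hU'U'] at huu; linear_combination huu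
    have hrat : ∀ {z : Fin 4 → F} (s : F), InW F₀ P z →
        ((g⁻¹ : GL (Fin 4) F) : Matrix (Fin 4) (Fin 4) F) *ᵥ v = s • z → False := fun s hz' e => by
      have := rational_of_line hF hS h2 hH hM hno (M.inv_mem hg) hvr hz' hv0 hvv (l := s) e
      exact hgn (by simpa using (Cfsg.Geo.subfieldSubgroup F₀ P).inv_mem this)
    have hU0 : U ≠ 0 := fun h => hrat δ hU' (by rw [hu, h, zero_add])
    obtain ⟨k, hk⟩ := Plane.no_pair hF hS h2 hpl hw hw0 hww hU hU' hU0 hUU hU'U' hUU'
    exact hrat (1 + δ * k) hU (by rw [hu, hk, add_smul, one_smul, smul_smul])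
  obtain ⟨ε', d, hn', hεσ', hεv', hσv', hd, hTε', hTσ'⟩ :=
    exists_plane hF hS h2 hq hH hM hno hg hgn hvr hv0 hvv hzv
  set n' := hf ε' ε' with hn'def
  have hnq' : n' ^ q = n' := herm_self_fixed hF ε'
  have hσσ' : hf (sigma q P ε') (sigma q P ε') = n' := herm_sigma_swap hF hS ε' ε'
  have hσε' := herm_eq_zero_comm hF hεσ'
  by_cases hcd : c = d
  · set x := ε - (hf ε ε' / n') • ε' - (hf ε (sigma q P ε') / n') • sigma q P ε' with hx
    have hxε : hf x ε' = 0 := by
      rw [hx, herm_sub_left, herm_sub_left, herm_smul_left, herm_smul_left, hσε', div_mul_cancel₀ _ hn']; ring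
    have hxσ : hf x (sigma q P ε') = 0 := by
      rw [hx, herm_sub_left, herm_sub_left, herm_smul_left, herm_smul_left, hσσ', hεσ', div_mul_cancel₀ _ hn']; ring
    have hx0 : x ≠ 0 := by
      intro h
      refine hn ?_
      have h1 := congrArg (fun z => hf z v) h
      simp only [hx, herm_sub_left, herm_smul_left, hεv', hσv', herm_zero_left, mul_zero, sub_zero] at h1
      rw [← hvε, herm_conj hF ε v, h1, zero_pow_q hF]
    have hTx : tw q P g x = c • x := by
      rw [hx, sub_eq_add_neg, sub_eq_add_neg, ← neg_smul, ← neg_smul, tw_add hF hS, tw_add hF hS, tw_smul hF hS,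
        tw_smul hF hS, hTε, hTε', hTσ', hcd]
      module
    set x' := sigma q P x with hx'
    have hTx' : tw q P g x' = c • x' := by
      have e : x' = sigma q P ε + (-(hf ε ε' / n')) ^ q • sigma q P ε' + (-(hf ε (sigma q P ε') / n')) ^ q • ε' := by
        rw [hx', hx, sub_eq_add_neg, sub_eq_add_neg, ← neg_smul, ← neg_smul, sigma_add hF, sigma_add hF,
          sigma_smul hF, sigma_smul hF, sigma_sigma hF hS]
      rw [e, tw_add hF hS, tw_add hF hS, tw_smul hF hS, tw_smul hF hS, hTσ, hTε', hTσ', hcd]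
      module
    have hx'ε : hf x' ε' = 0 := by
      rw [hx', herm_sigma_left hF hS]
      exact herm_eq_zero_comm hF hxσ
    have hx'σ : hf x' (sigma q P ε') = 0 := by
      rw [hx', herm_sigma_swap hF hS]
      exact herm_eq_zero_comm hF hxε
    obtain ⟨s, t, hr, hr0⟩ := exists_rat_ne_zero hF hS h2 hx0
    rw [← hx'] at hr hr0
    set r := s • x + t • x' with hrdef
    have hTr : tw q P g r = c • r := by
      rw [hrdef, tw_add hF hS, tw_smul hF hS, tw_smul hF hS, hTx, hTx']; module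
    have hrε : hf r ε' = 0 := by rw [hrdef, herm_add_left, herm_smul_left, herm_smul_left, hxε, hx'ε]; ring
    have hrσ : hf r (sigma q P ε') = 0 := by rw [hrdef, herm_add_left, herm_smul_left, herm_smul_left, hxσ, hx'σ]; ring
    obtain ⟨α, hαn⟩ := exists_norm_eq hF (a := -hf r r / (2 * n')) (by
      rw [div_pow, neg_pow_q hF, mul_pow, hnq', pow_q_two hF, herm_self_fixed hF r])
    set p' := α • ε' + α ^ q • sigma q P ε' with hp'
    have hp'r : InW F₀ P p' := (inW_iff_sigma hF hS).2 (by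
      rw [hp', sigma_add hF, sigma_smul hF, sigma_smul hF, sigma_sigma hF hS, pow_q_q hF, add_comm])
    have hrp : hf r p' = 0 := by
      rw [hp', herm_add_right hF, herm_smul_right, herm_smul_right, hrε, hrσ]; ring
    have hpp : hf p' p' = -hf r r := by
      simp only [hp', herm_add_left, herm_add_right hF, herm_smul_left, herm_smul_right, hεσ', hσε', hσσ',
        ← hn'def, pow_q_q hF]
      rw [pow_succ] at hαn
      have h3 : α ^ q * α * (2 * n') = -hf r r := by rw [hαn, div_mul_cancel₀ _ (mul_ne_zero h2 hn')]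
      linear_combination h3
    refine no_eigen hF hS h2 hq hH hM hno hg hgn (hr.add hp'r) ?_ ?_ (c := c) ?_
    · intro h
      refine hr0 ?_
      have h1 := congrArg (fun z => hf z ε') h
      simp only [herm_add_left, hrε, hp', herm_smul_left, hσε', herm_zero_left, mul_zero, add_zero, zero_add,
        ← hn'def] at h1
      rw [hp', (mul_eq_zero.1 h1).resolve_right hn', zero_pow_q hF, zero_smul, zero_smul, add_zero, add_zero] at h
      exact h
    · rw [herm_add_left r p', herm_add_right hF r r p', herm_add_right hF p' r p', hpp, hrp,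
        herm_eq_zero_comm hF hrp]
      ring
    · rw [tw_add hF hS, hTr, hp', tw_add hF hS, tw_smul hF hS, tw_smul hF hS, hTε', hTσ', hcd]; module
  · have horth : ∀ a b, tw q P g a = c • a → tw q P g b = d • b → hf a b = 0 := by
      intro a b ha hb
      have h1 := tw_herm hF hS hM hg a b
      rw [ha, hb, herm_smul_left, herm_smul_right] at h1
      refine (mul_eq_zero.1 (show (c * d ^ q - 1) * hf a b = 0 by linear_combination h1)).resolve_left fun h' => hcd ?_
      calc c = c * d ^ (q + 1) := by rw [hd, mul_one]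
        _ = c * d ^ q * d := by rw [pow_succ]; ring
        _ = d := by rw [sub_eq_zero.1 h', one_mul]
    have o1 := horth _ _ hTε hTε'
    have o2 := horth _ _ hTε hTσ'
    have o3 := horth _ _ hTσ hTε'
    have o4 := horth _ _ hTσ hTσ'
    have hni : (n⁻¹) ^ q = n⁻¹ := by rw [inv_pow, hnq]
    have hni' : (n'⁻¹) ^ q = n'⁻¹ := by rw [inv_pow, hnq']
    have key := expand_dual (q := q) ![ε, sigma q P ε, ε', sigma q P ε']
      ![n⁻¹ • ε, n⁻¹ • sigma q P ε, n'⁻¹ • ε', n'⁻¹ • sigma q P ε'] (by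
        intro i j
        fin_cases i <;> fin_cases j <;>
          simp [herm_smul_right, hni, hni', hεσ, hσε, hεσ', hσε', hσσ, hσσ', ← hndef, ← hn'def, hn, hn', o1, o2,
            o3, o4, herm_eq_zero_comm hF o1, herm_eq_zero_comm hF o2, herm_eq_zero_comm hF o3,
            herm_eq_zero_comm hF o4]) w
    simp only [Fin.sum_univ_four, Matrix.cons_val_zero, Matrix.cons_val_one, Matrix.cons_val, herm_smul_right,
      herm_eq_zero_comm hF hεw, herm_eq_zero_comm hF hσw, mul_zero, zero_smul, zero_add] at key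
    refine no_eigen hF hS h2 hq hH hM hno hg hgn hw hw0 hww (c := d) ?_
    rw [key, tw_add hF hS, tw_smul hF hS, tw_smul hF hS, hTε', hTσ']
    module

omit hno hg hgn
/-- A subgroup properly above the subfield group contains a transvection at a rational point. -/
lemma exists_rational_transv (hMH : ¬ M ≤ SubH q F₀ P) :
    ∃ c k, InW F₀ P c ∧ c ≠ 0 ∧ hf c c = 0 ∧ k ≠ 0 ∧ k + k ^ q = 0 ∧ MIn M (tMat q c k) := by
  by_contra hc
  push Not at hc
  have hno : ∀ c, InW F₀ P c → c ≠ 0 → hermForm 4 F q c c = 0 →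
      ∀ k, k + k ^ q = 0 → MIn M (tMat q c k) → k = 0 :=
    fun c h1 h2' h3 k hk hm => by_contra fun h0 => hc c k h1 h2' h3 h0 hk hm
  obtain ⟨g, hgM, hgH⟩ := SetLike.not_le_iff_exists.1 hMH
  exact irrational_absurd hF hS h2 hq hH hM hno hgM fun h => hgH ⟨h, hM hgM⟩

omit hM hH in
/-- The orthogonal subfield group is maximal in `SU₄(q)`. -/
theorem orthSubfield_isMaximal4 : Cfsg.Geo.IsMaximalIn (SUGL 4 F q) (SubH q F₀ P) := by
  obtain ⟨δ, hδ0, hδq, hδ⟩ := exists_skew_unit hF hS h2
  refine ⟨lt_of_le_of_ne inf_le_right fun heq => ?_, fun M hle hM => ?_⟩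
  · obtain ⟨c, hc, hc0, hcc⟩ := exists_iso hF hS h2
    obtain ⟨y, hy, -, hcy⟩ := exists_iso_pair hF hS h2 hc hc0 hcc
    have hyc : hf y c = 1 := (herm_symm_one hF hS hc hy).trans hcy
    obtain ⟨g, hg, eg⟩ := exists_tMat_mem hF hcc (c := δ) (by rw [hδq, add_neg_cancel])
    have hg' : g ∈ SUGL 4 F q := hg
    rw [← heq] at hg'
    have hp := preserves_of_fix hF hS hg'.1 hc hc0 (by rw [eg, tMat_mulVec, hcc]; simp) y hy
    rw [eg, tMat_mulVec, hyc, mul_one] at hp
    have := (hp.sub hy)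
    rw [add_sub_cancel_left] at this
    exact hδ (this.scalar_mem hc rfl hc0)
  by_cases hMH : M ≤ SubH q F₀ P
  · exact Or.inl (le_antisymm hMH hle)
  obtain ⟨c, k, hc, hc0, hcc, hk0, hk, hm⟩ := exists_rational_transv hF hS h2 hq hle hM hMH
  exact Or.inr (le_antisymm hM (le_of_good_rational hF hS h2 hle hM fun d hd hdd =>
    good_rational hF hS h2 hle hM hc hc0 hcc hk0 hk hm hd hdd))

end CfsgLib.SUFour96.OrthSub
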