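import Mathlib
import Cfsg.Agent.Classical.UnitBlock

/-!
Two orthogonal non-degenerate planes: an overgroup of their stabiliser has all isotropic vectors as
centres when the field has order at least nine.
-/

set_option autoImplicit false
set_option linter.unusedSectionVars false

namespace CfsgLib.SUFour96.Planes

open Matrix CfsgLib.TransvGL CfsgLib.UnitCentres CfsgLib.CircleSums CfsgLib.UnitMono CfsgLib.MonoBasics
  CfsgLib.PseudoRefl CfsgLib.UnitBlock
open CfsgLib.UnitBlock (blk emb blk_add blk_sub blk_smul blk_emb)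

variable {κ τ : Type} [Fintype κ] [DecidableEq κ] [Fintype τ] [DecidableEq τ]
variable {F : Type*} [Field F] [Fintype F] {q : ℕ} {σ : F ≃+* F}

/-- Overgroups of the stabiliser of two planes inside the special unitary group. -/
structure POver (q : ℕ) (σ : F ≃+* F) (M : Subgroup (GL (κ × τ) F)) : Prop where
  std : Std q σ
  stab_mem : ∀ g : GL (κ × τ) F, Iso (sf σ) g → g ∈ Cfsg.Geo.specialLinear (κ × τ) F → StabBlocks g → g ∈ M
  iso : ∀ g ∈ M, Iso (sf σ) g
  two_le : 2 ≤ Fintype.card κ
  two_members : Fintype.card τ = 2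
  three_le : 3 ≤ q

variable {M : Subgroup (GL (κ × τ) F)} (hO : POver q σ M)
include hO

theorem root {v : κ × τ → F} {i : τ} (hi : ∀ l, l ≠ i → blk v l = 0) (hv : sf σ v v = 0) :
    Centre hO.std.isUnitary M v := by
  have hf := hO.std.isUnitary (ι := κ × τ)
  refine ⟨hv, fun c hc => hO.stab_mem _ (uT_iso hf hv hc) (uT_mem_specialLinear hf hv c)
    ⟨1, fun l y => ⟨y + (c * sf σ (emb l y) v) • blk v l, ?_⟩⟩⟩
  rw [uT_mulVec, Equiv.Perm.one_apply]
  funext ⟨j, p⟩
  by_cases hp : p = l
  · subst hp; simp [emb, blk]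
  · simp only [Pi.add_apply, Pi.smul_apply, smul_eq_mul, emb, if_neg hp, zero_add, mul_eq_zero]
    by_cases hpi : p = i
    · left; right
      show sf σ (emb l y) v = 0
      rw [sf_emb_left, hi l (fun e => hp (by rw [hpi, e]))]
      exact UnitCentres.zero_right (hO.std.isUnitary (ι := κ)) y
    · right; exact congrFun (hi p hpi) j

theorem root_emb (i : τ) {e : κ → F} (he : sf σ e e = 0) : Centre hO.std.isUnitary M (emb i e) :=
  root hO (i := i) (fun l hl => by rw [blk_emb, if_neg hl]) (by rw [sf_emb_emb, he])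

/-- The two members. -/
theorem member_cases {i l : τ} (hil : i ≠ l) (p : τ) : p = i ∨ p = l := by
  by_contra h
  rw [not_or] at h
  have h3 := Finset.card_le_univ ({i, l, p} : Finset τ)
  rw [Finset.card_eq_three.2 ⟨i, l, p, hil, Ne.symm h.1, Ne.symm h.2, rfl⟩, hO.two_members] at h3
  omega

/-- The block diagonal image of a centre. -/
theorem image_blocks {v v' : κ × τ → F} (hv : Centre hO.std.isUnitary M v) {i l : τ} (hil : i ≠ l)
    {g h : GL κ F} (hg : Iso (sf σ) g) (hh : Iso (sf σ) h)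
    (hd : (g : Matrix κ κ F).det * (h : Matrix κ κ F).det = 1)
    (hi : (g : Matrix κ κ F) *ᵥ blk v i = blk v' i) (hl : (h : Matrix κ κ F) *ᵥ blk v l = blk v' l) :
    Centre hO.std.isUnitary M v' := by
  let G : τ → GL κ F := fun p => if p = i then g else h
  have hGi : G i = g := if_pos rfl
  have hGl : G l = h := if_neg (Ne.symm hil)
  have hGiso : ∀ p, Iso (sf σ) (G p) := fun p => by
    rcases member_cases hO hil p with rfl | rfl
    · rw [hGi]; exact hg
    · rw [hGl]; exact hh
  have hdet : ∏ p, (G p : Matrix κ κ F).det = 1 := by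
    rw [Fintype.prod_eq_mul i l hil fun p hp => absurd (member_cases hO hil p) (by tauto), hGi, hGl, hd]
  have hM : blockGL G ∈ M := hO.stab_mem _ (iso_blockGL G hGiso)
    (by rw [PseudoRefl.mem_specialLinear_iff, det_blockGL, hdet]) (stab_blockGL G)
  convert hv.image hM (iso_blockGL G hGiso) using 1
  funext ⟨j, p⟩
  refine congrFun (a := j) (show blk v' p = blk ((blockGL G : Matrix (κ × τ) (κ × τ) F) *ᵥ v) p from ?_)
  rw [blk_blockGL]
  rcases member_cases hO hil p with rfl | rfl
  · rw [hGi, hi]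
  · rw [hGl, hl]

/-- Replacing anisotropic components by vectors of equal norm. -/
theorem pair_move {v v' : κ × τ → F} (hv : Centre hO.std.isUnitary M v) {i l : τ} (hil : i ≠ l)
    (hi : blk v i ≠ 0) (hl : blk v l ≠ 0) (hi' : blk v' i ≠ 0) (hl' : blk v' l ≠ 0)
    (hni : sf σ (blk v' i) (blk v' i) = sf σ (blk v i) (blk v i))
    (hnl : sf σ (blk v' l) (blk v' l) = sf σ (blk v l) (blk v l))
    (hani : sf σ (blk v i) (blk v i) ≠ 0) : Centre hO.std.isUnitary M v' := by
  have hfk := hO.std.isUnitary (ι := κ)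
  obtain ⟨g, hg, hgv, -⟩ := exists_move hO.std hi hi' hni
  obtain ⟨h, hh, hhv, -⟩ := exists_move hO.std hl hl' hnl
  obtain ⟨w, hw, hww⟩ := orth_aniso hO.std hO.two_le hani
  obtain ⟨s, hs⟩ := CircleSums.exists_norm hO.std.card hO.std.frob (r := (sf σ w w)⁻¹)
    (by rw [map_inv₀, UnitCentres.norm_fixed hfk])
  have hu : sf σ (s • w) (s • w) = 1 := by
    rw [hfk.smul_left, smul_right hfk, ← mul_assoc, hs, inv_mul_cancel₀ hww]
  have hd : Cir σ ((g : Matrix κ κ F).det * (h : Matrix κ κ F).det) :=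
    Cir.mul (det_norm hfk hg) (det_norm hfk hh)
  set d : Fˣ := (Units.mk0 _ hd.ne_zero)⁻¹ with hd'
  have hR : Iso (sf σ) (uRefl hO.std hu d) :=
    uRefl_iso _ _ (by rw [hd', Units.val_inv_eq_inv_val]; exact hd.inv)
  refine image_blocks hO hv hil (hg.mul hR) hh ?_ ?_ hhv
  · rw [Units.val_mul, det_mul, det_uRefl, hd', Units.val_inv_eq_inv_val, Units.val_mk0, mul_right_comm,
      mul_inv_cancel₀ hd.ne_zero]
  · rw [Units.val_mul, ← mulVec_mulVec, uRefl_mulVec, smul_right hfk, orth_comm hfk hw, mul_zero, mul_zero,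
      zero_smul, add_zero, hgv]

/-- One anisotropic centre gives all centres with anisotropic components. -/
theorem pair_any {z y : κ × τ → F} (hz : Centre hO.std.isUnitary M z) {i l : τ} (hil : i ≠ l)
    (hzi : blk z i ≠ 0) (hzl : blk z l ≠ 0) (hyi : blk y i ≠ 0) (hyl : blk y l ≠ 0)
    (hy : sf σ y y = 0) (hNa0 : sf σ (blk z i) (blk z i) ≠ 0) (hr0 : sf σ (blk y i) (blk y i) ≠ 0) :
    Centre hO.std.isUnitary M y := by
  classical
  have hzo : ∀ p, p ≠ i → p ≠ l → blk z p = 0 := fun p h1 h2 => absurd (member_cases hO hil p) (by tauto)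
  have hyo : ∀ p, p ≠ i → p ≠ l → blk y p = 0 := fun p h1 h2 => absurd (member_cases hO hil p) (by tauto)
  have hf := hO.std.isUnitary (ι := κ × τ)
  have hfk := hO.std.isUnitary (ι := κ)
  set a := blk z i with ha
  set b := blk z l with hb
  have hab : sf σ a a + sf σ b b = 0 := by rw [← sf_two hO.std hil hzo]; exact hz.iso
  have hyab : sf σ (blk y i) (blk y i) + sf σ (blk y l) (blk y l) = 0 := by
    rw [← sf_two hO.std hil hyo]; exact hy
  have combine : ∀ a' b' : κ → F, a' ≠ 0 → b' ≠ 0 → sf σ a' a' = sf σ a a → sf σ b' b' = sf σ b b →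
      sf σ a' a + sf σ b' b ≠ 0 →
      sf σ a' a + sf σ b' b + σ (sf σ a' a + sf σ b' b) = 0 →
      a + a' ≠ 0 → b + b' ≠ 0 →
      sf σ (a + a') (a + a') = sf σ (blk y i) (blk y i) → Centre hO.std.isUnitary M y := by
    intro a' b' ha0 hb0 hna hnb hne htr hsa hsb hnorm
    set z' := emb i a' + emb l b' with hz'
    have hz'i : blk z' i = a' := by rw [hz', blk_add, blk_emb, blk_emb, if_pos rfl, if_neg hil, add_zero]
    have hz'l : blk z' l = b' := by
      rw [hz', blk_add, blk_emb, blk_emb, if_neg (Ne.symm hil), if_pos rfl, zero_add]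
    have hz'o : ∀ p, p ≠ i → p ≠ l → blk z' p = 0 := fun p h1 h2 => by
      rw [hz', blk_add, blk_emb, blk_emb, if_neg h1, if_neg h2, add_zero]
    have hC' : Centre hO.std.isUnitary M z' := pair_move hO hz hil hzi hzl
      (by rw [hz'i]; exact ha0) (by rw [hz'l]; exact hb0) (by rw [hz'i]; exact hna) (by rw [hz'l]; exact hnb) hNa0
    have hfz : sf σ z' z = sf σ a' a + sf σ b' b := by rw [sf_two hO.std hil hz'o, hz'i, hz'l]
    have hw := hC'.line hz (by rw [hfz]; exact hne) (a := 1) (b := 1) (by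
      rw [one_smul, one_smul, hf.add_left, UnitCentres.add_right hf z' z' z, UnitCentres.add_right hf z z' z, hC'.iso,
        hz.iso, hf.herm z z', hfz]
      linear_combination htr)
    rw [one_smul, one_smul] at hw
    have hwi : blk (z' + z) i = a + a' := by rw [blk_add, hz'i, add_comm]
    have hwl : blk (z' + z) l = b + b' := by rw [blk_add, hz'l, add_comm]
    refine pair_move hO hw hil
      (by rw [hwi]; exact hsa) (by rw [hwl]; exact hsb) hyi hyl (by rw [hwi, hnorm]) ?_ (by rw [hwi, hnorm]; exact hr0)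
    rw [hwl]
    have hsum : sf σ (a + a') (a + a') + sf σ (b + b') (b + b') = 0 := by
      rw [← hwi, ← hwl, ← sf_two hO.std hil (fun p h1 h2 => by rw [blk_add, hz'o p h1 h2, hzo p h1 h2, add_zero])]
      exact hw.iso
    linear_combination hyab - hsum + hnorm
  have hnorm_add : ∀ (u w : κ → F), sf σ u u = sf σ w w →
      sf σ (w + u) (w + u) = 2 * sf σ w w + (sf σ u w + σ (sf σ u w)) := fun u w huw => by
    rw [hfk.add_left, UnitCentres.add_right hfk, UnitCentres.add_right hfk, hfk.herm w u, huw]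
    ring
  obtain ⟨c, hc0, hc⟩ := exists_traceZero hf
  set r := sf σ (blk y i) (blk y i) with hr
  have hrf : σ r = r := UnitCentres.norm_fixed (f := sf σ) hfk _
  have hNa : σ (sf σ a a) = sf σ a a := UnitCentres.norm_fixed (f := sf σ) hfk _
  have hNb : sf σ b b = -sf σ a a := by linear_combination hab
  obtain ⟨α, hα⟩ := exists_trace hfk (r := r - 2 * sf σ a a) (by rw [map_sub, map_mul, map_ofNat, hrf, hNa])
  have hα' : α ≠ 0 ∨ sf σ a a ≠ 0 := by
    by_contra h
    push Not at h
    rw [h.1, h.2, map_zero] at hα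
    exact hr0 (by linear_combination -hα)
  obtain ⟨a', ha1, ha2⟩ := exists_vec hO.std hO.two_le (α := α) hzi hNa (hα'.imp_right Or.inl)
  have hβ : c - α ≠ 0 ∨ sf σ b b ≠ 0 := by
    by_contra h
    push Not at h
    have h5 : α = c := by linear_combination -h.1
    rw [h5, show sf σ a a = 0 by rw [hNb] at h; linear_combination -h.2, hc] at hα
    exact hr0 (by linear_combination -hα)
  obtain ⟨b', hb1, hb2⟩ := exists_vec hO.std hO.two_le (r := sf σ b b) (α := c - α) hzl
    (norm_fixed (f := sf σ) hfk _) (hβ.imp_right Or.inl)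
  have hna : sf σ (a + a') (a + a') = r := by rw [hnorm_add _ _ ha2, ha1]; linear_combination hα
  have hnb : sf σ (b + b') (b + b') = -r := by
    rw [hnorm_add _ _ hb2, hb1, hNb, map_sub]; linear_combination hc - hα
  refine combine a' b' (fun e => ?_) (fun e => ?_) ha2 hb2 ?_ ?_ (fun e => ?_) (fun e => ?_) hna
  · rcases hα' with h | h
    · exact h (by rw [← ha1, e]; exact UnitCentres.zero_left hfk _)
    · exact h (by rw [← ha2, e]; exact UnitCentres.zero_left hfk _)
  · rcases hβ with h | h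
    · exact h (by rw [← hb1, e]; exact UnitCentres.zero_left hfk _)
    · exact h (by rw [← hb2, e]; exact UnitCentres.zero_left hfk _)
  · rw [ha1, hb1, add_sub_cancel]; exact hc0
  · rw [ha1, hb1, add_sub_cancel, hc]
  · rw [e, UnitCentres.zero_left hfk] at hna; exact hr0 hna.symm
  · rw [e, UnitCentres.zero_left hfk] at hnb; exact hr0 (neg_eq_zero.1 hnb.symm)

/-- A centre with anisotropic components. -/
theorem seed {g : GL (κ × τ) F} (hg : g ∈ M) (hns : ¬ StabBlocks g) :
    ∃ z, Centre hO.std.isUnitary M z ∧ ∃ i l, i ≠ l ∧ blk z i ≠ 0 ∧ blk z l ≠ 0 ∧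
      sf σ (blk z i) (blk z i) ≠ 0 := by
  classical
  have hf := hO.std.isUnitary (ι := κ × τ)
  have hfk := hO.std.isUnitary (ι := κ)
  obtain ⟨v, hv, i, l, hil, hi, hl⟩ : ∃ v, Centre hO.std.isUnitary M v ∧
      ∃ i l, i ≠ l ∧ blk v i ≠ 0 ∧ blk v l ≠ 0 := by
    by_contra hno
    push Not at hno
    have hone : ∀ (i : τ) (e : κ → F), sf σ e e = 0 → ∀ p p',
        blk ((g : Matrix (κ × τ) (κ × τ) F) *ᵥ emb i e) p ≠ 0 →
        blk ((g : Matrix (κ × τ) (κ × τ) F) *ᵥ emb i e) p' ≠ 0 → p = p' := fun i e he p p' hp hp' => by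
      by_contra hne
      exact hp' (hno _ ((root_emb hO i he).image hg (hO.iso g hg)) p p' hne hp)
    have himg : ∀ i, ∃ p, ∀ e : κ → F, sf σ e e = 0 → ∀ p', p' ≠ p →
        blk ((g : Matrix (κ × τ) (κ × τ) F) *ᵥ emb i e) p' = 0 := by
      intro i
      by_cases hex : ∃ e : κ → F, sf σ e e = 0 ∧ ∃ p, blk ((g : Matrix (κ × τ) (κ × τ) F) *ᵥ emb i e) p ≠ 0
      · obtain ⟨e0, he0, p, hp⟩ := hex
        refine ⟨p, fun e he p' hp' => ?_⟩
        by_contra hne
        have hz0 : ∀ x, x ≠ p → blk ((g : Matrix (κ × τ) (κ × τ) F) *ᵥ emb i e0) x = 0 := fun x hx => by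
          by_contra h; exact hx (hone i e0 he0 x p h hp)
        have hz1 : ∀ x, x ≠ p' → blk ((g : Matrix (κ × τ) (κ × τ) F) *ᵥ emb i e) x = 0 := fun x hx => by
          by_contra h; exact hx (hone i e he x p' h hne)
        have horth : sf σ e0 e = 0 := by
          rw [← sf_emb_emb i e0 e, ← hO.iso g hg, sf_two hO.std (Ne.symm hp') (fun x h1 _ => hz0 x h1),
            hz1 p (Ne.symm hp'), hz0 p' hp', UnitCentres.zero_left hfk, UnitCentres.zero_right hfk, add_zero]
        have hsum : sf σ (e0 + e) (e0 + e) = 0 := by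
          rw [hfk.add_left, UnitCentres.add_right hfk, UnitCentres.add_right hfk, he0, he, horth,
            orth_comm hfk horth]
          ring
        have hemb : emb i (e0 + e) = (emb i e0 + emb i e : κ × τ → F) := funext fun x => by
          by_cases hx : x.2 = i <;> simp [emb, hx]
        refine hp' (hone i _ hsum p' p ?_ ?_)
        · rw [hemb, mulVec_add, blk_add, hz0 p' hp', zero_add]; exact hne
        · rw [hemb, mulVec_add, blk_add, hz1 p (Ne.symm hp'), add_zero]; exact hp
      · push Not at hex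
        exact ⟨i, fun e he p' _ => hex e he p'⟩
    choose π hπ using himg
    have hall : ∀ i y p', p' ≠ π i → blk ((g : Matrix (κ × τ) (κ × τ) F) *ᵥ emb i y) p' = 0 := by
      intro i y p' hp'
      have hy : y ∈ Submodule.span F {e : κ → F | sf σ e e = 0} := by
        rw [span_isotropic hO.std hO.two_le]; trivial
      induction hy using Submodule.span_induction with
      | mem e he => exact hπ i e he p' hp'
      | zero =>
        rw [show emb i (0 : κ → F) = 0 from funext fun x => by simp [emb], mulVec_zero]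
        rfl
      | add a b _ _ ha hb =>
        rw [show emb i (a + b) = emb i a + emb i b from funext fun x => by
          by_cases hx : x.2 = i <;> simp [emb, hx], mulVec_add, blk_add, ha, hb, add_zero]
      | smul c a _ ha =>
        rw [show emb i (c • a) = c • emb i a from funext fun x => by simp [emb], mulVec_smul, blk_smul,
          ha, smul_zero]
    have hsurj : Function.Surjective π := by
      intro p
      by_contra hp
      push Not at hp
      obtain ⟨j⟩ : Nonempty κ := Fintype.card_pos_iff.1 (by have := hO.two_le; omega)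
      set x := ((g⁻¹ : GL (κ × τ) F) : Matrix (κ × τ) (κ × τ) F) *ᵥ emb p (Pi.single j 1) with hx
      have hxs : x = ∑ i, emb i (blk x i) := funext fun ⟨k, i⟩ => by
        simp [Finset.sum_apply, emb, blk]
      have h1 : blk ((g : Matrix (κ × τ) (κ × τ) F) *ᵥ x) p = 0 := by
        rw [hxs, mulVec_sum]
        funext k
        simp only [blk, Finset.sum_apply, Pi.zero_apply]
        exact Finset.sum_eq_zero fun i _ => congrFun (hall i _ p (Ne.symm (hp i))) k
      rw [hx, mulVec_inv_mulVec, blk_emb, if_pos rfl] at h1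
      simpa using congrFun h1 j
    exact hns ⟨Equiv.ofBijective π ⟨Finite.injective_iff_surjective.2 hsurj, hsurj⟩, fun i y =>
      ⟨_, emb_eq_of_blk (hall i y)⟩⟩
  by_cases hNa : sf σ (blk v i) (blk v i) = 0
  swap
  · exact ⟨v, hv, i, l, hil, hi, hl, hNa⟩
  have hvo : ∀ p, p ≠ i → p ≠ l → blk v p = 0 := fun p h1 h2 => absurd (member_cases hO hil p) (by tauto)
  have hNb : sf σ (blk v l) (blk v l) = 0 := by
    have h1 := hv.iso
    rwa [sf_two hO.std hil hvo, hNa, zero_add] at h1
  set a := blk v i with ha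
  set b := blk v l with hb
  obtain ⟨c, hc0, hc⟩ := exists_traceZero hf
  obtain ⟨ε, hε, hε2⟩ := exists_cir_sq_ne_one hO.std.card hO.std.frob
  set m := 1 + σ ε with hm
  have hm0 : m ≠ 0 := fun e => hε2 (by
    have h1 : σ ε = -1 := by linear_combination e
    have h2 : ε * σ ε = 1 := hε
    rw [h1] at h2
    linear_combination (1 - ε) * h2)
  have hσm : σ m = ε * m := by
    rw [hm, map_add, map_one, hO.std.invol]
    linear_combination -(id hε : ε * σ ε = 1)
  -- the torus image
  obtain ⟨g₁, hg₁, hg₁a, -⟩ := exists_move hO.std (y := a) (y' := m • a) hi (smul_ne_zero hm0 hi)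
    (by rw [hfk.smul_left, smul_right hfk, hNa, mul_zero, mul_zero])
  obtain ⟨P, hP, hPa, -⟩ := exists_move hO.std (y := a) (y' := b) hi hl (by rw [hNb, hNa])
  have hg₁' : (((g₁⁻¹ : GL κ F)) : Matrix κ κ F) *ᵥ a = m⁻¹ • a := by
    have h1 := congrArg ((((g₁⁻¹ : GL κ F)) : Matrix κ κ F) *ᵥ ·) hg₁a
    simp only [inv_mulVec_mulVec, mulVec_smul] at h1
    nth_rw 2 [h1]
    rw [inv_smul_smul₀ hm0]
  set v₁ := emb i (m • a) + emb l (m⁻¹ • b) with hv₁
  have hv₁i : blk v₁ i = m • a := by rw [hv₁, blk_add, blk_emb, blk_emb, if_pos rfl, if_neg hil, add_zero]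
  have hv₁l : blk v₁ l = m⁻¹ • b := by
    rw [hv₁, blk_add, blk_emb, blk_emb, if_neg (Ne.symm hil), if_pos rfl, zero_add]
  have hC₁ : Centre hO.std.isUnitary M v₁ := by
    refine image_blocks hO hv hil hg₁ (h := P * g₁⁻¹ * P⁻¹) ((hP.mul hg₁.inv).mul hP.inv) ?_
      (by rw [hv₁i, hg₁a]) ?_
    · rw [← det_mul, ← Units.val_mul]
      have e : (g₁ * (P * g₁⁻¹ * P⁻¹) : GL κ F).det = 1 := by simp [map_mul, map_inv]
      exact congrArg Units.val e
    · rw [hv₁l, Units.val_mul, Units.val_mul, ← mulVec_mulVec, ← mulVec_mulVec, ← hb,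
        show ((P⁻¹ : GL κ F) : Matrix κ κ F) *ᵥ b = a by rw [← hPa, inv_mulVec_mulVec], hg₁', mulVec_smul, hPa]
  -- two roots
  obtain ⟨e, he, hae⟩ := exists_isotropic_hit hO.std hO.two_le hi
  obtain ⟨e', he', hbe⟩ := exists_isotropic_hit hO.std hO.two_le hl
  set N1 := sf σ a e * σ (sf σ a e) with hN1
  set N2 := sf σ b e' * σ (sf σ b e') with hN2
  have hN1f : σ N1 = N1 := CircleSums.norm_fixed hO.std.card hO.std.frob _
  have hN2f : σ N2 = N2 := CircleSums.norm_fixed hO.std.card hO.std.frob _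
  have hN10 : N1 ≠ 0 := mul_ne_zero hae (by simpa using hae)
  have hN20 : N2 ≠ 0 := mul_ne_zero hbe (by simpa using hbe)
  obtain ⟨he1, hT1⟩ := root_emb hO i he
  obtain ⟨he2, hT2⟩ := root_emb hO l he'
  have hC₂ := (hC₁.image (hT1 c hc) (uT_iso hf he1 hc)).image (hT2 c hc) (uT_iso hf he2 hc)
  set v₂ := (uT hf he2 c : Matrix (κ × τ) (κ × τ) F) *ᵥ
    ((uT hf he1 c : Matrix (κ × τ) (κ × τ) F) *ᵥ v₁) with hv₂
  have horth : sf σ (emb i e) (emb l e' : κ × τ → F) = 0 := by
    rw [sf_emb_left, blk_emb, if_neg hil]; exact UnitCentres.zero_right hfk _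
  have hv₂e : v₂ = v₁ + (c * (m * sf σ a e)) • emb i e + (c * (m⁻¹ * sf σ b e')) • emb l e' := by
    have e1 : sf σ v₁ (emb i e) = m * sf σ a e := by rw [sf_emb_right, hv₁i, hfk.smul_left]
    have e2 : sf σ v₁ (emb l e') = m⁻¹ * sf σ b e' := by rw [sf_emb_right, hv₁l, hfk.smul_left]
    rw [hv₂, uT_mulVec, uT_mulVec, e1, hf.add_left v₁, hf.smul_left, horth, mul_zero, add_zero, e2]
  set K := c * (m * N1 + m⁻¹ * N2) with hK
  have hfK : sf σ v₂ v = K := by
    have h0 : sf σ v₁ v = 0 := by
      rw [hv₁, hf.add_left, sf_emb_left, sf_emb_left, ← ha, ← hb, hfk.smul_left, hfk.smul_left, hNa, hNb]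
      ring
    rw [hv₂e, hf.add_left, hf.add_left, h0, hf.smul_left, hf.smul_left, sf_emb_left, sf_emb_left, ← ha, ← hb,
      hfk.herm e a, hfk.herm e' b, hK, hN1, hN2]
    ring
  have hεε : ε - σ ε ≠ 0 := fun h => hε2 (by linear_combination (id hε : ε * σ ε = 1) + ε * h)
  have hK0 : K ≠ 0 := by
    rw [hK]
    refine mul_ne_zero hc0 fun h => ?_
    have h2 : m * m * N1 + N2 = 0 := by
      have := congrArg (m * ·) h
      simp only [mul_add, mul_zero, ← mul_assoc, mul_inv_cancel₀ hm0] at this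
      linear_combination this
    have h3 := congrArg σ h2
    simp only [map_add, map_mul, map_zero, hσm, hN1f, hN2f] at h3
    have h4 : (ε ^ 2 - 1) * (m * m * N1) = 0 := by linear_combination h3 - h2
    exact mul_ne_zero (sub_ne_zero.2 hε2) (mul_ne_zero (mul_ne_zero hm0 hm0) hN10) h4
  have hσc : σ c = -c := by linear_combination hc
  set β := c * K with hβ
  have hiso : sf σ ((1 : F) • v₂ + β • v) ((1 : F) • v₂ + β • v) = 0 := by
    rw [one_smul, norm_add_smul hf, hC₂.iso, hv.iso, hfK, hf.herm v v₂, hfK, hβ, map_mul, hσc]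
    ring
  have hC₃ := hC₂.line hv (by rw [hfK]; exact hK0) hiso
  set w := (1 : F) • v₂ + β • v with hw
  have hwi : blk w i = (m + β) • a + (c * (m * sf σ a e)) • e := by
    rw [hw, one_smul, hv₂e, blk_add, blk_add, blk_add, blk_smul, blk_smul, blk_smul, hv₁i, blk_emb, blk_emb,
      if_pos rfl, if_neg hil, ← ha, smul_zero, add_zero]
    module
  have hA : sf σ e a = σ (sf σ a e) := hfk.herm e a
  have hNw : sf σ (blk w i) (blk w i) = -(c * N1) * (c * c * N2) * (ε - σ ε) := by
    rw [hwi, norm_add_smul hfk]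
    simp only [hfk.smul_left, smul_right hfk, hNa, he, hA]
    rw [hβ, hK, hN1]
    simp only [map_mul, map_add, map_inv₀, hσm, hσc, hN2f, hO.std.invol]
    have hε0 := hε.ne_zero
    rw [hε.conj_eq]
    field_simp
    ring
  have hN0 : sf σ (blk w i) (blk w i) ≠ 0 := by
    rw [hNw]
    exact mul_ne_zero (mul_ne_zero (neg_ne_zero.2 (mul_ne_zero hc0 hN10))
      (mul_ne_zero (mul_ne_zero hc0 hc0) hN20)) hεε
  refine ⟨w, hC₃, i, l, hil, fun h => hN0 ?_, fun h => hN0 ?_, hN0⟩
  · rw [h]; exact UnitCentres.zero_left hfk _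
  · have h1 := hC₃.iso
    rwa [sf_two hO.std hil (fun p h1 h2 => absurd (member_cases hO hil p) (by tauto)), h,
      UnitCentres.zero_left hfk, add_zero] at h1

theorem all_centres {g : GL (κ × τ) F} (hg : g ∈ M) (hns : ¬ StabBlocks g) :
    ∀ y, sf σ y y = 0 → Centre hO.std.isUnitary M y := by
  classical
  have hf := hO.std.isUnitary (ι := κ × τ)
  have hfk := hO.std.isUnitary (ι := κ)
  obtain ⟨z, hz, i, l, hil, hzi, hzl, hzN⟩ := seed hO hg hns
  have hout : ∀ x : κ × τ → F, ∀ p, p ≠ i → p ≠ l → blk x p = 0 := fun x p h1 h2 =>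
    absurd (member_cases hO hil p) (by tauto)
  have haniso : ∀ x, sf σ x x = 0 → sf σ (blk x i) (blk x i) ≠ 0 → Centre hO.std.isUnitary M x := by
    intro x hx hN
    refine pair_any hO hz hil hzi hzl (fun h => hN (by rw [h]; exact UnitCentres.zero_left hfk _))
      (fun h => hN ?_) hx hzN hN
    rwa [sf_two hO.std hil (hout x), h, UnitCentres.zero_left hfk, add_zero] at hx
  intro y hy
  by_cases hN : sf σ (blk y i) (blk y i) = 0
  swap
  · exact haniso y hy hN
  by_cases hi : blk y i = 0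
  · refine root hO (i := l) (fun p hp => ?_) hy
    rcases member_cases hO hil p with rfl | rfl
    exacts [hi, absurd rfl hp]
  by_cases hl : blk y l = 0
  · refine root hO (i := i) (fun p hp => ?_) hy
    rcases member_cases hO hil p with rfl | rfl
    exacts [absurd rfl hp, hl]
  obtain ⟨c, hc0, hc⟩ := exists_traceZero hf
  obtain ⟨k, hk, hk'⟩ := Finset.exists_mem_notMem_of_card_lt_card (s := ({0, 1} : Finset F))
    (t := Finset.univ.filter fun z : F => σ z = z)
    (by rw [CircleSums.card_fixed hO.std.card hO.std.frob]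
        exact Finset.card_le_two.trans_lt (by have := hO.three_le; omega))
  simp only [Finset.mem_insert, Finset.mem_singleton, not_or] at hk'
  obtain ⟨u₁, hu₁, hu₁'⟩ := exists_vec hO.std hO.two_le (r := (1 : F)) (α := k * c) hi (map_one σ)
    (Or.inl (mul_ne_zero hk'.1 hc0))
  obtain ⟨u₂, hu₂, hu₂'⟩ := exists_vec hO.std hO.two_le (r := (-1 : F)) (α := c - k * c) hl (by simp)
    (Or.inl fun h => hk'.2 (mul_right_cancel₀ hc0 (by linear_combination -h)))
  set u := emb i u₁ + emb l u₂ with hu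
  have hui : blk u i = u₁ := by rw [hu, blk_add, blk_emb, blk_emb, if_pos rfl, if_neg hil, add_zero]
  have hul : blk u l = u₂ := by
    rw [hu, blk_add, blk_emb, blk_emb, if_neg (Ne.symm hil), if_pos rfl, zero_add]
  have huu : sf σ u u = 0 := by
    rw [sf_two hO.std hil (hout u), hui, hul, hu₁', hu₂', add_neg_cancel]
  have huy : sf σ u y = c := by
    rw [sf_two hO.std hil (hout u), hui, hul, hu₁, hu₂, add_sub_cancel]
  have hd : sf σ (y - u) (y - u) = 0 := by
    rw [UnitCentres.sub_left hf, UnitCentres.sub_right hf, UnitCentres.sub_right hf, hy, huu,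
      hf.herm y u, huy]
    linear_combination -hc
  refine (haniso u huu (by rw [hui, hu₁']; exact one_ne_zero)).of_move (haniso _ hd ?_)
    (by rw [huy]; exact hc0) hy
  rw [blk_sub, hui, UnitCentres.sub_left hfk, UnitCentres.sub_right hfk, UnitCentres.sub_right hfk, hN, hu₁',
    hfk.herm (blk y i) u₁, hu₁, map_mul, (Finset.mem_filter.1 hk).2]
  intro h
  refine one_ne_zero (α := F) ?_
  linear_combination h + k * hc

end CfsgLib.SUFour96.Planes
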