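import Cfsg.Agent.UnitGeoSmall91.Nondeg

/-!
Non-degenerate points in a special unitary group: the point stabiliser is maximal in every dimension
from four on.
-/

set_option autoImplicit false

namespace CfsgLib.SUFour96.Point

section

open Matrix CfsgLib.TransvGL CfsgLib.UnitCentres
open CfsgLib.UnitGeoSmall91 (eq_zero_of_mem_both exists_split mem_of_orth_perp perp_nondeg
  exists_unit_in exists_norm_in)

variable {ι : Type} [Fintype ι] [DecidableEq ι] {F : Type*} [Field F]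
variable {σ : F ≃+* F} {f : (ι → F) → (ι → F) → F} {W : Submodule F (ι → F)}

local notation "U" hf:max => perp hf (W : Set (ι → F))

theorem exists_move [Finite F] (hf : Cfsg.Geo.IsUnitaryForm σ f)
    (hW : Cfsg.Geo.IsNondegenerateOn f W) (hn : 3 + Module.finrank F W ≤ Fintype.card ι)
    {a a' b b' : ι → F} (ha : a ∈ W) (ha' : a' ∈ W) (hb : b ∈ U hf) (hb' : b' ∈ U hf)
    (ha0 : a ≠ 0) (ha'0 : a' ≠ 0) (hb0 : b ≠ 0) (hb'0 : b' ≠ 0) (hN : f a a = f a' a')
    (hN' : f b b = f b' b') :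
    ∃ g : GL ι F, Iso f g ∧ g ∈ Cfsg.Geo.specialLinear ι F ∧
      g ∈ Cfsg.Geo.subspaceStabilizer W ∧ (g : Matrix ι ι F) *ᵥ (a + b) = a' + b' := by
  -- an isometry fixing the complement and moving `a`
  obtain ⟨p, hp, hap⟩ : ∃ p ∈ W, f a p = 1 := by
    obtain ⟨y, hy, hy'⟩ := (hW a ha ha0).2
    refine ⟨σ (f a y)⁻¹ • y, W.smul_mem _ hy, ?_⟩
    rw [smul_right hf, hf.involutive, inv_mul_cancel₀ hy']
  obtain ⟨g1, hg1, hg1U, hg1a⟩ : ∃ g : GL ι F, Iso f g ∧
      (∀ u ∈ U hf, (g : Matrix ι ι F) *ᵥ u = u) ∧ (g : Matrix ι ι F) *ᵥ a = a' := by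
    let X := U hf ⊔ Submodule.span F {a}
    let L : (ι → F) →ₗ[F] (ι → F) := LinearMap.id + (upair hf p).smulRight (a' - a)
    have key : ∀ x ∈ X, ∃ u ∈ U hf, ∃ k : F, x = u + k • a ∧ L x = u + k • a' := by
      intro x hx
      obtain ⟨u, hu, z, hz, rfl⟩ := Submodule.mem_sup.1 hx
      obtain ⟨k, rfl⟩ := Submodule.mem_span_singleton.1 hz
      refine ⟨u, hu, k, rfl, ?_⟩
      show (u + k • a) + f (u + k • a) p • (a' - a) = _
      rw [hf.add_left, hf.smul_left, hu p hp, hap, mul_one, zero_add]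
      module
    have hinj : Function.Injective (L.comp X.subtype) := by
      rw [← LinearMap.ker_eq_bot, Submodule.eq_bot_iff]
      rintro ⟨x, hx⟩ hx0
      obtain ⟨u, hu, k, rfl, hL⟩ := key x hx
      have h0 : u + k • a' = 0 := hL ▸ LinearMap.mem_ker.1 hx0
      have hk : k • a' = 0 := eq_zero_of_mem_both hf hW (W.smul_mem k ha')
        (by rw [eq_neg_of_add_eq_zero_right h0]; exact Submodule.neg_mem _ hu)
      rw [hk, add_zero] at h0
      have hk0 := (smul_eq_zero.1 hk).resolve_right ha'0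
      apply Subtype.ext
      show u + k • a = 0
      rw [h0, hk0, zero_smul, add_zero]
    obtain ⟨g, hg, hgx⟩ := CfsgLib.LinAlg.Witt.witt_unitaryFun hf X (L.comp X.subtype) hinj (by
      rintro ⟨x, hx⟩ ⟨y, hy⟩
      obtain ⟨u, hu, k, rfl, hL⟩ := key x hx
      obtain ⟨v, hv, l, rfl, hL'⟩ := key y hy
      show f (L (u + k • a)) (L (v + l • a)) = f (u + k • a) (v + l • a)
      rw [hL, hL', hf.add_left, hf.add_left, add_right hf, add_right hf, add_right hf, add_right hf,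
        hf.smul_left, hf.smul_left, hf.smul_left, hf.smul_left, smul_right hf, smul_right hf,
        smul_right hf, smul_right hf, hu a ha, hu a' ha', orth_comm hf (hv a ha),
        orth_comm hf (hv a' ha'), hN])
    have hLa : L a = a' := by
      obtain ⟨u, hu, k, hx, hL⟩ := key a (Submodule.mem_sup_right (Submodule.mem_span_singleton_self a))
      show a + f a p • (a' - a) = a'
      rw [hap, one_smul, add_sub_cancel]
    refine ⟨g, hg, fun u hu => ?_, ?_⟩
    · refine (hgx ⟨u, Submodule.mem_sup_left hu⟩).trans ?_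
      show u + f u p • (a' - a) = u
      rw [hu p hp, zero_smul, add_zero]
    · exact (hgx ⟨a, Submodule.mem_sup_right (Submodule.mem_span_singleton_self a)⟩).trans hLa
  have hg1W : ∀ w ∈ W, (g1 : Matrix ι ι F) *ᵥ w ∈ W := fun w hw => mem_of_orth_perp hf hW fun u hu => by
    rw [← hg1U u hu, hg1]; exact orth_comm hf (hu w hw)
  -- now adjust on the complement, with determinant one
  obtain ⟨u, hu, huS, huu⟩ := exists_unit_in hf hW {b'} (by simp; omega)
  obtain ⟨p', hp', hbp'⟩ := perp_nondeg hf hW hb hb0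
  let X := W ⊔ Submodule.span F {b}
  let G := Matrix.toLin' (g1 : Matrix ι ι F)
  let L : (ι → F) →ₗ[F] (ι → F) := G + (upair hf p').smulRight (b' - (g1 : Matrix ι ι F) *ᵥ b)
  have hbp : f b p' = 1 := by rw [hf.herm, hbp', map_one]
  have key : ∀ x ∈ X, ∃ w ∈ W, ∃ k : F, x = w + k • b ∧ L x = (g1 : Matrix ι ι F) *ᵥ w + k • b' := by
    intro x hx
    obtain ⟨w, hw, z, hz, rfl⟩ := Submodule.mem_sup.1 hx
    obtain ⟨k, rfl⟩ := Submodule.mem_span_singleton.1 hz
    refine ⟨w, hw, k, rfl, ?_⟩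
    show G (w + k • b) + f (w + k • b) p' • (b' - (g1 : Matrix ι ι F) *ᵥ b) = _
    rw [map_add, map_smul, Matrix.toLin'_apply, Matrix.toLin'_apply, hf.add_left, hf.smul_left,
      orth_comm hf (hp' w hw), hbp, mul_one, zero_add]
    module
  have hinj : Function.Injective (L.comp X.subtype) := by
    rw [← LinearMap.ker_eq_bot, Submodule.eq_bot_iff]
    rintro ⟨x, hx⟩ hx0
    obtain ⟨w, hw, k, rfl, hL⟩ := key x hx
    have h0 : (g1 : Matrix ι ι F) *ᵥ w + k • b' = 0 := hL ▸ LinearMap.mem_ker.1 hx0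
    have hk : (g1 : Matrix ι ι F) *ᵥ w = 0 := eq_zero_of_mem_both hf hW (hg1W w hw)
      (by rw [eq_neg_of_add_eq_zero_left h0]; exact Submodule.neg_mem _ (Submodule.smul_mem _ _ hb'))
    rw [hk, zero_add] at h0
    have hw0 : w = 0 := by rw [← inv_mulVec_mulVec g1 w, hk, mulVec_zero]
    apply Subtype.ext
    show w + k • b = 0
    rw [hw0, (smul_eq_zero.1 h0).resolve_right hb'0, zero_smul, add_zero]
  obtain ⟨g, hg, hgsl, hgx⟩ := exists_iso_special hf X (L.comp X.subtype) hinj (by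
    rintro ⟨x, hx⟩ ⟨y, hy⟩
    obtain ⟨w, hw, k, rfl, hL⟩ := key x hx
    obtain ⟨z, hz, l, rfl, hL'⟩ := key y hy
    show f (L (w + k • b)) (L (z + l • b)) = f (w + k • b) (z + l • b)
    rw [hL, hL', hf.add_left, hf.add_left, add_right hf, add_right hf, add_right hf, add_right hf,
      hf.smul_left, hf.smul_left, hf.smul_left, hf.smul_left, smul_right hf, smul_right hf,
      smul_right hf, smul_right hf, hg1, hb z hz, hb' _ (hg1W z hz), orth_comm hf (hb w hw),
      orth_comm hf (hb' _ (hg1W w hw)), hN']) huu (by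
    rintro ⟨x, hx⟩
    obtain ⟨w, hw, k, rfl, hL⟩ := key x hx
    show f (L (w + k • b)) u = 0
    rw [hL, hf.add_left, hf.smul_left, orth_comm hf (hu _ (hg1W w hw)),
      orth_comm hf (huS b' (by simp)), mul_zero, add_zero])
  refine ⟨g, hg, hgsl, mem_subspaceStabilizer_of_maps fun w hw => ?_, ?_⟩
  · rw [hgx ⟨w, Submodule.mem_sup_left hw⟩]
    show G w + f w p' • _ ∈ W
    rw [orth_comm hf (hp' w hw), zero_smul, add_zero, Matrix.toLin'_apply]
    exact hg1W w hw
  · rw [hgx ⟨a + b, Submodule.add_mem _ (Submodule.mem_sup_left ha)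
      (Submodule.mem_sup_right (Submodule.mem_span_singleton_self b))⟩]
    show G (a + b) + f (a + b) p' • (b' - (g1 : Matrix ι ι F) *ᵥ b) = _
    rw [map_add, Matrix.toLin'_apply, Matrix.toLin'_apply, hg1a, hf.add_left,
      orth_comm hf (hp' a ha), hbp, zero_add, one_smul]
    abel

/-- An isotropic vector of the complement with non-zero product with a given one. -/
theorem exists_partner [Finite F] (hf : Cfsg.Geo.IsUnitaryForm σ f)
    (hW : Cfsg.Geo.IsNondegenerateOn f W) (hn : 3 + Module.finrank F W ≤ Fintype.card ι)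
    {y : ι → F} (hy : y ∈ U hf) (hy0 : y ≠ 0) : ∃ e ∈ U hf, f e e = 0 ∧ f e y ≠ 0 := by
  obtain ⟨p, hp, hpy⟩ := perp_nondeg hf hW hy hy0
  by_cases hyy : f y y = 0
  · obtain ⟨t, ht⟩ := exists_isotropic_shift hf hyy
      (fun e => one_ne_zero (hpy.symm.trans (orth_comm hf e)) : f y p ≠ 0)
    exact ⟨p + t • y, Submodule.add_mem _ hp (Submodule.smul_mem _ _ hy), ht,
      by rw [hf.add_left, hf.smul_left, hyy, mul_zero, add_zero, hpy]; exact one_ne_zero⟩
  obtain ⟨x, hx, hx0, -, hxx⟩ := exists_norm_in hf hW ∅ (by simp; omega) (ν := 0) (map_zero σ)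
  by_cases hxy : f x y = 0
  swap
  · exact ⟨x, hx, hxx, hxy⟩
  obtain ⟨p0, hp0, hp0x⟩ := perp_nondeg hf hW hx hx0
  obtain ⟨t, ht⟩ := exists_isotropic_shift hf hxx
    (fun e => one_ne_zero (hp0x.symm.trans (orth_comm hf e)) : f x p0 ≠ 0)
  set z := p0 + t • x with hz
  have hzU : z ∈ U hf := Submodule.add_mem _ hp0 (Submodule.smul_mem _ _ hx)
  have hzx : f z x = 1 := by rw [hz, hf.add_left, hf.smul_left, hxx, mul_zero, add_zero, hp0x]
  by_cases hzy : f z y = 0
  swap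
  · exact ⟨z, hzU, ht, hzy⟩
  obtain ⟨a, ha⟩ := exists_trace hf (r := -f y y) (by rw [map_neg, norm_fixed hf])
  refine ⟨y + (a • x + z), Submodule.add_mem _ hy (Submodule.add_mem _ (Submodule.smul_mem _ _ hx) hzU),
    ?_, ?_⟩
  · have hxz : f x z = 1 := by rw [hf.herm, hzx, map_one]
    simp only [hf.add_left, add_right hf, hf.smul_left, smul_right hf, hxx, ht, hxy, hzy, hzx, hxz,
      orth_comm hf hxy, orth_comm hf hzy]
    linear_combination ha
  · simp only [hf.add_left, hf.smul_left, hxy, hzy, mul_zero, add_zero]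
    exact hyy

theorem exists_mixed [Finite F] (hf : Cfsg.Geo.IsUnitaryForm σ f)
    (hW : Cfsg.Geo.IsNondegenerateOn f W) (hn : 3 + Module.finrank F W ≤ Fintype.card ι)
    {g : GL ι F} (hg : Iso f g) (hgW : g ∉ Cfsg.Geo.subspaceStabilizer W) :
    ∃ x ∈ U hf, f x x = 0 ∧ (g : Matrix ι ι F) *ᵥ x ∉ U hf := by
  by_contra hc
  push Not at hc
  let G := Matrix.toLin' (g : Matrix ι ι F)
  have hinj : Function.Injective G := fun a b hab => by
    simp only [G, Matrix.toLin'_apply] at hab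
    rw [← inv_mulVec_mulVec g a, hab, inv_mulVec_mulVec]
  have hle : (U hf).map G ≤ U hf := by
    rintro _ ⟨y, hy, rfl⟩
    rw [Matrix.toLin'_apply]
    by_cases hy0 : y = 0
    · rw [hy0, mulVec_zero]; exact Submodule.zero_mem _
    obtain ⟨e, he, hee, hey⟩ := exists_partner hf hW hn hy hy0
    obtain ⟨t, ht⟩ := exists_isotropic_shift hf hee hey
    rw [show y = (y + t • e) - t • e by rw [add_sub_cancel_right], mulVec_sub, mulVec_smul]
    exact Submodule.sub_mem _ (hc _ (Submodule.add_mem _ hy (Submodule.smul_mem _ _ he)) ht)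
      (Submodule.smul_mem _ _ (hc e he hee))
  have heq : (U hf).map G = U hf := Submodule.eq_of_le_of_finrank_eq hle
    (Submodule.equivMapOfInjective G hinj (U hf)).finrank_eq.symm
  refine hgW (mem_subspaceStabilizer_of_maps fun w hw => mem_of_orth_perp hf hW fun u hu => ?_)
  obtain ⟨z, hz, rfl⟩ : u ∈ (U hf).map G := heq.symm ▸ hu
  rw [Matrix.toLin'_apply, hg]
  exact orth_comm hf (hz w hw)

theorem centre_all [Finite F] (hf : Cfsg.Geo.IsUnitaryForm σ f) {M : Subgroup (GL ι F)}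
    (hW : Cfsg.Geo.IsNondegenerateOn f W) (hn : 3 + Module.finrank F W ≤ Fintype.card ι)
    (haniso : ∀ a ∈ W, a ≠ 0 → f a a ≠ 0) (hPU : ∀ v ∈ U hf, f v v = 0 → Centre hf M v)
    (hmove : ∀ h, Iso f h → h ∈ Cfsg.Geo.specialLinear ι F →
      h ∈ Cfsg.Geo.subspaceStabilizer W → h ∈ M)
    {v : ι → F} (hv : Centre hf M v) (hvU : v ∉ U hf) : ∀ y, f y y = 0 → Centre hf M y := by
  have hsum : ∀ a ∈ W, ∀ b ∈ U hf, f (a + b) (a + b) = f a a + f b b := fun a ha b hb => by
    rw [hf.add_left, add_right hf, add_right hf, hb a ha, orth_comm hf (hb a ha)]; ring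
  obtain ⟨a, ha, hb⟩ := exists_split hf hW v
  obtain ⟨b, hbdef⟩ : ∃ b, b = v - a := ⟨_, rfl⟩
  rw [← hbdef] at hb
  have hab : Centre hf M (a + b) := by rw [hbdef, add_sub_cancel]; exact hv
  have ha0 : a ≠ 0 := fun e => hvU (by simpa [hbdef, e] using hb)
  have hN : f a a ≠ 0 := haniso a ha ha0
  have hb0 : b ≠ 0 := fun e => hN (by have := hab.iso; rwa [e, add_zero] at this)
  intro y hy
  obtain ⟨a2, ha2, hb2⟩ := exists_split hf hW y
  obtain ⟨b2, hb2def⟩ : ∃ b2, b2 = y - a2 := ⟨_, rfl⟩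
  rw [← hb2def] at hb2
  have hyeq : y = a2 + b2 := by rw [hb2def, add_sub_cancel]
  by_cases ha20 : a2 = 0
  · exact hPU y (by simpa [hb2def, ha20] using hb2) hy
  rw [hyeq] at hy ⊢
  have hN2 : f a2 a2 ≠ 0 := haniso a2 ha2 ha20
  have hb20 : b2 ≠ 0 := fun e => hN2 (by rwa [e, add_zero] at hy)
  obtain ⟨l, hl⟩ := exists_norm hf (r := f a2 a2 / f a a)
    (by rw [map_div₀, norm_fixed hf, norm_fixed hf])
  have hl0 : l ≠ 0 := fun e => by
    rw [e, zero_mul, eq_comm, div_eq_zero_iff] at hl; exact hl.elim hN2 hN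
  have hl' : f (l • a) (l • a) = f a2 a2 := by
    rw [hf.smul_left, smul_right hf, ← mul_assoc, hl, div_mul_cancel₀ _ hN]
  have hbb : f (l • b) (l • b) = f b2 b2 := by
    have h1 := (hab.smul l).iso
    rw [smul_add, hsum _ (W.smul_mem l ha) _ (Submodule.smul_mem _ l hb), hl'] at h1
    have h2 := hsum _ ha2 _ hb2
    rw [hy] at h2
    linear_combination h1 + h2
  obtain ⟨g, hg, hgsl, hgst, hgv⟩ := exists_move hf hW hn (W.smul_mem l ha) ha2
    (Submodule.smul_mem _ l hb) hb2 (smul_ne_zero hl0 ha0) ha20 (smul_ne_zero hl0 hb0) hb20 hl' hbb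
  have h3 := (hab.smul l).image (hmove g hg hgsl hgst) hg
  rwa [smul_add, hgv] at h3

end

open CfsgLib.UnitGeoSmall91 (eq_zero_of_mem_both exists_norm_in)
open Cfsg

theorem point_maximal {F : Type*} [Field F] [Fintype F] (n q : ℕ) (hF : Fintype.card F = q ^ 2) (hn4 : 4 ≤ n) (W : Submodule F (Fin n → F)) (hd : Module.finrank F W = 1) (hW0 : W ≠ ⊥) (hW : Cfsg.Geo.IsNondegenerateOn (Cfsg.hermForm n F q) W) : Cfsg.Geo.IsMaximalIn (Cfsg.GU n F q ⊓ Cfsg.Geo.specialLinear (Fin n) F) (Cfsg.Geo.subspaceStabilizer W ⊓ (Cfsg.GU n F q ⊓ Cfsg.Geo.specialLinear (Fin n) F)) := by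
  obtain ⟨σ, hσ, hf⟩ := CfsgLib.LinAlg.Witt.exists_isUnitaryForm_hermForm (n := n) hF
  have hcard : 3 + Module.finrank F W ≤ Fintype.card (Fin n) := by rw [Fintype.card_fin]; omega
  refine ⟨lt_of_le_not_ge inf_le_right fun h => ?_, fun M hHM hMK => ?_⟩
  · obtain ⟨w, hw, hw0⟩ := W.ne_bot_iff.1 hW0
    obtain ⟨a, ha, hwa⟩ := (hW w hw hw0).2
    obtain ⟨u, hu, hu0, -, huu⟩ := exists_norm_in hf hW ∅ (by simp; omega) (ν := -hermForm n F q a a)
      (by rw [map_neg, CfsgLib.UnitCentres.norm_fixed hf])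
    obtain ⟨c, hc0, hc⟩ := CfsgLib.UnitCentres.exists_traceZero hf
    have hzz : hermForm n F q (a + u) (a + u) = 0 := by
      rw [hf.add_left, CfsgLib.UnitCentres.add_right hf, CfsgLib.UnitCentres.add_right hf, hu a ha,
        CfsgLib.UnitCentres.orth_comm hf (hu a ha), huu]
      ring
    have h1 := CfsgLib.TransvGL.mem_subspaceStabilizer.1 (h (CfsgLib.UnitCentres.mem_special.2
      ⟨CfsgLib.UnitCentres.uT_iso hf hzz hc, CfsgLib.UnitCentres.uT_mem_specialLinear hf hzz c⟩)).1 w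
    have h2 := h1.1 hw
    rw [CfsgLib.UnitCentres.uT_mulVec, CfsgLib.UnitCentres.add_right hf,
      CfsgLib.UnitCentres.orth_comm hf (hu w hw), add_zero, W.add_mem_iff_right hw,
      W.smul_mem_iff (mul_ne_zero hc0 hwa), W.add_mem_iff_right ha] at h2
    exact hu0 (eq_zero_of_mem_both hf hW h2 hu)
  · by_cases hle : M ≤ Geo.subspaceStabilizer W ⊓ (GU n F q ⊓ Geo.specialLinear (Fin n) F)
    · exact Or.inl (le_antisymm hle hHM)
    obtain ⟨g, hgM, hgH⟩ := SetLike.not_le_iff_exists.1 hle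
    refine Or.inr (le_antisymm hMK (CfsgLib.UnitCentres.gu_le_of_centres hF (by omega) hσ hf ?_))
    have hgi := (CfsgLib.UnitCentres.mem_special.1 (hMK hgM)).1
    obtain ⟨x, hx, hxx, hgx⟩ := exists_mixed hf hW hcard hgi (fun hs => hgH ⟨hs, hMK hgM⟩)
    have hG : ∀ v (hv : hermForm n F q v v = 0) c, c + σ c = 0 →
        CfsgLib.UnitCentres.uT hf hv c ∈ GU n F q ⊓ Geo.specialLinear (Fin n) F := fun v hv c hc =>
      CfsgLib.UnitCentres.mem_special.2
        ⟨CfsgLib.UnitCentres.uT_iso hf hv hc, CfsgLib.UnitCentres.uT_mem_specialLinear hf hv c⟩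
    have hPU : ∀ v ∈ CfsgLib.UnitCentres.perp hf (W : Set (Fin n → F)), hermForm n F q v v = 0 →
        CfsgLib.UnitCentres.Centre hf M v := fun v hv hvv => ⟨hvv, fun c hc => hHM
      ⟨CfsgLib.UnitCentres.uT_mem_subspaceStabilizer hf hvv
        (Or.inr fun x hx => CfsgLib.UnitCentres.orth_comm hf (hv x hx)) c, hG v hvv c hc⟩⟩
    refine centre_all hf hW hcard (fun a ha ha0 e => ?_)
      hPU (fun k hk hks hkst => hHM ⟨hkst, CfsgLib.UnitCentres.mem_special.2 ⟨hk, hks⟩⟩)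
      ((hPU x hx hxx).image hgM hgi) hgx
    obtain ⟨y, hy, hy'⟩ := (hW a ha ha0).2
    obtain ⟨k, hk⟩ := exists_smul_eq_of_finrank_eq_one hd (x := ⟨a, ha⟩)
      (fun h => ha0 (congrArg Subtype.val h)) ⟨y, hy⟩
    have hk' : k • a = y := congrArg Subtype.val hk
    rw [← hk', CfsgLib.UnitCentres.smul_right hf, e, mul_zero] at hy'
    exact hy' rfl

end CfsgLib.SUFour96.Point
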