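import Cfsg.Agent.UnitGeo.SympSubfield

/-! The symplectic subfield subgroup is maximal from dimension four on. -/

set_option autoImplicit false
set_option linter.unusedSectionVars false

namespace CfsgLib.SUFour96.SympSub

open Cfsg Module CfsgLib.Unitary CfsgLib.UnitGeo CfsgLib.Subfield54
open scoped Matrix MatrixGroups

variable {F : Type*} [Field F] {n q : ℕ} {F₀ : Subfield F} {ζ : F} {P : GL (Fin n) F}
variable [Fintype F] (hF : Fintype.card F = q ^ 2)
variable (hS : RStr q F₀ ζ P)
variable (hskew : ζ + ζ ^ q = 0) (hiso : ∀ w, InW F₀ P w → hermForm n F q w w = 0)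
include hF hS

section
include hiso

lemma exists_perp_pair_avoid4 (hn : 4 ≤ n) {b e : Fin n → F} (hb : InW F₀ P b) (he : InW F₀ P e)
    (hdeg : e ∈ Submodule.span F {b} ∨ hermForm n F q b e ≠ 0) :
    ∃ f, InW F₀ P f ∧ hermForm n F q f b = 0 ∧ hermForm n F q f e = 0 ∧
      f ∉ Submodule.span F {b} ⊔ Submodule.span F {e} := by
  obtain ⟨δ, hδ⟩ := exists_delta hF hS
  let S : Submodule F (Fin n → F) := LinearMap.ker (hermLeft q b) ⊓ LinearMap.ker (hermLeft q e)
  obtain ⟨f, hf, hfS, hfT⟩ := exists_W_of_not_le hF hS (S := S)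
    (T := Submodule.span F {b} ⊔ Submodule.span F {e}) hδ (fun a c ha hc h => by
      simp only [S, Submodule.mem_inf, LinearMap.mem_ker, hermLeft_apply] at h ⊢
      obtain ⟨h1, h2⟩ := comp_perp hF hS hδ ha hc hb h.1
      obtain ⟨h3, h4⟩ := comp_perp hF hS hδ ha hc he h.2
      exact ⟨⟨h1, h3⟩, h2, h4⟩) (by
      intro hle
      have h1 := Submodule.finrank_mono hle
      have h2 := Submodule.finrank_add_le_finrank_add_finrank (Submodule.span F {b}) (Submodule.span F {e})
      have h3 : ∀ y : Fin n → F, finrank F (Submodule.span F ({y} : Set (Fin n → F))) ≤ 1 := fun y =>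
        (finrank_span_le_card _).trans (by simp)
      have h4 := Submodule.finrank_sup_add_finrank_inf_eq (LinearMap.ker (hermLeft q b)) (LinearMap.ker (hermLeft q e))
      have h5 : ∀ y : Fin n → F, n ≤ finrank F (LinearMap.ker (hermLeft q y)) + 1 := fun y => by
        have h6 := LinearMap.finrank_range_add_finrank_ker (hermLeft (F := F) q y)
        have h7 := Submodule.finrank_le (LinearMap.range (hermLeft (F := F) q y))
        simp only [finrank_fin_fun, finrank_self] at h6 h7
        omega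
      have h8 := Submodule.finrank_le (LinearMap.ker (hermLeft q b) ⊔ LinearMap.ker (hermLeft q e))
      rw [finrank_fin_fun] at h8
      have := h3 b
      have := h3 e
      have := h5 b
      have := h5 e
      change finrank F ↥(LinearMap.ker (hermLeft q b) ⊓ LinearMap.ker (hermLeft q e)) ≤ _ at h1
      rcases hdeg with hdeg | hdeg
      · have h9 : Submodule.span F {b} ⊔ Submodule.span F {e} = Submodule.span F {b} :=
          sup_eq_left.2 ((Submodule.span_singleton_le_iff_mem _ _).2 hdeg)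
        rw [h9] at h1
        omega
      · have h10 : LinearMap.ker (hermLeft q b) ⊓ LinearMap.ker (hermLeft q e) ≤ (⊥ : Submodule F (Fin n → F)) := by
          intro x hx
          obtain ⟨_, hy, _, hz, rfl⟩ := Submodule.mem_sup.1 (hle hx)
          obtain ⟨i, rfl⟩ := Submodule.mem_span_singleton.1 hy
          obtain ⟨j, rfl⟩ := Submodule.mem_span_singleton.1 hz
          simp only [Submodule.mem_inf, LinearMap.mem_ker, hermLeft_apply, herm_add_left, herm_smul_left,
            hiso b hb, hiso e he, mul_zero, add_zero, zero_add, mul_eq_zero] at hx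
          rw [hx.1.resolve_right (fun h => hdeg (herm_eq_zero_comm hF h)), hx.2.resolve_right hdeg]
          simp
        have h11 := Submodule.finrank_mono h10
        rw [finrank_bot] at h11
        omega)
  simp only [S, Submodule.mem_inf, LinearMap.mem_ker, hermLeft_apply] at hfS
  exact ⟨f, hf, hfS.1, hfS.2, hfT⟩

end

variable {M : Subgroup (GL (Fin n) F)} (hH : SubH q F₀ P ≤ M) (hM : M ≤ SUGL n F q)
include hskew hiso hH hM

lemma fullRoot_all4 (hn : 4 ≤ n) {b : Fin n → F} (hb : InW F₀ P b) (hb0 : b ≠ 0) (h : FullRoot q F₀ P M b) :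
    ∀ e, InW F₀ P e → e ≠ 0 → FullRoot q F₀ P M e := by
  intro e he he0
  by_cases hbe : hermForm n F q b e = 0 ∧ e ∉ Submodule.span F {b}
  · exact fullRoot_swap hF hS hskew hiso hH hM hb he hb0 hbe.1 hbe.2 h
  obtain ⟨f, hf, hfb, hfe, hfN⟩ := exists_perp_pair_avoid4 hF hS hiso hn hb he (by
    rw [not_and_or, not_not] at hbe; exact hbe.symm)
  have h1 := fullRoot_swap hF hS hskew hiso hH hM hb hf hb0 (herm_eq_zero_comm hF hfb)
    (fun hm => hfN (Submodule.mem_sup_left hm)) h
  refine fullRoot_swap hF hS hskew hiso hH hM hf he (fun h0 => hfN (h0 ▸ zero_mem _)) hfe (fun hm => ?_) h1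
  obtain ⟨c, hc⟩ := Submodule.mem_span_singleton.1 hm
  refine hfN (Submodule.mem_sup_right (Submodule.mem_span_singleton.2 ⟨c⁻¹, ?_⟩))
  rw [← hc, smul_smul, inv_mul_cancel₀ (fun h0 => he0 (by rw [← hc, h0, zero_smul])), one_smul]

lemma le_of_fullRoot4 (hn : 4 ≤ n) {b : Fin n → F} (hb : InW F₀ P b) (hb0 : b ≠ 0) (h : FullRoot q F₀ P M b) :
    SUGL n F q ≤ M := by
  refine le_of_tMat_mem hF (by omega) fun v c hv hc => ?_
  obtain ⟨δ, hδ⟩ := exists_delta hF hS
  obtain ⟨a, a', ha, ha', rfl, -⟩ := exists_decomp hF hS hδ v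
  have hd : δ ^ q - δ ≠ 0 := fun h => hδ ((hS.fix δ).2 (sub_eq_zero.1 h))
  have haa' : hermForm n F q a a' = 0 := by
    have h1 := hv
    simp only [herm_add_left, herm_add_right hF, herm_smul_left, herm_smul_right, hiso a ha, hiso a' ha',
      herm_anti hF hS hskew ha ha'] at h1
    exact (mul_eq_zero.1 (show (δ ^ q - δ) * hermForm n F q a a' = 0 by linear_combination h1)).resolve_left hd
  rw [tMat_split hF (hiso a ha) (hiso a' ha') haa' δ hc]
  refine ((tMat_skew_mem hF hS hskew hH ha (hiso a ha) hc).mul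
    (tMat_skew_mem hF hS hskew hH ha' (hiso a' ha') ?_)).mul ?_
  · rw [mul_pow, norm_pow_q hF, ← add_mul, hc, zero_mul]
  · by_cases ha0 : a = 0
    · rw [ha0, rMat_zero_left hF]
      exact ⟨1, M.one_mem, rfl⟩
    · exact fullRoot_all4 hF hS hskew hiso hH hM hn hb hb0 h a ha ha0 a' ha' haa' (c * δ)

omit hM hH
/-- The symplectic subfield group is maximal in the special unitary group. -/
theorem sympSubfield_isMaximal4 (hn : 4 ≤ n) : Cfsg.Geo.IsMaximalIn (SUGL n F q) (SubH q F₀ P) := by
  obtain ⟨δ, hδ⟩ := exists_delta hF hS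
  have hd : δ ^ q - δ ≠ 0 := fun h => hδ ((hS.fix δ).2 (sub_eq_zero.1 h))
  refine ⟨lt_of_le_of_ne inf_le_right fun heq => ?_, fun M hle hM => ?_⟩
  · obtain ⟨a, ha, ha0⟩ : ∃ a, InW F₀ P a ∧ a ≠ 0 := by
      obtain ⟨a, ha, -, -, haN⟩ := exists_perp_pair_avoid4 hF hS hiso hn (b := 0) (e := 0) inW_zero inW_zero (Or.inl (zero_mem _))
      exact ⟨a, ha, fun h0 => haN (by rw [h0]; exact zero_mem _)⟩
    obtain ⟨b, hb, hba, -, hbN⟩ := exists_perp_pair_avoid4 hF hS hiso hn ha ha (Or.inl (Submodule.mem_span_singleton_self a))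
    rw [sup_idem] at hbN
    have hab := herm_eq_zero_comm hF hba
    have hv : hermForm n F q (a + δ • b) (a + δ • b) = 0 := by
      simp [herm_add_left, herm_add_right hF, herm_smul_left, herm_smul_right, hiso a ha, hiso b hb, hab, hba]
    obtain ⟨s, u, hu, e⟩ := line_of_tMat_mem hF hS hS.zne ha ha0
      (v := a + δ • b) (by rw [herm_add_right hF, herm_smul_right, hiso a ha, hab, mul_zero, add_zero]) (by
        obtain ⟨g, hg, eg⟩ := exists_tMat_mem hF hv hskew
        have hg' : g ∈ SUGL n F q := hg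
        rw [← heq] at hg'
        exact ⟨g, hg'.1, eg⟩)
    have h1 := congrArg (sigma q P) e
    rw [sigma_add hF, sigma_smul hF, ha.sigma_eq hF hS, hb.sigma_eq hF hS, sigma_of_line hF hS hu] at h1
    have h2 : (s - s ^ q) • a + (s * δ ^ q - s ^ q * δ) • b = 0 := by
      linear_combination (norm := module) s • h1 - s ^ q • e
    by_cases hs : s - s ^ q = 0
    · rw [hs, zero_smul, zero_add, smul_eq_zero] at h2
      rcases h2 with h2 | h2
      · rw [← sub_eq_zero.1 hs, ← mul_sub, mul_eq_zero] at h2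
        rcases h2 with h2 | h2
        · rw [h2, zero_smul] at e
          refine ha0 ?_
          by_contra h0
          refine hbN (Submodule.mem_span_singleton.2 ⟨-δ⁻¹, ?_⟩)
          have hd0 : δ ≠ 0 := fun h => hδ (h ▸ F₀.zero_mem)
          rw [eq_neg_of_add_eq_zero_left e, smul_neg, smul_smul, neg_mul, inv_mul_cancel₀ hd0, neg_smul, neg_neg,
            one_smul]
        · exact hd h2
      · exact hbN (h2 ▸ zero_mem _)
    · have h3 : (s * δ ^ q - s ^ q * δ) ≠ 0 := fun h0 => by
        rw [h0, zero_smul, add_zero, smul_eq_zero] at h2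
        exact ha0 (h2.resolve_left hs)
      refine hbN (Submodule.mem_span_singleton.2 ⟨-(s - s ^ q) / (s * δ ^ q - s ^ q * δ), ?_⟩)
      rw [neg_div, neg_smul, div_eq_inv_mul, mul_smul, eq_neg_of_add_eq_zero_left h2, smul_neg, neg_neg,
        smul_smul, inv_mul_cancel₀ h3, one_smul]
  by_cases hMH : M ≤ SubH q F₀ P
  · exact Or.inl (le_antisymm hMH hle)
  refine Or.inr (le_antisymm hM ?_)
  obtain ⟨g, hgM, hgH⟩ := SetLike.not_le_iff_exists.1 hMH
  obtain ⟨v, hv, hvl⟩ : ∃ v, InW F₀ P v ∧ ∀ (s : F) (w : Fin n → F), InW F₀ P w →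
      (g : Matrix (Fin n) (Fin n) F) *ᵥ v ≠ s • w := by
    by_contra hc
    push Not at hc
    exact hgH ⟨mem_subfield_of_lines hc, hM hgM⟩
  have hgf : ∀ x y, hermForm n F q ((g : Matrix (Fin n) (Fin n) F) *ᵥ x) ((g : Matrix (Fin n) (Fin n) F) *ᵥ y) =
      hermForm n F q x y := (hM hgM).1
  obtain ⟨a, b, ha, hb, e, -⟩ := exists_decomp hF hS hδ ((g : Matrix (Fin n) (Fin n) F) *ᵥ v)
  have hab : hermForm n F q a b = 0 := by
    have h1 := (hgf v v).trans (hiso v hv)
    rw [e] at h1
    simp only [herm_add_left, herm_add_right hF, herm_smul_left, herm_smul_right, hiso a ha, hiso b hb,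
      herm_anti hF hS hskew ha hb] at h1
    exact (mul_eq_zero.1 (show (δ ^ q - δ) * hermForm n F q a b = 0 by linear_combination h1)).resolve_left hd
  have ha0 : a ≠ 0 := fun h0 => hvl δ b hb (by rw [e, h0, zero_add])
  have hind : b ∉ Submodule.span F {a} := fun hm => by
    obtain ⟨c, hc⟩ := Submodule.mem_span_singleton.1 hm
    exact hvl (1 + δ * c) a ha (by rw [e, ← hc, smul_smul, add_smul, one_smul])
  have ht : MIn M (tMat q (a + δ • b) ζ) := by
    obtain ⟨t, ht, et⟩ := tMat_skew_mem hF hS hskew hle hv (hiso v hv) hskew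
    refine ⟨g * t * g⁻¹, M.mul_mem (M.mul_mem hgM ht) (M.inv_mem hgM), ?_⟩
    rw [Units.val_mul, Units.val_mul, et, conj_tMat hF hgf, e]
  have hr : RootIn q M a b (ζ * δ) := rMat_of_split hF (hiso a ha) (hiso b hb) hab δ hskew
    (tMat_skew_mem hF hS hskew hle ha (hiso a ha) (by rw [neg_pow_q hF, ← neg_add, hskew, neg_zero]))
    (tMat_skew_mem hF hS hskew hle hb (hiso b hb) (by
      rw [neg_pow_q hF, mul_pow, norm_pow_q hF, ← neg_add, ← add_mul, hskew, zero_mul, neg_zero])) ht
  exact le_of_fullRoot4 hF hS hskew hiso hle hM hn ha ha0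
    (fullRoot_of_irrational hF hS hskew hiso hle hM ha ha0 hb hab hind hδ hr)

end CfsgLib.SUFour96.SympSub
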