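import Cfsg.Agent.UnitGeo.RootPairs

/-! Two complementary totally isotropic planes: dual vectors, torus elements and root matrices. -/

set_option autoImplicit false
set_option linter.unusedSectionVars false

namespace CfsgLib.SUFour96.IsoPlanes

open CfsgLib.UnitGeo

open Cfsg Module CfsgLib.Unitary
open scoped Matrix MatrixGroups

variable {F : Type*} [Field F] {n q : ℕ}

/-- Two complementary totally isotropic subspaces of dimension two. -/
structure Halves (q : ℕ) (U W : Submodule F (Fin n → F)) : Prop where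
  left : ∀ x ∈ U, ∀ y ∈ U, hermForm n F q x y = 0
  right : ∀ x ∈ W, ∀ y ∈ W, hermForm n F q x y = 0
  top : U ⊔ W = ⊤
  inf : ∀ x ∈ U, x ∈ W → x = 0
  same : finrank F W = finrank F U
  dim : finrank F U = 2

variable {U W : Submodule F (Fin n → F)}

lemma Halves.symm (h : Halves q U W) : Halves q W U :=
  ⟨h.right, h.left, by rw [sup_comm, h.top], fun x hx hx' => h.inf x hx' hx, h.same.symm, by
    rw [h.same]; exact h.dim⟩

lemma finrank_span_pair_le' (u v : Fin n → F) :
    finrank F ↥(Submodule.span F {u} ⊔ Submodule.span F {v}) ≤ 2 := by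
  have h3 := Submodule.finrank_add_le_finrank_add_finrank (Submodule.span F {u}) (Submodule.span F {v})
  have h4 : ∀ y : Fin n → F, finrank F (Submodule.span F ({y} : Set (Fin n → F))) ≤ 1 := fun y =>
    (finrank_span_le_card _).trans (by simp)
  have := h4 u
  have := h4 v
  omega

/-- A vector of the first half off a given line. -/
lemma Halves.exists_mem_not_span (h : Halves q U W) (c : Fin n → F) :
    ∃ e ∈ U, e ∉ Submodule.span F {c} := by
  by_contra hc
  push Not at hc
  have h1 := Submodule.finrank_mono (show U ≤ Submodule.span F {c} from hc)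
  have h2 : finrank F (Submodule.span F ({c} : Set (Fin n → F))) ≤ 1 :=
    (finrank_span_le_card _).trans (by simp)
  have := h.dim
  omega

/-- A non-zero vector of the first half orthogonal to a given one. -/
lemma Halves.exists_ortho (h : Halves q U W) (a : Fin n → F) :
    ∃ c ∈ U, c ≠ 0 ∧ hermForm n F q c a = 0 := by
  set L : U →ₗ[F] F := (hermLeft q a).comp U.subtype with hL
  have h1 := LinearMap.finrank_range_add_finrank_ker L
  have h2 := Submodule.finrank_le (LinearMap.range L)
  rw [Module.finrank_self] at h2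
  have := h.dim
  obtain ⟨x, hx, hx0⟩ := Submodule.exists_mem_ne_zero_of_ne_bot (p := LinearMap.ker L) (by
    intro h0; rw [h0, finrank_bot] at h1; omega)
  exact ⟨x, x.2, fun e => hx0 (Subtype.ext e), hx⟩

variable [Fintype F] (hF : Fintype.card F = q ^ 2)
include hF

/-- Dual bases of the two halves. -/
lemma Halves.exists_dual_bases (h : Halves q U W) :
    ∃ (u : Fin (finrank F U) → Fin n → F) (w : Fin (finrank F U) → Fin n → F),
      (∀ i, u i ∈ U) ∧ (∀ i, w i ∈ W) ∧ (∀ i j, hermForm n F q (u i) (w j) = if i = j then 1 else 0) ∧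
      Submodule.span F (Set.range u) = U ∧ Submodule.span F (Set.range w) = W := by
  set b : Basis (Fin (finrank F U)) F W := Module.finBasisOfFinrankEq F W h.same with hb
  set φ : U →ₗ[F] (Fin (finrank F U) → F) :=
    (LinearMap.pi fun j => hermLeft q (b j : Fin n → F)).comp U.subtype with hφ
  have hspan : Submodule.span F (Set.range fun j => (b j : Fin n → F)) = W := by
    rw [show (fun j => (b j : Fin n → F)) = W.subtype ∘ b from rfl, Set.range_comp, Submodule.span_image,
      b.span_eq, Submodule.map_top, Submodule.range_subtype]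
  have hinj : Function.Injective φ := by
    rw [← LinearMap.ker_eq_bot, Submodule.eq_bot_iff]
    intro x hx
    apply Subtype.ext
    refine herm_nondeg hF _ fun v => ?_
    obtain ⟨p, hp, r, hr, rfl⟩ := Submodule.mem_sup.1 (h.top ▸ Submodule.mem_top : v ∈ U ⊔ W)
    rw [herm_add_right hF, h.left _ x.2 _ hp, zero_add]
    rw [← hspan] at hr
    clear hp
    induction hr using Submodule.span_induction with
    | mem y hy =>
      obtain ⟨j, rfl⟩ := hy
      exact congrFun (LinearMap.mem_ker.1 hx) j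
    | zero => exact herm_zero_right hF _
    | add y z _ _ hy hz => rw [herm_add_right hF, hy, hz, add_zero]
    | smul c y _ hy => rw [herm_smul_right, hy, mul_zero]
  set φe : U ≃ₗ[F] (Fin (finrank F U) → F) :=
    LinearEquiv.ofInjectiveOfFinrankEq φ hinj (by rw [Module.finrank_fintype_fun_eq_card, Fintype.card_fin]) with hφe
  refine ⟨fun i => (φe.symm (Pi.single i 1) : Fin n → F), fun j => (b j : Fin n → F), fun i => (φe.symm _).2,
    fun j => (b j).2, fun i j => ?_, ?_, hspan⟩
  · have h1 : φ (φe.symm (Pi.single i 1)) = Pi.single i 1 := φe.apply_symm_apply _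
    have h2 := congrFun h1 j
    simp only [hφ, LinearMap.coe_comp, Function.comp_apply, Submodule.coe_subtype, LinearMap.pi_apply,
      hermLeft_apply, Pi.single_apply] at h2
    rw [h2]
    exact if_congr eq_comm rfl rfl
  · set bU := ((Pi.basisFun F (Fin (finrank F U))).map φe.symm) with hbU
    rw [show (fun i => (φe.symm (Pi.single i 1) : Fin n → F)) = U.subtype ∘ bU from funext fun i => by
      simp [hbU, Pi.basisFun_apply], Set.range_comp, Submodule.span_image, bU.span_eq, Submodule.map_top,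
      Submodule.range_subtype]

lemma Halves.exists_dual (h : Halves q U W) {v p r : Fin n → F} (hv : v ∈ U) (hp : p ∈ U) (hr : r ∈ U)
    (hn : v ∉ Submodule.span F {p} ⊔ Submodule.span F {r}) :
    ∃ d ∈ W, hermForm n F q p d = 0 ∧ hermForm n F q r d = 0 ∧ hermForm n F q v d = 1 := by
  obtain ⟨u, w, hu, hw, hd, hsu, -⟩ := h.exists_dual_bases hF
  obtain ⟨φ, hφv, hφ⟩ := Submodule.exists_dual_map_eq_bot_of_notMem hn inferInstance
  set d0 : Fin n → F := ∑ j, (φ (u j)) ^ q • w j with hd0
  have key : ∀ x ∈ U, hermForm n F q x d0 = φ x := by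
    intro x hx
    rw [← hsu] at hx
    induction hx using Submodule.span_induction with
    | mem y hy =>
      obtain ⟨i, rfl⟩ := hy
      rw [hd0, herm_sum_right hF, Finset.sum_eq_single i]
      · rw [herm_smul_right, hd, if_pos rfl, mul_one, pow_q_q hF]
      · intro j _ hj
        rw [herm_smul_right, hd, if_neg (Ne.symm hj), mul_zero]
      · simp
    | zero => rw [herm_zero_left, map_zero]
    | add y z _ _ hy hz => rw [herm_add_left, hy, hz, map_add]
    | smul c y _ hy => rw [herm_smul_left, hy, map_smul, smul_eq_mul]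
  have hz : ∀ z ∈ Submodule.span F {p} ⊔ Submodule.span F {r}, φ z = 0 := fun z hz => by
    have := Submodule.mem_map_of_mem (f := φ) hz
    rwa [hφ, Submodule.mem_bot] at this
  refine ⟨((φ v)⁻¹) ^ q • d0, W.smul_mem _ (W.sum_mem fun j _ => W.smul_mem _ (hw j)), ?_, ?_, ?_⟩
  · rw [herm_smul_right, key p hp, hz p (Submodule.mem_sup_left (Submodule.mem_span_singleton_self p)), mul_zero]
  · rw [herm_smul_right, key r hr, hz r (Submodule.mem_sup_right (Submodule.mem_span_singleton_self r)), mul_zero]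
  · rw [herm_smul_right, key v hv, pow_q_q hF, inv_mul_cancel₀ hφv]

/-- A vector of the second half orthogonal to two independent vectors of the first is zero. -/
lemma Halves.indep_zero (h : Halves q U W) {u v w : Fin n → F} (hu : u ∈ U) (hv : v ∈ U) (hu0 : u ≠ 0)
    (hvu : v ∉ Submodule.span F {u}) (hw : w ∈ W) (h1 : hermForm n F q u w = 0)
    (h2 : hermForm n F q v w = 0) : w = 0 := by
  have hsp : Submodule.span F {u} ⊔ Submodule.span F {v} = U := by
    refine Submodule.eq_of_le_of_finrank_le (sup_le ((Submodule.span_singleton_le_iff_mem _ _).2 hu)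
      ((Submodule.span_singleton_le_iff_mem _ _).2 hv)) ?_
    have h4 := Submodule.finrank_sup_add_finrank_inf_eq (Submodule.span F {u}) (Submodule.span F {v})
    have h5 : Submodule.span F {u} ⊓ Submodule.span F {v} = ⊥ := by
      rw [← disjoint_iff, Submodule.disjoint_span_singleton]
      · intro hm
        by_contra h0
        obtain ⟨j, hj⟩ := Submodule.mem_span_singleton.1 hm
        exact hvu (Submodule.mem_span_singleton.2 ⟨j, hj⟩)
    rw [h5, finrank_bot, add_zero, finrank_span_singleton hu0,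
      finrank_span_singleton (fun h0 => hvu (by rw [h0]; exact zero_mem _))] at h4
    have := h.dim
    omega
  refine herm_nondeg hF _ fun z => ?_
  obtain ⟨a, ha, b, hb, rfl⟩ := Submodule.mem_sup.1 (h.top ▸ Submodule.mem_top : z ∈ U ⊔ W)
  rw [← hsp] at ha
  obtain ⟨_, h6, _, h7, rfl⟩ := Submodule.mem_sup.1 ha
  obtain ⟨i, rfl⟩ := Submodule.mem_span_singleton.1 h6
  obtain ⟨j, rfl⟩ := Submodule.mem_span_singleton.1 h7
  rw [herm_add_right hF, herm_add_right hF, herm_smul_right, herm_smul_right, herm_eq_zero_comm hF h1,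
    herm_eq_zero_comm hF h2, h.right w hw b hb]
  ring

/-- A non-zero value times a suitable scalar is not fixed. -/
lemma exists_scalar_ne {X : F} (hX : X ≠ 0) : ∃ s : F, s ^ q * X ≠ (s ^ q * X) ^ q := by
  obtain ⟨l, hl⟩ := exists_ne_pow_q hF
  refine ⟨(l * X⁻¹) ^ q, ?_⟩
  rw [pow_q_q hF, mul_assoc, inv_mul_cancel₀ hX, mul_one]
  exact Ne.symm hl

/-- A fixed scalar of square other than one. -/
lemma exists_real (hq : 4 ≤ q) : ∃ α : F, α ^ q = α ∧ α ≠ 0 ∧ α * α ≠ 1 := by
  classical
  by_contra hno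
  push Not at hno
  have hsub : ∀ z : {z : F // z ^ q = z}, (z : F) ∈ ({0, 1, -1} : Finset F) := fun z => by
    by_cases hz0 : (z : F) = 0
    · simp [hz0]
    · rcases mul_self_eq_one_iff.1 (hno _ z.2 hz0) with h1 | h1 <;> simp [h1]
  have h2 := Nat.card_le_card_of_injective (fun z => (⟨z.1, hsub z⟩ : ({0, 1, -1} : Finset F)))
    fun z w e => Subtype.ext (congrArg (fun a : ({0, 1, -1} : Finset F) => (a : F)) e)
  rw [card_fixed hF, Nat.card_eq_fintype_card, Fintype.card_coe] at h2
  have h3 := Finset.card_le_three (a := (0 : F)) (b := 1) (c := -1)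
  omega

/-- Two root matrices at one centre differ by a transvection. -/
lemma rMat_swap {b a a' : Fin n → F} (hbb : hermForm n F q b b = 0) (hba : hermForm n F q b a = 0)
    (hba' : hermForm n F q b a' = 0) :
    rMat q b a' * rMat q b a = rMat q b a * rMat q b a' *
      tMat q b (hermForm n F q a' a - hermForm n F q a a') := by
  refine matrix_ext fun x => ?_
  simp only [← Matrix.mulVec_mulVec, rMat_mulVec hbb, tMat_mulVec, herm_add_left, herm_sub_left,
    herm_smul_left, hbb, hba, hba', herm_eq_zero_comm hF hba, herm_eq_zero_comm hF hba']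
  module

/-- A root matrix inside a totally isotropic plane. -/
lemma rMat_plane {p r : Fin n → F} (hpp : hermForm n F q p p = 0) (hrr : hermForm n F q r r = 0)
    (hpr : hermForm n F q p r = 0) (j k : F) :
    rMat q (p + r) (j • p + k • r) =
      tMat q p (j - j ^ q) * tMat q r (k - k ^ q) * rMat q p ((k - j ^ q) • r) := by
  have hrp := herm_eq_zero_comm hF hpr
  have hbb : hermForm n F q (p + r) (p + r) = 0 := by
    simp [herm_add_left, herm_add_right hF, hpp, hrr, hpr, hrp]
  refine matrix_ext fun x => ?_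
  simp only [← Matrix.mulVec_mulVec, rMat_mulVec hbb, rMat_mulVec hpp, tMat_mulVec, herm_add_left,
    herm_sub_left, herm_smul_left, herm_add_right hF, herm_smul_right, hpp, hrr, hpr, hrp, sub_pow_q hF,
    pow_q_q hF]
  module

/-- The torus element scaling two vectors. -/
lemma exists_torus {c d : Fin n → F} (hcc : hermForm n F q c c = 0) (hdd : hermForm n F q d d = 0)
    (hcd : hermForm n F q c d ≠ 0) {α : F} (hα : α ^ q = α) (hα0 : α ≠ 0) :
    ∃ g ∈ Cfsg.GU n F q ⊓ Cfsg.Geo.specialLinear (Fin n) F, ∀ x : Fin n → F,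
      (g : Matrix (Fin n) (Fin n) F) *ᵥ x = x + (((α - 1) / hermForm n F q c d) * hermForm n F q x d) • c
        + (((α⁻¹ - 1) / hermForm n F q d c) * hermForm n F q x c) • d := by
  have hdc : hermForm n F q d c ≠ 0 := fun e => hcd (herm_eq_zero_comm hF e)
  set k₁ := (α - 1) / hermForm n F q c d with hk₁
  set k₂ := (α⁻¹ - 1) / hermForm n F q d c with hk₂
  set A := rankOne q (k₂ • d) c * rankOne q (k₁ • c) d with hA
  have e1 : k₁ * hermForm n F q c d = α - 1 := div_mul_cancel₀ _ hcd
  have e2 : k₂ * hermForm n F q d c = α⁻¹ - 1 := div_mul_cancel₀ _ hdc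
  have hmul : ∀ x, A *ᵥ x = x + (k₁ * hermForm n F q x d) • c + (k₂ * hermForm n F q x c) • d := fun x => by
    rw [hA, ← Matrix.mulVec_mulVec, rankOne_mulVec, rankOne_mulVec, herm_add_left, herm_smul_left,
      herm_smul_left, hcc]
    module
  have hd : A.det = 1 := by
    rw [hA, Matrix.det_mul, det_rankOne, det_rankOne, herm_smul_left, herm_smul_left, e1, e2]
    field_simp
    ring
  refine ⟨Matrix.GeneralLinearGroup.mkOfDetNeZero A (by rw [hd]; exact one_ne_zero), ⟨?_, Units.ext hd⟩,
    fun x => hmul x⟩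
  intro x y
  show hermForm n F q (A *ᵥ x) (A *ᵥ y) = _
  rw [hmul, hmul]
  have hk₁' : k₁ ^ q = (α - 1) / hermForm n F q d c := by
    rw [hk₁, div_pow, sub_pow_q hF, one_pow, hα, ← herm_conj hF c d]
  have hk₂' : k₂ ^ q = (α⁻¹ - 1) / hermForm n F q c d := by
    rw [hk₂, div_pow, sub_pow_q hF, one_pow, inv_pow, hα, ← herm_conj hF d c]
  simp only [herm_add_left, herm_add_right hF, herm_smul_left, herm_smul_right, hcc, hdd, mul_pow, hk₁', hk₂',
    ← herm_conj hF y c, ← herm_conj hF y d]
  rw [hk₁, hk₂]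
  field_simp
  ring

section OverGroup

variable {H : Subgroup (GL (Fin n) F)}
variable (hH : ∀ g ∈ H, ∀ x y, hermForm n F q ((g : Matrix (Fin n) (Fin n) F) *ᵥ x)
  ((g : Matrix (Fin n) (Fin n) F) *ᵥ y) = hermForm n F q x y)
variable (hp : ∀ u ∈ U, ∀ w ∈ W, hermForm n F q u w = 0 → MIn H (rMat q u w))
include hH hp

lemma conj_mem_rMat {a b : Fin n → F} (ha : hermForm n F q a a = 0) (h : MIn H (rMat q a b))
    {c d : Fin n → F} (hg : MIn H (rMat q c d)) :
    MIn H (rMat q (rMat q c d *ᵥ a) (rMat q c d *ᵥ b)) := by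
  obtain ⟨g, hgH, hge⟩ := hg
  obtain ⟨k, hk, hke⟩ := h
  refine ⟨g * k * g⁻¹, H.mul_mem (H.mul_mem hgH hk) (H.inv_mem hgH), ?_⟩
  rw [Units.val_mul, Units.val_mul, hke, conj_rMat hF (hH g hgH) b ha, hge]

lemma conj_mem_tMat {v : Fin n → F} {t : F} (h : MIn H (tMat q v t))
    {c d : Fin n → F} (hg : MIn H (rMat q c d)) :
    MIn H (tMat q (rMat q c d *ᵥ v) t) := by
  obtain ⟨g, hgH, hge⟩ := hg
  obtain ⟨k, hk, hke⟩ := h
  refine ⟨g * k * g⁻¹, H.mul_mem (H.mul_mem hgH hk) (H.inv_mem hgH), ?_⟩
  rw [Units.val_mul, Units.val_mul, hke, conj_tMat hF (hH g hgH), hge]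

/-- A root element attached to a vector of `U` gives a transvection. -/
lemma transv_of_pure_root (h : Halves q U W) {b aU aW : Fin n → F} (hb : b ∈ U) (hb0 : b ≠ 0) (haU : aU ∈ U)
    (haW : aW ∈ W) (haa : hermForm n F q (aU + aW) (aU + aW) = 0) (hab : hermForm n F q b (aU + aW) = 0)
    (hmem : MIn H (rMat q b (aU + aW))) (hind : aU ∉ Submodule.span F {b}) :
    ∃ c, c ≠ 0 ∧ c + c ^ q = 0 ∧ MIn H (tMat q b c) := by
  obtain ⟨l, hl⟩ := exists_ne_pow_q hF
  obtain ⟨w, hwW, hbw, -, hw⟩ := h.exists_dual hF (v := aU) (p := b) (r := b) haU hb hb (by rwa [sup_idem])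
  have hbb := h.left b hb b hb
  have hbw' : hermForm n F q b (l • w) = 0 := by rw [herm_smul_right, hbw, mul_zero]
  have hg := hp b hb (l • w) (W.smul_mem _ hwW) hbw'
  have h1 := conj_mem_rMat hF hH hp hbb hmem hg
  have hgb : rMat q b (l • w) *ᵥ b = b := by rw [rMat_mulVec hbb, hbb, hbw']; simp
  have hga : rMat q b (l • w) *ᵥ (aU + aW) = aU + aW + (-(l ^ q)) • b := by
    rw [rMat_mulVec hbb, herm_eq_zero_comm hF hab, herm_smul_right, herm_add_left, hw, h.right aW haW w hwW]
    module
  rw [hgb, hga, rMat_add_smul hF hbb hab] at h1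
  have hinv : MIn H (rMat q (aU + aW) b) := hmem.of_mul_eq_one (rMat_neg_mul hF hbb haa hab)
  refine ⟨-(l ^ q) - (-(l ^ q)) ^ q, ?_, ?_, ?_⟩
  · rw [neg_pow_q hF, pow_q_q hF, sub_neg_eq_add, neg_add_eq_sub]
    exact sub_ne_zero.2 fun e => hl e.symm
  · rw [sub_pow_q hF, pow_q_q hF]
    ring
  · have h2 := hinv.mul h1
    rwa [← mul_assoc, rMat_neg_mul hF haa hbb (herm_eq_zero_comm hF hab), one_mul] at h2

omit hp in
/-- Two non-orthogonal root vectors at one centre give a transvection there. -/
lemma transv_of_pair {b a a' : Fin n → F} (hbb : hermForm n F q b b = 0) (haa : hermForm n F q a a = 0)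
    (haa' : hermForm n F q a' a' = 0) (hba : hermForm n F q b a = 0) (hba' : hermForm n F q b a' = 0)
    (hm : ∀ s : F, MIn H (rMat q b (s • a))) (hm' : ∀ s : F, MIn H (rMat q b (s • a')))
    (hne : hermForm n F q a a' ≠ 0) :
    ∃ c, c ≠ 0 ∧ c + c ^ q = 0 ∧ MIn H (tMat q b c) := by
  obtain ⟨s, hs⟩ := exists_scalar_ne hF hne
  have h1 : hermForm n F q b (s • a') = 0 := by rw [herm_smul_right, hba', mul_zero]
  have h2 : hermForm n F q (s • a') (s • a') = 0 := by rw [herm_self_smul, haa', mul_zero]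
  have i1 := (hm 1).of_mul_eq_one (rMat_neg_mul hF hbb (by rwa [one_smul]) (by rwa [one_smul]))
  have i2 := (hm' s).of_mul_eq_one (rMat_neg_mul hF hbb h2 h1)
  rw [one_smul] at i1
  refine ⟨hermForm n F q (s • a') a - hermForm n F q a (s • a'), ?_, ?_, ?_⟩
  · rw [herm_conj hF a (s • a'), herm_smul_right]
    exact sub_ne_zero.2 (Ne.symm hs)
  · rw [sub_pow_q hF, ← herm_conj hF (s • a') a, ← herm_conj hF a (s • a')]
    ring
  · have h3 := i2.mul (i1.mul ((hm' s).mul (hm 1)))
    rw [one_smul, rMat_swap hF hbb hba h1, mul_assoc (rMat q b a), ← mul_assoc (rMat q a b),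
      rMat_neg_mul hF haa hbb (herm_eq_zero_comm hF hba), one_mul, ← mul_assoc,
      rMat_neg_mul hF h2 hbb (herm_eq_zero_comm hF h1), one_mul] at h3
    exact h3

omit hp in
/-- A multiple of the centre may be dropped from a root vector. -/
lemma root_drop {b a e : Fin n → F} (hbb : hermForm n F q b b = 0) (hbe : hermForm n F q b e = 0) {x : F}
    (hm : ∀ s : F, MIn H (rMat q b (s • a))) (hae : a = e + x • b) :
    ∃ s : F, s ≠ 0 ∧ MIn H (rMat q b (s • e)) := by
  obtain ⟨s, hs, hsx⟩ : ∃ s : F, s ≠ 0 ∧ (s * x) ^ q = s * x := by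
    by_cases hx : x = 0
    · exact ⟨1, one_ne_zero, by rw [hx, mul_zero, zero_pow_q hF]⟩
    · exact ⟨x⁻¹, inv_ne_zero hx, by rw [inv_mul_cancel₀ hx, one_pow]⟩
  refine ⟨s, hs, ?_⟩
  have h1 := hm s
  rwa [hae, smul_add, smul_smul, rMat_add_smul hF hbb (by rw [herm_smul_right, hbe, mul_zero]), hsx, sub_self,
    tMat_zero hF, mul_one] at h1

end OverGroup

end CfsgLib.SUFour96.IsoPlanes
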