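import Cfsg.Agent.SUFour96.IsoPlanesBase

/-! Roots at a mixed centre give transvections over the stabiliser of two isotropic planes. -/

set_option autoImplicit false
set_option linter.unusedSectionVars false

namespace CfsgLib.SUFour96.IsoPlanes

open CfsgLib.UnitGeo

open Cfsg Module CfsgLib.Unitary
open scoped Matrix MatrixGroups

variable {F : Type*} [Field F] {n q : ℕ} {U W : Submodule F (Fin n → F)}

/-- The centre lies in a half or has non-orthogonal parts. -/
def Good (q : ℕ) (U W : Submodule F (Fin n → F)) (v : Fin n → F) : Prop :=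
  v ∈ U ∨ v ∈ W ∨ ∃ p ∈ U, ∃ r ∈ W, p + r = v ∧ hermForm n F q p r ≠ 0

/-- A transvection at a good centre. -/
def GoodSrc (q : ℕ) (U W : Submodule F (Fin n → F)) (H : Subgroup (GL (Fin n) F)) : Prop :=
  ∃ v c, Good q U W v ∧ v ≠ 0 ∧ hermForm n F q v v = 0 ∧ c ≠ 0 ∧ c + c ^ q = 0 ∧ MIn H (tMat q v c)

variable [Fintype F] (hF : Fintype.card F = q ^ 2)
variable {H : Subgroup (GL (Fin n) F)}
variable (hH : ∀ g ∈ H, ∀ x y, hermForm n F q ((g : Matrix (Fin n) (Fin n) F) *ᵥ x)
  ((g : Matrix (Fin n) (Fin n) F) *ᵥ y) = hermForm n F q x y)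
variable (h : Halves q U W)
variable (hp : ∀ u ∈ U, ∀ w ∈ W, hermForm n F q u w = 0 → MIn H (rMat q u w))
variable (hp' : ∀ w ∈ W, ∀ u ∈ U, hermForm n F q w u = 0 → MIn H (rMat q w u))
variable (htor : ∀ g ∈ Cfsg.GU n F q ⊓ Cfsg.Geo.specialLinear (Fin n) F,
  (∀ x ∈ U, (g : Matrix (Fin n) (Fin n) F) *ᵥ x ∈ U) → (∀ x ∈ W, (g : Matrix (Fin n) (Fin n) F) *ᵥ x ∈ W) → g ∈ H)
variable (hq : 4 ≤ q)
include hF hH h hp hp' htor hq

/-- Roots at a centre with non-orthogonal parts give a good transvection. -/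
lemma root_generic {p r a : Fin n → F} (hpU : p ∈ U) (hrW : r ∈ W) (hpr : hermForm n F q p r ≠ 0)
    (hbb : hermForm n F q (p + r) (p + r) = 0) (haa : hermForm n F q a a = 0)
    (hba : hermForm n F q (p + r) a = 0) (hab : a ∉ Submodule.span F {p + r})
    (hm : ∀ s : F, MIn H (rMat q (p + r) (s • a))) : GoodSrc q U W H := by
  have hp0 : p ≠ 0 := fun e => hpr (by rw [e, herm_zero_left])
  have hr0 : r ≠ 0 := fun e => hpr (by rw [e, herm_zero_right hF])
  have hpp := h.left p hpU p hpU
  have hrr := h.right r hrW r hrW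
  obtain ⟨c, hcU, hc0, hcr⟩ := h.exists_ortho (q := q) r
  obtain ⟨d, hdW, hd0, hdp⟩ := h.symm.exists_ortho (q := q) p
  have hcp : c ∉ Submodule.span F {p} := fun hm => by
    obtain ⟨j, rfl⟩ := Submodule.mem_span_singleton.1 hm
    rw [herm_smul_left, mul_eq_zero] at hcr
    exact hcr.elim (fun e => hc0 (by rw [e, zero_smul])) hpr
  have hcc := h.left c hcU c hcU
  have hdd := h.right d hdW d hdW
  have hpd := herm_eq_zero_comm hF hdp
  have hcd : hermForm n F q c d ≠ 0 := fun e => hd0 (h.indep_zero hF hpU hcU hp0 hcp hdW hpd e)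
  have hdc : hermForm n F q d c ≠ 0 := fun e => hcd (herm_eq_zero_comm hF e)
  have hrc := herm_eq_zero_comm hF hcr
  have hcp' := h.left c hcU p hpU
  have hpc := h.left p hpU c hcU
  have hdr := h.right d hdW r hrW
  have hrd := h.right r hrW d hdW
  have hbc : hermForm n F q (p + r) c = 0 := by rw [herm_add_left, hpc, hrc, add_zero]
  have hbd : hermForm n F q (p + r) d = 0 := by rw [herm_add_left, hrd, hpd, add_zero]
  set S := hermForm n F q p r with hS
  have hrp : hermForm n F q r p = S ^ q := herm_conj hF p r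
  have hrp0 : S ^ q ≠ 0 := pow_ne_zero _ hpr
  have htr : S + S ^ q = 0 := by
    rw [herm_add_left, herm_add_right hF, herm_add_right hF, hpp, hrr, hrp, ← hS] at hbb
    linear_combination hbb
  obtain ⟨aU, haU, aW, haW, rfl⟩ := Submodule.mem_sup.1 (h.top ▸ Submodule.mem_top : a ∈ U ⊔ W)
  have hrdN : d ∉ Submodule.span F {r} := fun hm => by
    obtain ⟨j, hj⟩ := Submodule.mem_span_singleton.1 hm
    rw [← hj, herm_smul_left, hrp] at hdp
    rcases mul_eq_zero.1 hdp with h0 | h0
    · exact hd0 (by rw [← hj, h0, zero_smul])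
    · exact hrp0 h0
  have hdecU : aU = (hermForm n F q aU r / S) • p + (hermForm n F q aU d / hermForm n F q c d) • c := by
    rw [← sub_eq_zero]
    refine h.symm.indep_zero hF hrW hdW hr0 hrdN
      (U.sub_mem haU (U.add_mem (U.smul_mem _ hpU) (U.smul_mem _ hcU))) ?_ ?_
    · refine herm_eq_zero_comm hF ?_
      rw [herm_sub_left, herm_add_left, herm_smul_left, herm_smul_left, hcr, mul_zero, add_zero, ← hS,
        div_mul_cancel₀ _ hpr, sub_self]
    · refine herm_eq_zero_comm hF ?_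
      rw [herm_sub_left, herm_add_left, herm_smul_left, herm_smul_left, hpd, mul_zero, zero_add,
        div_mul_cancel₀ _ hcd, sub_self]
  have hdecW : aW = (hermForm n F q aW p / S ^ q) • r + (hermForm n F q aW c / hermForm n F q d c) • d := by
    rw [← sub_eq_zero]
    refine h.indep_zero hF hpU hcU hp0 hcp (W.sub_mem haW (W.add_mem (W.smul_mem _ hrW) (W.smul_mem _ hdW)))
      ?_ ?_
    · refine herm_eq_zero_comm hF ?_
      rw [herm_sub_left, herm_add_left, herm_smul_left, herm_smul_left, hdp, mul_zero, add_zero, hrp,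
        div_mul_cancel₀ _ hrp0, sub_self]
    · refine herm_eq_zero_comm hF ?_
      rw [herm_sub_left, herm_add_left, herm_smul_left, herm_smul_left, hrc, mul_zero, zero_add,
        div_mul_cancel₀ _ hdc, sub_self]
  set x := hermForm n F q aU r / S
  set y := hermForm n F q aW p / S ^ q
  set γ := hermForm n F q aU d / hermForm n F q c d
  set δ := hermForm n F q aW c / hermForm n F q d c
  have hxy : x = y := by
    have h1 := herm_eq_zero_comm hF hba
    rw [hdecU, hdecW] at h1
    simp only [herm_add_left, herm_add_right hF, herm_smul_left, hpp, hrr, hcr, hrc, hdp, hpd, hcp', hdr, hrp,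
      ← hS] at h1
    exact sub_eq_zero.1 ((mul_eq_zero.1 (show S * (x - y) = 0 by linear_combination h1 - y * htr)).resolve_left hpr)
  have hae : aU + aW = (γ • c + δ • d) + x • (p + r) := by rw [hdecU, hdecW, ← hxy]; module
  by_cases hγ : γ = 0
  · have hδ : δ ≠ 0 := fun h0 => hab (by
      rw [hae, hγ, h0, zero_smul, zero_smul, add_zero, zero_add]
      exact Submodule.smul_mem _ _ (Submodule.mem_span_singleton_self _))
    rw [hγ, zero_smul, zero_add] at hae
    obtain ⟨s, hs, hsm⟩ := root_drop hF hH hbb (e := δ • d) (by rw [herm_smul_right, hbd, mul_zero]) hm hae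
    rw [smul_smul] at hsm
    have hb0 : (s * δ) • d ≠ 0 := smul_ne_zero (mul_ne_zero hs hδ) hd0
    have hrb : r ∉ Submodule.span F {(s * δ) • d} := fun hmm => by
      obtain ⟨j, hj⟩ := Submodule.mem_span_singleton.1 hmm
      exact hpr (by rw [hS, ← hj, herm_smul_right, herm_smul_right, hpd, mul_zero, mul_zero])
    have hdz : hermForm n F q ((s * δ) • d) ((s * δ) • d) = 0 := by rw [herm_self_smul, hdd, mul_zero]
    have hbz : hermForm n F q (p + r) ((s * δ) • d) = 0 := by rw [herm_smul_right, hbd, mul_zero]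
    have hsm' := hsm.of_mul_eq_one (rMat_neg_mul hF hbb hdz hbz)
    rw [add_comm p r] at hsm' hbb hbz
    obtain ⟨e, he, het, hem⟩ := transv_of_pure_root hF hH hp' h.symm (W.smul_mem _ hdW) hb0 hrW hpU hbb
      (herm_eq_zero_comm hF hbz) hsm' hrb
    exact ⟨_, e, Or.inr (Or.inl (W.smul_mem _ hdW)), hb0, hdz, he, het, hem⟩
  by_cases hδ : δ = 0
  · rw [hδ, zero_smul, add_zero] at hae
    obtain ⟨s, hs, hsm⟩ := root_drop hF hH hbb (e := γ • c) (by rw [herm_smul_right, hbc, mul_zero]) hm hae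
    rw [smul_smul] at hsm
    have hb0 : (s * γ) • c ≠ 0 := smul_ne_zero (mul_ne_zero hs hγ) hc0
    have hpb : p ∉ Submodule.span F {(s * γ) • c} := fun hmm => by
      obtain ⟨j, hj⟩ := Submodule.mem_span_singleton.1 hmm
      exact hpr (by rw [hS, ← hj, herm_smul_left, herm_smul_left, hcr, mul_zero, mul_zero])
    have hcz : hermForm n F q ((s * γ) • c) ((s * γ) • c) = 0 := by rw [herm_self_smul, hcc, mul_zero]
    have hbz : hermForm n F q (p + r) ((s * γ) • c) = 0 := by rw [herm_smul_right, hbc, mul_zero]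
    have hsm' := hsm.of_mul_eq_one (rMat_neg_mul hF hbb hcz hbz)
    obtain ⟨e, he, het, hem⟩ := transv_of_pure_root hF hH hp h (U.smul_mem _ hcU) hb0 hpU hrW hbb
      (herm_eq_zero_comm hF hbz) hsm' hpb
    exact ⟨_, e, Or.inl (U.smul_mem _ hcU), hb0, hcz, he, het, hem⟩
  -- the torus moves the root vector
  obtain ⟨α, hα, hα0, hα1⟩ := exists_real hF hq
  have hα1' : α⁻¹ - α ≠ 0 := fun e0 => hα1 (by
    nth_rw 1 [← sub_eq_zero.1 e0]
    exact inv_mul_cancel₀ hα0)
  obtain ⟨g, hg, hge⟩ := exists_torus hF hcc hdd hcd hα hα0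
  have hgH : g ∈ H := by
    refine htor g hg (fun z hz => ?_) fun z hz => ?_
    · rw [hge, h.left z hz c hcU, mul_zero, zero_smul, add_zero]
      exact U.add_mem hz (U.smul_mem _ hcU)
    · rw [hge, h.right z hz d hdW, mul_zero, zero_smul, add_zero]
      exact W.add_mem hz (W.smul_mem _ hdW)
  have hgb : (g : Matrix (Fin n) (Fin n) F) *ᵥ (p + r) = p + r := by
    rw [hge, hbc, hbd, mul_zero, mul_zero, zero_smul, zero_smul, add_zero, add_zero]
  have hgI := hH g hgH
  have hga : (g : Matrix (Fin n) (Fin n) F) *ᵥ (aU + aW) = (γ * α) • c + (δ * α⁻¹) • d + x • (p + r) := by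
    rw [hae, Matrix.mulVec_add, Matrix.mulVec_smul, hgb, hge]
    simp only [herm_add_left, herm_smul_left, hcc, hdd, mul_zero, zero_add, add_zero]
    match_scalars <;> field_simp <;> ring
  have hroot' : ∀ s : F, MIn H (rMat q (p + r) (s • ((g : Matrix (Fin n) (Fin n) F) *ᵥ (aU + aW)))) := by
    intro s
    obtain ⟨k, hk, e⟩ := hm s
    refine ⟨g * k * g⁻¹, H.mul_mem (H.mul_mem hgH hk) (H.inv_mem hgH), ?_⟩
    rw [Units.val_mul, Units.val_mul, e, conj_rMat hF hgI _ hbb, hgb, Matrix.mulVec_smul]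
  have hne : hermForm n F q (aU + aW) ((g : Matrix (Fin n) (Fin n) F) *ᵥ (aU + aW)) ≠ 0 := by
    have hX : γ * δ ^ q * hermForm n F q c d + δ * γ ^ q * hermForm n F q d c = 0 := by
      rw [hae] at haa
      simp only [herm_add_left, herm_add_right hF, herm_smul_left, herm_smul_right, hcc, hdd, hpp, hrr, hcr,
        hrc, hdp, hpd, hpc, hcp', hdr, hrd, hrp, ← hS] at haa
      linear_combination haa - x * x ^ q * htr
    have e : hermForm n F q (aU + aW) ((g : Matrix (Fin n) (Fin n) F) *ᵥ (aU + aW)) =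
        (α⁻¹ - α) * (γ * δ ^ q * hermForm n F q c d) := by
      rw [hga, hae]
      simp only [herm_add_left, herm_add_right hF, herm_smul_left, herm_smul_right, hcc, hdd, hpp, hrr, hcr,
        hrc, hdp, hpd, hpc, hcp', hdr, hrd, hrp, ← hS, mul_pow, inv_pow, hα]
      linear_combination α * hX + x * x ^ q * htr
    rw [e]
    exact mul_ne_zero hα1' (mul_ne_zero (mul_ne_zero hγ (pow_ne_zero _ hδ)) hcd)
  obtain ⟨e, he, het, hem⟩ := transv_of_pair hF hH hbb haa (by rw [hgI, haa]) hba
    (by rw [← hgb, hgI, hba]) hm hroot' hne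
  exact ⟨_, e, Or.inr (Or.inr ⟨p, hpU, r, hrW, rfl, hpr⟩),
    fun h0 => hp0 (h.inf p hpU (by rw [eq_neg_of_add_eq_zero_left h0]; exact W.neg_mem hrW)), hbb, he, het, hem⟩

/-- A transvection with orthogonal parts gives a good one. -/
lemma split_good {p r : Fin n → F} (hpU : p ∈ U) (hrW : r ∈ W) (hr0 : r ≠ 0)
    (hpr : hermForm n F q p r = 0) {e : F} (he : e ≠ 0)
    (hem : MIn H (tMat q (p + r) e)) : GoodSrc q U W H := by
  obtain ⟨x, hxU, -, -, hrx⟩ := h.symm.exists_dual hF (v := r) (p := 0) (r := 0) hrW W.zero_mem W.zero_mem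
    (by simpa using hr0)
  have hxr : hermForm n F q x r = 1 := by rw [herm_conj hF r x, hrx, one_pow]
  obtain ⟨y, hyW, hy0, hyx⟩ := h.symm.exists_ortho (q := q) x
  obtain ⟨t, ht, hte⟩ := hem
  have htI := hH t ht
  have hgx : (t : Matrix (Fin n) (Fin n) F) *ᵥ x = (x + e • p) + e • r := by
    rw [hte, tMat_mulVec, herm_add_right hF, h.left x hxU p hpU, hxr, zero_add, mul_one, smul_add, add_assoc]
  have hne : hermForm n F q (x + e • p) (e • r) ≠ 0 := by
    rw [herm_add_left, herm_smul_left, herm_smul_right, herm_smul_right, hxr, hpr, mul_zero, mul_zero,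
      add_zero, mul_one]
    exact pow_ne_zero _ he
  have hxx := h.left x hxU x hxU
  have hxy := herm_eq_zero_comm hF hyx
  refine root_generic hF hH h hp hp' htor hq (U.add_mem hxU (U.smul_mem _ hpU)) (W.smul_mem _ hrW) hne
    (a := (t : Matrix (Fin n) (Fin n) F) *ᵥ y) (by rw [← hgx, htI, hxx]) (by rw [htI, h.right y hyW y hyW])
    (by rw [← hgx, htI, hxy]) (fun hm => ?_) fun s => ?_
  · obtain ⟨j, hj⟩ := Submodule.mem_span_singleton.1 hm
    rw [← hgx, ← Matrix.mulVec_smul] at hj
    have := congrArg (((t⁻¹ : GL (Fin n) F) : Matrix (Fin n) (Fin n) F) *ᵥ ·) hj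
    simp only [Matrix.mulVec_mulVec, Units.inv_mul, Matrix.one_mulVec] at this
    exact hy0 (h.inf y (this ▸ U.smul_mem j hxU) hyW)
  · obtain ⟨k, hk, hke⟩ := hp x hxU (s • y) (W.smul_mem _ hyW) (by rw [herm_smul_right, hxy, mul_zero])
    refine ⟨t * k * t⁻¹, H.mul_mem (H.mul_mem ht hk) (H.inv_mem ht), ?_⟩
    rw [Units.val_mul, Units.val_mul, hke, conj_rMat hF htI _ hxx, hgx, Matrix.mulVec_smul]

/-- Roots at a centre with orthogonal parts give a good transvection. -/
lemma root_split {p r a : Fin n → F} (hpU : p ∈ U) (hrW : r ∈ W) (hp0 : p ≠ 0) (hr0 : r ≠ 0)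
    (hpr : hermForm n F q p r = 0) (haa : hermForm n F q a a = 0)
    (hba : hermForm n F q (p + r) a = 0) (hab : a ∉ Submodule.span F {p + r})
    (hm : ∀ s : F, MIn H (rMat q (p + r) (s • a))) : GoodSrc q U W H := by
  have hpp := h.left p hpU p hpU
  have hrr := h.right r hrW r hrW
  have hrp := herm_eq_zero_comm hF hpr
  have hbb : hermForm n F q (p + r) (p + r) = 0 := by
    rw [herm_add_left, herm_add_right hF, herm_add_right hF, hpp, hrr, hpr, hrp]; ring
  have hAB : hermForm n F q a r = -hermForm n F q a p := by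
    have := herm_eq_zero_comm hF hba
    rw [herm_add_right hF] at this
    linear_combination this
  by_cases hA : hermForm n F q a p = 0
  · -- the root vector lies in the plane of the centre
    obtain ⟨aU, haU, aW, haW, rfl⟩ := Submodule.mem_sup.1 (h.top ▸ Submodule.mem_top : a ∈ U ⊔ W)
    have hWp : hermForm n F q aW p = 0 := by rwa [herm_add_left, h.left aU haU p hpU, zero_add] at hA
    have hUr : hermForm n F q aU r = 0 := by
      rw [hA, neg_zero, herm_add_left, h.right aW haW r hrW, add_zero] at hAB; exact hAB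
    obtain ⟨k, rfl⟩ : ∃ k : F, k • r = aW := by
      by_contra hc
      exact hp0 (h.symm.indep_zero hF hrW haW hr0 (fun hm => hc (Submodule.mem_span_singleton.1 hm)) hpU hrp hWp)
    obtain ⟨j, rfl⟩ : ∃ j : F, j • p = aU := by
      by_contra hc
      exact hr0 (h.indep_zero hF hpU haU hp0 (fun hm => hc (Submodule.mem_span_singleton.1 hm)) hrW hpr hUr)
    obtain ⟨l, hl⟩ := exists_ne_pow_q hF
    have hX : ∀ s : F, MIn H (tMat q p (s * j - (s * j) ^ q) * tMat q r (s * k - (s * k) ^ q)) := fun s => by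
      have h1 := hm s
      rw [smul_add, smul_smul, smul_smul, rMat_plane hF hpp hrr hpr] at h1
      obtain h2 := hp p hpU ((s * k - (s * j) ^ q) • r) (W.smul_mem _ hrW)
        (by rw [herm_smul_right, hpr, mul_zero])
      obtain ⟨g, hg, e⟩ := h1
      obtain ⟨g', hg', e'⟩ := h2
      refine ⟨g * g'⁻¹, H.mul_mem hg (H.inv_mem hg'), ?_⟩
      rw [Units.val_mul, e, ← e', mul_assoc _ (g' : Matrix (Fin n) (Fin n) F), Units.mul_inv, mul_one]
    by_cases hj : j = 0
    · have hk : k ≠ 0 := fun h0 => hab (by rw [hj, h0, zero_smul, zero_smul, add_zero]; exact zero_mem _)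
      have h1 := hX (l / k)
      rw [hj, mul_zero, zero_pow_q hF, sub_zero, tMat_zero hF, one_mul, div_mul_cancel₀ _ hk] at h1
      exact ⟨r, _, Or.inr (Or.inl hrW), hr0, hrr, sub_ne_zero.2 (Ne.symm hl),
        by rw [sub_pow_q hF, pow_q_q hF]; ring, h1⟩
    -- conjugate by a torus element scaling `p` and fixing `r`
    obtain ⟨α, hα, hα0, hα1⟩ := exists_real hF hq
    obtain ⟨d, hdW, -, -, hpd⟩ := h.exists_dual hF (v := p) (p := 0) (r := 0) hpU U.zero_mem U.zero_mem
      (by simpa using hp0)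
    have hdd := h.right d hdW d hdW
    have hpd0 : hermForm n F q p d ≠ 0 := by rw [hpd]; exact one_ne_zero
    obtain ⟨g, hg, hge⟩ := exists_torus hF hpp hdd hpd0 hα hα0
    have hgH : g ∈ H := by
      refine htor g hg (fun z hz => ?_) fun z hz => ?_
      · rw [hge, h.left z hz p hpU, mul_zero, zero_smul, add_zero]
        exact U.add_mem hz (U.smul_mem _ hpU)
      · rw [hge, h.right z hz d hdW, mul_zero, zero_smul, add_zero]
        exact W.add_mem hz (W.smul_mem _ hdW)
    have hgI := hH g hgH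
    have hgp : (g : Matrix (Fin n) (Fin n) F) *ᵥ p = α • p := by
      rw [hge, hpp, hpd, mul_zero, zero_smul, add_zero, mul_one, div_one]
      module
    have hgr : (g : Matrix (Fin n) (Fin n) F) *ᵥ r = r := by
      rw [hge, h.right r hrW d hdW, hrp, mul_zero, mul_zero, zero_smul, zero_smul, add_zero, add_zero]
    set s := l / j
    set D := s * j - (s * j) ^ q with hD
    set E := s * k - (s * k) ^ q with hE
    obtain ⟨k1, hk1, e1⟩ := hX s
    rw [← hD, ← hE] at e1
    have hsplit : (g : Matrix (Fin n) (Fin n) F) * (k1 : Matrix (Fin n) (Fin n) F) *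
        ((g⁻¹ : GL (Fin n) F) : Matrix (Fin n) (Fin n) F) = tMat q p (D * α ^ (q + 1)) * tMat q r E := by
      have h4 : tMat q r E = (g : Matrix (Fin n) (Fin n) F) * tMat q r E *
          ((g⁻¹ : GL (Fin n) F) : Matrix (Fin n) (Fin n) F) := by rw [conj_tMat hF hgI, hgr]
      rw [← tMat_smul hF, ← hgp, ← conj_tMat hF hgI, h4, e1]
      simp only [mul_assoc]
      rw [← mul_assoc ((g⁻¹ : GL (Fin n) F) : Matrix (Fin n) (Fin n) F), Units.inv_mul, one_mul]
    refine ⟨p, D * α ^ (q + 1) - D, Or.inl hpU, hp0, hpp, ?_, ?_,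
      g * k1 * g⁻¹ * k1⁻¹, H.mul_mem (H.mul_mem (H.mul_mem hgH hk1) (H.inv_mem hgH)) (H.inv_mem hk1), ?_⟩
    · rw [← mul_sub_one]
      refine mul_ne_zero ?_ (sub_ne_zero.2 ?_)
      · rw [hD, div_mul_cancel₀ _ hj]; exact sub_ne_zero.2 (Ne.symm hl)
      · rw [pow_succ, hα]; exact hα1
    · rw [sub_pow_q hF, mul_pow, hD, sub_pow_q hF, pow_q_q hF, ← pow_mul α, mul_comm (q + 1) q, pow_mul α, hα]
      ring
    · rw [Units.val_mul, Units.val_mul, Units.val_mul, hsplit]
      have h3 : tMat q p (D * α ^ (q + 1)) * tMat q r E =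
          tMat q p (D * α ^ (q + 1) - D) * (k1 : Matrix (Fin n) (Fin n) F) := by
        rw [e1, ← mul_assoc, tMat_mul hF hpp, sub_add_cancel]
      rw [h3, mul_assoc, Units.mul_inv, mul_one]
  · -- move the root vector by a root of the stabiliser
    obtain ⟨l, hl⟩ := exists_ne_pow_q hF
    obtain ⟨k, hk, hke⟩ := hp p hpU (l • r) (W.smul_mem _ hrW) (by rw [herm_smul_right, hpr, mul_zero])
    have hkI := hH k hk
    have hkb : (k : Matrix (Fin n) (Fin n) F) *ᵥ (p + r) = p + r := by
      rw [hke, rMat_mulVec hpp, herm_add_left, herm_add_left, hpp, hrp, herm_smul_right, herm_smul_right, hpr, hrr]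
      simp
    have hka : (k : Matrix (Fin n) (Fin n) F) *ᵥ a =
        a + hermForm n F q a p • (l • r) - (l ^ q * hermForm n F q a r) • p := by
      rw [hke, rMat_mulVec hpp, herm_smul_right]
    have hroot' : ∀ s : F, MIn H (rMat q (p + r) (s • ((k : Matrix (Fin n) (Fin n) F) *ᵥ a))) := by
      intro s
      obtain ⟨k', hk', e⟩ := hm s
      refine ⟨k * k' * k⁻¹, H.mul_mem (H.mul_mem hk hk') (H.inv_mem hk), ?_⟩
      rw [Units.val_mul, Units.val_mul, e, conj_rMat hF hkI _ hbb, hkb, Matrix.mulVec_smul]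
    have hne : hermForm n F q a ((k : Matrix (Fin n) (Fin n) F) *ᵥ a) ≠ 0 := by
      set A := hermForm n F q a p with hA'
      have e : hermForm n F q a ((k : Matrix (Fin n) (Fin n) F) *ᵥ a) = A * A ^ q * (l - l ^ q) := by
        rw [hka, herm_sub_right hF, herm_add_right hF, haa, hAB]
        simp only [herm_smul_right, hAB, ← hA', mul_pow, pow_q_q hF, neg_pow_q hF]
        ring
      rw [e]
      exact mul_ne_zero (mul_ne_zero hA (pow_ne_zero _ hA)) (sub_ne_zero.2 (Ne.symm hl))
    obtain ⟨e, he, -, hem⟩ := transv_of_pair hF hH hbb haa (by rw [hkI, haa]) hba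
      (by rw [← hkb, hkI, hba]) hm hroot' hne
    exact split_good hF hH h hp hp' htor hq hpU hrW hr0 hpr he hem

end CfsgLib.SUFour96.IsoPlanes
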