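import Cfsg.Agent.UnitGeo.OrthSubfieldForm
import Cfsg.Agent.UnitGeo.SympSubfield

/-!
Rational vectors, Siegel elements and rotations of an orthogonal subfield structure of a four-dimensional
Hermitian space.
-/

set_option autoImplicit false
set_option linter.unusedSectionVars false

namespace CfsgLib.SUFour96.OrthSub

open Cfsg Module CfsgLib.Unitary CfsgLib.Subfield54 CfsgLib.UnitGeo
open scoped Matrix MatrixGroups

variable {F : Type*} [Field F] {q : ℕ} {F₀ : Subfield F} {P : GL (Fin 4) F}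

local notation "hf" => hermForm 4 F q

variable [Fintype F] (hF : Fintype.card F = q ^ 2)

/-- Four vectors with a dual family span the space. -/
lemma expand_dual (a d : Fin 4 → Fin 4 → F) (h : ∀ i j, hf (a i) (d j) = if i = j then 1 else 0)
    (x : Fin 4 → F) : x = ∑ i, hf x (d i) • a i := by
  let L : (Fin 4 → F) →ₗ[F] (Fin 4 → F) :=
    { toFun := fun c => ∑ i, c i • a i
      map_add' := fun c c' => by simp [add_smul, Finset.sum_add_distrib]
      map_smul' := fun s c => by simp [Finset.smul_sum, smul_smul] }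
  have hco : ∀ c j, hf (L c) (d j) = c j := fun c j => by
    show hf (∑ i, c i • a i) (d j) = c j
    rw [herm_sum_left]
    simp [herm_smul_left, h]
  have hinj : Function.Injective L := fun c c' e => funext fun j => by rw [← hco c j, e, hco]
  obtain ⟨c, rfl⟩ := LinearMap.injective_iff_surjective.mp hinj x
  show ∑ i, c i • a i = ∑ i, hf (L c) (d i) • a i
  simp only [hco]

include hF

lemma pow_q_two : (2 : F) ^ q = 2 := by
  rw [← one_add_one_eq_two, add_pow_q hF, one_pow]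

variable (hS : RStr q F₀ 1 P)
include hS

lemma sigma_sigma (v : Fin 4 → F) : sigma q P (sigma q P v) = v := by
  obtain ⟨δ, hδ⟩ := exists_delta hF hS
  obtain ⟨a, b, ha, hb, rfl, hs⟩ := exists_decomp hF hS hδ v
  rw [hs, sigma_add hF, sigma_smul hF, ha.sigma_eq hF hS, hb.sigma_eq hF hS, pow_q_q hF]

lemma herm_sigma_swap (x y : Fin 4 → F) : hf (sigma q P x) (sigma q P y) = hf y x := by
  have h := herm_sigma hF hS x y
  rw [one_mul, one_mul] at h
  rw [← h, herm_conj hF x y]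

lemma herm_sigma_left (x y : Fin 4 → F) : hf (sigma q P x) y = hf (sigma q P y) x := by
  conv_lhs => rw [← sigma_sigma hF hS y, herm_sigma_swap hF hS]

lemma herm_self_mem {x : Fin 4 → F} : hf x x ∈ F₀ := (hS.fix _).2 (herm_self_fixed hF x)

/-- A non-zero element killed by the trace. -/
lemma exists_skew_unit (h2 : (2 : F) ≠ 0) : ∃ δ : F, δ ≠ 0 ∧ δ ^ q = -δ ∧ δ ∉ F₀ := by
  obtain ⟨l, hl⟩ := exists_ne_pow_q hF
  refine ⟨l - l ^ q, sub_ne_zero.2 (Ne.symm hl), by rw [sub_pow_q hF, pow_q_q hF, neg_sub], fun h => ?_⟩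
  have h1 := pow_q_of_mem hF hS h
  rw [sub_pow_q hF, pow_q_q hF] at h1
  exact sub_ne_zero.2 (Ne.symm hl) ((mul_eq_zero.1
    (show (2 : F) * (l - l ^ q) = 0 by linear_combination -h1)).resolve_left h2)

/-- A non-zero rational combination of a vector and its conjugate. -/
lemma exists_rat_ne_zero (h2 : (2 : F) ≠ 0) {x : Fin 4 → F} (hx : x ≠ 0) :
    ∃ a b : F, InW F₀ P (a • x + b • sigma q P x) ∧ a • x + b • sigma q P x ≠ 0 := by
  obtain ⟨δ, hδ0, hδq, -⟩ := exists_skew_unit hF hS h2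
  by_cases h : x + sigma q P x = 0
  · refine ⟨δ, -δ, (inW_iff_sigma hF hS).2 ?_, fun h0 => hx ?_⟩
    · rw [sigma_add hF, sigma_smul hF, sigma_smul hF, sigma_sigma hF hS, neg_pow_q hF, hδq]; module
    · have h3 : (δ * 2) • x = 0 := by linear_combination (norm := module) h0 + δ • h
      exact (smul_eq_zero.1 h3).resolve_left (mul_ne_zero hδ0 h2)
  · refine ⟨1, 1, (inW_iff_sigma hF hS).2 ?_, by simpa using h⟩
    rw [sigma_add hF, sigma_smul hF, sigma_smul hF, sigma_sigma hF hS, one_pow]; module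

variable (h2 : (2 : F) ≠ 0)
include h2

/-- A rational partner for a rational vector, perpendicular to another one outside its line. -/
lemma exists_pair_rat {c d : Fin 4 → F} (hc : InW F₀ P c) (hd : InW F₀ P d) (hind : ∀ k : F, c ≠ k • d) :
    ∃ y, InW F₀ P y ∧ hf c y = 1 ∧ hf d y = 0 := by
  obtain ⟨e, he, hed, hec⟩ : ∃ e, InW F₀ P e ∧ hf e d = 0 ∧ hf e c ≠ 0 := by
    by_contra hno
    push Not at hno
    by_cases hd0 : d = 0
    · refine hind 1 ?_
      rw [eq_zero_of_W hF hS (x := c) fun w hw => herm_eq_zero_comm hF (hno w hw (by rw [hd0, herm_zero_right hF])),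
        hd0, smul_zero]
    · obtain ⟨k, hk⟩ := mem_line_of_perp hF hS hd hd0 hno
      exact hind k hk
  have hce : hf c e = hf e c := herm_symm_one hF hS he hc
  refine ⟨(hf c e)⁻¹ • e, he.smul (F₀.inv_mem (rat_one hF hS hc he)), ?_, ?_⟩
  · rw [herm_smul_right, inv_pow, pow_q_of_mem hF hS (rat_one hF hS hc he), inv_mul_cancel₀ (by rwa [hce])]
  · rw [herm_smul_right, herm_eq_zero_comm hF hed, mul_zero]

/-- An isotropic rational partner. -/
lemma exists_iso_pair {c : Fin 4 → F} (hc : InW F₀ P c) (hc0 : c ≠ 0) (hcc : hf c c = 0) :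
    ∃ e, InW F₀ P e ∧ hf e e = 0 ∧ hf c e = 1 := by
  obtain ⟨y, hy, hcy, -⟩ := exists_pair_rat hF hS h2 hc inW_zero (fun k => by rwa [smul_zero])
  have hyc : hf y c = 1 := (herm_symm_one hF hS hc hy).trans hcy
  have hm : hf y y / 2 ∈ F₀ := F₀.div_mem (rat_one hF hS hy hy) two_mem
  refine ⟨y - (hf y y / 2) • c, hy.sub (hc.smul hm), ?_, ?_⟩
  · simp only [herm_sub_left, herm_sub_right hF, herm_smul_left, herm_smul_right, hcc, hcy, hyc,
      pow_q_of_mem hF hS hm]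
    field_simp
    ring
  · rw [herm_sub_right hF, herm_smul_right, hcc, hcy, mul_zero, sub_zero]

/-- Some rational isotropic vector. -/
lemma exists_iso : ∃ c, InW F₀ P c ∧ c ≠ 0 ∧ hf c c = 0 := by
  obtain ⟨u, -, hu0, hu⟩ := OrthGeo.exists_singular (q0_nondeg hF hS h2) (S := ⊤)
    (by rw [finrank_top, finrank_fintype_fun_eq_card, Fintype.card_fin]; omega)
  exact ⟨_, inW_emb u, emb_ne_zero hu0, (q0_eq_zero hF hS h2).1 hu⟩

/-- A non-zero rational vector perpendicular to three rational vectors. -/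
lemma exists_perp_three {a b c : Fin 4 → F} (ha : InW F₀ P a) (hb : InW F₀ P b) (hc : InW F₀ P c) :
    ∃ r, InW F₀ P r ∧ r ≠ 0 ∧ hf r a = 0 ∧ hf r b = 0 ∧ hf r c = 0 := by
  obtain ⟨a, rfl⟩ := exists_emb ha
  obtain ⟨b, rfl⟩ := exists_emb hb
  obtain ⟨c, rfl⟩ := exists_emb hc
  set hQ := q0_nondeg hF hS h2
  set S := (Submodule.span F₀ {a} ⊔ Submodule.span F₀ {b}) ⊔ Submodule.span F₀ {c} with hSdef
  have h1 := OrthGeo.finrank_perp_add hQ S
  have h3 := finrank_sup_singleton_le (Submodule.span F₀ {a} ⊔ Submodule.span F₀ {b}) c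
  have h4 := finrank_sup_singleton_le (Submodule.span F₀ {a}) b
  have h5 := finrank_span_singleton_le_one a
  rw [← hSdef] at h3
  rw [Fintype.card_fin] at h1
  obtain ⟨r, hr, hr0⟩ := (Submodule.ne_bot_iff _).1 (show OrthGeo.perp hQ S ≠ ⊥ from fun h => by
    rw [h, finrank_bot] at h1
    omega)
  rw [hSdef, OrthGeo.perp_sup hQ, Submodule.mem_inf, OrthGeo.mem_perp_pair hQ,
    OrthGeo.mem_perp_span_singleton hQ] at hr
  have hz : ∀ x, OrthGeo.bform hQ x r = 0 → hf (emb P r) (emb P x) = 0 := fun x hx =>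
    herm_eq_zero_comm hF (herm_eq_zero_of_bform hF hS h2 hx)
  exact ⟨_, inW_emb r, emb_ne_zero hr0, hz a hr.1.1, hz b hr.1.2, hz c hr.2⟩

/-- A perpendicular with a projection contains an anisotropic vector when it is non-zero. -/
lemma exists_aniso_of_proj (S : (Fin 4 → F) → Prop) (hadd : ∀ x y, S x → S y → S (x + y))
    (hneg : ∀ x, S x → S (-x))
    (hproj : ∀ y, InW F₀ P y → ∃ y', InW F₀ P y' ∧ S y' ∧ ∀ v, InW F₀ P v → S v → hf v y' = hf v y)
    {r : Fin 4 → F} (hr : InW F₀ P r) (hr0 : r ≠ 0) (hrS : S r) :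
    ∃ p, InW F₀ P p ∧ S p ∧ hf p p ≠ 0 := by
  by_cases hrr : hf r r = 0
  swap
  · exact ⟨r, hr, hrS, hrr⟩
  obtain ⟨y, hy, hry, -⟩ := exists_pair_rat hF hS h2 hr inW_zero (fun k => by rwa [smul_zero])
  obtain ⟨y', hy', hyS, he⟩ := hproj y hy
  have hry' : hf r y' = 1 := (he r hr hrS).trans hry
  have hy'r : hf y' r = 1 := (herm_symm_one hF hS hr hy').trans hry'
  by_cases h : hf (r + y') (r + y') = 0
  · refine ⟨r - y', hr.sub hy', by rw [sub_eq_add_neg]; exact hadd _ _ hrS (hneg _ hyS), fun h' => h2 ?_⟩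
    simp only [herm_add_left, herm_add_right hF, hrr, hry', hy'r] at h
    simp only [herm_sub_left, herm_sub_right hF, hrr, hry', hy'r] at h'
    exact (mul_eq_zero.1 (show (2 : F) * 2 = 0 by linear_combination h - h')).elim id id
  · exact ⟨r + y', hr.add hy', hadd _ _ hrS hyS, h⟩

/-- Two orthogonal anisotropic rational vectors perpendicular to a non-degenerate rational pair. -/
lemma exists_orth_perp {a b : Fin 4 → F} (ha : InW F₀ P a) (hb : InW F₀ P b)
    (hD : hf a a * hf b b - hf a b ^ 2 ≠ 0) :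
    ∃ p p', InW F₀ P p ∧ InW F₀ P p' ∧ hf p p ≠ 0 ∧ hf p' p' ≠ 0 ∧ hf p p' = 0 ∧
      hf p a = 0 ∧ hf p b = 0 ∧ hf p' a = 0 ∧ hf p' b = 0 := by
  set D := hf a a * hf b b - hf a b ^ 2 with hDdef
  have hba : hf b a = hf a b := herm_symm_one hF hS ha hb
  have hr := @rat_one F _ 4 q F₀ P _ hF hS
  have hDm : D ∈ F₀ := F₀.sub_mem (F₀.mul_mem (hr ha ha) (hr hb hb)) (pow_mem (hr ha hb) 2)
  let S : (Fin 4 → F) → Prop := fun v => hf v a = 0 ∧ hf v b = 0
  have hSa : ∀ x y, S x → S y → S (x + y) := fun x y hx hy =>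
    ⟨by rw [herm_add_left, hx.1, hy.1, add_zero], by rw [herm_add_left, hx.2, hy.2, add_zero]⟩
  have hSn : ∀ x, S x → S (-x) := fun x hx =>
    ⟨by rw [herm_neg_left, hx.1, neg_zero], by rw [herm_neg_left, hx.2, neg_zero]⟩
  have hproj : ∀ y, InW F₀ P y → ∃ y', InW F₀ P y' ∧ S y' ∧ ∀ v, InW F₀ P v → S v → hf v y' = hf v y := by
    intro y hy
    refine ⟨y - ((hf y a * hf b b - hf y b * hf a b) / D) • a - ((hf y b * hf a a - hf y a * hf a b) / D) • b,
      (hy.sub (ha.smul ?_)).sub (hb.smul ?_), ⟨?_, ?_⟩, fun v _ hv => ?_⟩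
    · exact F₀.div_mem (F₀.sub_mem (F₀.mul_mem (hr hy ha) (hr hb hb)) (F₀.mul_mem (hr hy hb) (hr ha hb))) hDm
    · exact F₀.div_mem (F₀.sub_mem (F₀.mul_mem (hr hy hb) (hr ha ha)) (F₀.mul_mem (hr hy ha) (hr ha hb))) hDm
    · rw [herm_sub_left, herm_sub_left, herm_smul_left, herm_smul_left, hba]
      field_simp
      rw [hDdef]; ring
    · rw [herm_sub_left, herm_sub_left, herm_smul_left, herm_smul_left]
      field_simp
      rw [hDdef]; ring
    · rw [herm_sub_right hF, herm_sub_right hF, herm_smul_right, herm_smul_right, hv.1, hv.2, mul_zero, mul_zero,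
        sub_zero, sub_zero]
  obtain ⟨r, hr₀, hr0, hra, hrb, -⟩ := exists_perp_three hF hS h2 ha hb hb
  obtain ⟨p, hp, hpS, hpp⟩ := exists_aniso_of_proj hF hS h2 S hSa hSn hproj hr₀ hr0 ⟨hra, hrb⟩
  let S' : (Fin 4 → F) → Prop := fun v => S v ∧ hf v p = 0
  have hproj' : ∀ y, InW F₀ P y → ∃ y', InW F₀ P y' ∧ S' y' ∧ ∀ v, InW F₀ P v → S' v → hf v y' = hf v y := by
    intro y hy
    obtain ⟨y₁, hy₁, hy₁S, he⟩ := hproj y hy
    refine ⟨y₁ - (hf y₁ p / hf p p) • p, hy₁.sub (hp.smul (F₀.div_mem (hr hy₁ hp) (hr hp hp))),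
      ⟨⟨?_, ?_⟩, ?_⟩, fun v hv hvS => ?_⟩
    · rw [herm_sub_left, herm_smul_left, hy₁S.1, hpS.1, mul_zero, sub_zero]
    · rw [herm_sub_left, herm_smul_left, hy₁S.2, hpS.2, mul_zero, sub_zero]
    · rw [herm_sub_left, herm_smul_left, div_mul_cancel₀ _ hpp, sub_self]
    · rw [herm_sub_right hF, herm_smul_right, hvS.2, mul_zero, sub_zero, he v hv hvS.1]
  obtain ⟨r', hr', hr'0, hr'a, hr'b, hr'p⟩ := exists_perp_three hF hS h2 ha hb hp
  obtain ⟨p', hp', hp'S, hp'p'⟩ := exists_aniso_of_proj hF hS h2 S'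
    (fun x y hx hy => ⟨hSa _ _ hx.1 hy.1, by rw [herm_add_left, hx.2, hy.2, add_zero]⟩)
    (fun x hx => ⟨hSn _ hx.1, by rw [herm_neg_left, hx.2, neg_zero]⟩) hproj' hr' hr'0 ⟨⟨hr'a, hr'b⟩, hr'p⟩
  exact ⟨p, p', hp, hp', hpp, hp'p', herm_eq_zero_comm hF hp'S.2, hpS.1, hpS.2, hp'S.1.1, hp'S.1.2⟩

/-- A binary diagonal form over the subfield takes every value. -/
lemma exists_binary {α β m : F} (hα : α ∈ F₀) (hβ : β ∈ F₀) (hα0 : α ≠ 0) (hβ0 : β ≠ 0) (hm : m ∈ F₀) :
    ∃ x ∈ F₀, ∃ y ∈ F₀, α * (x * x) + β * (y * y) = m := by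
  classical
  open Polynomial in
  have hpoly : ∀ (K : Type _) [Field K] [Fintype K], Fintype.card K % 2 = 1 → ∀ a b c : K, a ≠ 0 → b ≠ 0 →
      ∃ x y : K, a * (x * x) + b * (y * y) = c := by
    intro K _ _ hodd a b c ha hb
    obtain ⟨x, y, h⟩ := FiniteField.exists_root_sum_quadratic (f := C a * X ^ 2) (g := C b * X ^ 2 - C c)
      (by rw [degree_C_mul_X_pow 2 ha]; rfl)
      (by rw [degree_sub_eq_left_of_degree_lt] <;> rw [degree_C_mul_X_pow 2 hb]
          · rfl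
          · exact lt_of_le_of_lt degree_C_le (by norm_num)) hodd
    refine ⟨x, y, ?_⟩
    simp only [eval_mul, eval_C, eval_pow, eval_X, eval_sub] at h
    linear_combination h
  haveI : Fintype F₀ := Fintype.ofFinite _
  have hodd : Fintype.card F₀ % 2 = 1 := by
    rcases FiniteField.card' F₀ with ⟨p, -, hp, hc⟩
    refine FiniteField.odd_card_of_char_ne_two fun h => h2 ?_
    have := ringChar.Nat.cast_ringChar (R := F₀)
    rw [h] at this
    exact (map_ofNat F₀.subtype 2).symm.trans ((congrArg F₀.subtype (show (2 : F₀) = 0 by simpa using this)).trans (map_zero _))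
  obtain ⟨x, y, h⟩ := hpoly F₀ hodd ⟨α, hα⟩ ⟨β, hβ⟩ ⟨m, hm⟩ (fun h => hα0 (congrArg Subtype.val h))
    (fun h => hβ0 (congrArg Subtype.val h))
  exact ⟨x, x.2, y, y.2, congrArg Subtype.val h⟩

/-- Every value on the perpendicular of a non-degenerate pair. -/
lemma exists_perp_value {a b : Fin 4 → F} (ha : InW F₀ P a) (hb : InW F₀ P b)
    (hD : hf a a * hf b b - hf a b ^ 2 ≠ 0) {m : F} (hm : m ∈ F₀) :
    ∃ z, InW F₀ P z ∧ hf z a = 0 ∧ hf z b = 0 ∧ hf z z = m := by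
  obtain ⟨p, p', hp, hp', hpp, hp'p', hpp', hpa, hpb, hp'a, hp'b⟩ := exists_orth_perp hF hS h2 ha hb hD
  obtain ⟨x, hx, y, hy, h⟩ := exists_binary hF hS h2 (rat_one hF hS hp hp) (rat_one hF hS hp' hp') hpp hp'p' hm
  refine ⟨x • p + y • p', (hp.smul hx).add (hp'.smul hy), ?_, ?_, ?_⟩
  · simp [herm_add_left, herm_smul_left, hpa, hp'a]
  · simp [herm_add_left, herm_smul_left, hpb, hp'b]
  · simp only [herm_add_left, herm_add_right hF, herm_smul_left, herm_smul_right, pow_q_of_mem hF hS hx,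
      pow_q_of_mem hF hS hy, hpp', herm_eq_zero_comm hF hpp']
    linear_combination h

/-- An isotropic vector with prescribed products with a non-degenerate pair. -/
lemma exists_iso_prescribed {a b : Fin 4 → F} (ha : InW F₀ P a) (hb : InW F₀ P b)
    (hD : hf a a * hf b b - hf a b ^ 2 ≠ 0) {w₁ w₂ : F} (h₁ : w₁ ∈ F₀) (h₂ : w₂ ∈ F₀) :
    ∃ e, InW F₀ P e ∧ hf e e = 0 ∧ hf a e = w₁ ∧ hf b e = w₂ := by
  set D := hf a a * hf b b - hf a b ^ 2 with hDdef
  set x₁ := (w₁ * hf b b - w₂ * hf a b) / D with hx₁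
  set x₂ := (w₂ * hf a a - w₁ * hf a b) / D with hx₂
  have hba : hf b a = hf a b := herm_symm_one hF hS ha hb
  have hr := @rat_one F _ 4 q F₀ P _ hF hS
  have hDm : D ∈ F₀ := F₀.sub_mem (F₀.mul_mem (hr ha ha) (hr hb hb)) (pow_mem (hr ha hb) 2)
  have hm₁ : x₁ ∈ F₀ := F₀.div_mem (F₀.sub_mem (F₀.mul_mem h₁ (hr hb hb)) (F₀.mul_mem h₂ (hr ha hb))) hDm
  have hm₂ : x₂ ∈ F₀ := F₀.div_mem (F₀.sub_mem (F₀.mul_mem h₂ (hr ha ha)) (F₀.mul_mem h₁ (hr ha hb))) hDm
  have hx : InW F₀ P (x₁ • a + x₂ • b) := (ha.smul hm₁).add (hb.smul hm₂)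
  obtain ⟨z, hz, hza, hzb, hzz⟩ := exists_perp_value hF hS h2 ha hb hD (F₀.neg_mem (hr hx hx))
  refine ⟨x₁ • a + x₂ • b + z, hx.add hz, ?_, ?_, ?_⟩
  · simp only [herm_add_left, herm_add_right hF, herm_smul_left, herm_smul_right, hza, hzb,
      herm_eq_zero_comm hF hza, herm_eq_zero_comm hF hzb, hzz]
    ring
  · simp only [herm_add_right hF, herm_smul_right, herm_eq_zero_comm hF hza, pow_q_of_mem hF hS hm₁,
      pow_q_of_mem hF hS hm₂]
    rw [hx₁, hx₂]
    field_simp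
    rw [hDdef]; ring
  · simp only [herm_add_right hF, herm_smul_right, herm_eq_zero_comm hF hzb, pow_q_of_mem hF hS hm₁,
      pow_q_of_mem hF hS hm₂, hba]
    rw [hx₁, hx₂]
    field_simp
    rw [hDdef]; ring

omit hS h2 in
/-- The Siegel matrix `x ↦ x + h(x,a) d - h(x,d) a + z h(x,a) a`. -/
def sMat (q : ℕ) (a d : Fin 4 → F) (z : F) : Matrix (Fin 4) (Fin 4) F :=
  rankOne q (d + z • a) a * rankOne q (-a) d

end CfsgLib.SUFour96.OrthSub
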