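import Cfsg.Agent.SUFour96.OrthBasic
import Cfsg.Agent.UnitGeo.OrthSubfield

/-!
Without transvections at rational points, an element fixing a rational isotropic line is rational. One rational
transvection gives all of them, and these generate the special unitary group.
-/

set_option autoImplicit false
set_option linter.unusedSectionVars false

namespace CfsgLib.SUFour96.OrthSub

open Cfsg Module CfsgLib.Unitary CfsgLib.Subfield54 CfsgLib.UnitGeo
open scoped Matrix MatrixGroups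

variable {F : Type*} [Field F] {q : ℕ} {F₀ : Subfield F} {P : GL (Fin 4) F}

local notation "hf" => hermForm 4 F q

variable [Fintype F] (hF : Fintype.card F = q ^ 2)

lemma sMat_mulVec {a : Fin 4 → F} (ha : hf a a = 0) (d : Fin 4 → F) (z : F) (x : Fin 4 → F) :
    sMat q a d z *ᵥ x = x + hf x a • d - hf x d • a + (z * hf x a) • a := by
  rw [sMat, ← Matrix.mulVec_mulVec, rankOne_mulVec, rankOne_mulVec, herm_add_left, herm_smul_left, herm_neg_left,
    ha]
  module

include hF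

lemma exists_sMat_mem {a d : Fin 4 → F} {z : F} (ha : hf a a = 0) (hd : hf d a = 0)
    (hz : z + z ^ q + hf d d = 0) : MIn (SUGL 4 F q) (sMat q a d z) := by
  have had := herm_eq_zero_comm hF hd
  have hdet : (sMat q a d z).det = 1 := by
    rw [sMat, Matrix.det_mul, det_rankOne, det_rankOne, herm_add_left, herm_smul_left, herm_neg_left, ha, hd, had]
    ring
  refine ⟨Matrix.GeneralLinearGroup.mkOfDetNeZero (sMat q a d z) (by rw [hdet]; exact one_ne_zero),
    ⟨fun x y => ?_, Units.ext hdet⟩, rfl⟩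
  show hf (sMat q a d z *ᵥ x) (sMat q a d z *ᵥ y) = hf x y
  rw [sMat_mulVec ha, sMat_mulVec ha]
  have hya : hf a y = hf y a ^ q := herm_conj hF y a
  have hyd : hf d y = hf y d ^ q := herm_conj hF y d
  simp only [herm_sub_left, herm_add_left, herm_smul_left, herm_sub_right hF, herm_add_right hF, herm_smul_right,
    ha, hd, had, hya, hyd, mul_pow]
  linear_combination (hf x a * hf y a ^ q) * hz

lemma sMat_mul {a d d' : Fin 4 → F} (ha : hf a a = 0) (hd : hf d a = 0) (hd' : hf d' a = 0) (z z' : F) :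
    sMat q a d z * sMat q a d' z' = sMat q a (d + d') (z + z' - hf d' d) := by
  refine matrix_ext fun x => ?_
  rw [← Matrix.mulVec_mulVec, sMat_mulVec ha, sMat_mulVec ha, sMat_mulVec ha]
  simp only [herm_sub_left, herm_add_left, herm_smul_left, herm_add_right hF, ha, hd', herm_eq_zero_comm hF hd]
  module

lemma sMat_mul_tMat {a d : Fin 4 → F} (ha : hf a a = 0) (hd : hf d a = 0) (z k : F) :
    sMat q a d z * tMat q a k = sMat q a d (z + k) := by
  refine matrix_ext fun x => ?_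
  rw [← Matrix.mulVec_mulVec, tMat_mulVec, sMat_mulVec ha, sMat_mulVec ha]
  simp only [herm_add_left, herm_smul_left, ha, herm_eq_zero_comm hF hd]
  module

lemma sMat_add_smul {a d : Fin 4 → F} (ha : hf a a = 0) (z m : F) :
    sMat q a (d + m • a) z = sMat q a d (z + m - m ^ q) := by
  refine matrix_ext fun x => ?_
  rw [sMat_mulVec ha, sMat_mulVec ha]
  simp only [herm_add_right hF, herm_smul_right]
  module

/-- Two Siegel elements with one vector part give a transvection. -/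
lemma tMat_of_sMat {M : Subgroup (GL (Fin 4) F)} {a d : Fin 4 → F} {z z' : F} (ha : hf a a = 0)
    (hd : hf d a = 0) (h : MIn M (sMat q a d z)) (h' : MIn M (sMat q a d z')) : MIn M (tMat q a (z - z')) := by
  obtain ⟨g, hg, eg⟩ := h
  obtain ⟨g', hg', eg'⟩ := h'
  refine ⟨g'⁻¹ * g, M.mul_mem (M.inv_mem hg') hg, ?_⟩
  rw [Units.val_mul, eg, show sMat q a d z = (g' : Matrix (Fin 4) (Fin 4) F) * tMat q a (z - z') by
    rw [eg', sMat_mul_tMat hF ha hd]; congr 1; ring, ← mul_assoc, Units.inv_mul, one_mul]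

variable (hS : RStr q F₀ 1 P) (h2 : (2 : F) ≠ 0)
include hS h2

/-- The rational Siegel element. -/
lemma sMat_rat {a d : Fin 4 → F} (ha : InW F₀ P a) (hd : InW F₀ P d) (haa : hf a a = 0) (hda : hf d a = 0) :
    MIn (SubH q F₀ P) (sMat q a d (-(hf d d / 2))) := by
  have hm : -(hf d d / 2) ∈ F₀ := F₀.neg_mem (F₀.div_mem (rat_one hF hS hd hd) two_mem)
  refine mIn_subH (exists_sMat_mem hF haa hda ?_) fun x hx => ?_
  · rw [pow_q_of_mem hF hS hm]; field_simp; ring
  · rw [sMat_mulVec haa]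
    exact ((hx.add (hd.smul (rat_one hF hS hx ha))).sub (ha.smul (rat_one hF hS hx hd))).add
      (ha.smul (F₀.mul_mem hm (rat_one hF hS hx ha)))

omit h2 in
/-- A rational multiple of a vector with rational norm of the scalar. -/
lemma norm_mem (l : F) : l ^ (q + 1) ∈ F₀ := (hS.fix _).2 (norm_pow_q hF l)

variable {M : Subgroup (GL (Fin 4) F)} (hH : SubH q F₀ P ≤ M) (hM : M ≤ SUGL 4 F q)
include hH hM

lemma form_of_mem {g : GL (Fin 4) F} (hg : g ∈ M) (x y : Fin 4 → F) :
    hf ((g : Matrix (Fin 4) (Fin 4) F) *ᵥ x) ((g : Matrix (Fin 4) (Fin 4) F) *ᵥ y) = hf x y :=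
  (hM hg).1 x y

section
variable (hno : ∀ c, InW F₀ P c → c ≠ 0 → hermForm 4 F q c c = 0 → ∀ k, k + k ^ q = 0 → MIn M (tMat q c k) → k = 0)
include hno

/-- An element taking a rational isotropic point to a rational point is rational on its orthogonal. -/
lemma image_rat {g : GL (Fin 4) F} (hg : g ∈ M) {c c' : Fin 4 → F} (hc : InW F₀ P c) (hc' : InW F₀ P c')
    (hc'0 : c' ≠ 0) (hcc : hf c c = 0) (hc'c' : hf c' c' = 0) {l : F} (hl0 : l ≠ 0)
    (e : (g : Matrix (Fin 4) (Fin 4) F) *ᵥ c = l • c') {d : Fin 4 → F} (hd : InW F₀ P d) (hdc : hf d c = 0) :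
    InW F₀ P (l ^ q • (g : Matrix (Fin 4) (Fin 4) F) *ᵥ d) := by
  obtain ⟨δ, hδ0, hδq, hδ⟩ := exists_skew_unit hF hS h2
  have hgf := form_of_mem hF hS h2 hH hM hg
  set G := (g : Matrix (Fin 4) (Fin 4) F) with hG
  set y := l ^ q • G *ᵥ d with hy
  set z' := -(hf d d / 2) * l ^ (q + 1) with hz'
  have hyc : hf y c' = 0 := by
    have h := (hgf d c).trans hdc
    rw [e, herm_smul_right] at h
    rw [hy, herm_smul_left, (mul_eq_zero.1 h).resolve_left (pow_ne_zero _ hl0), mul_zero]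
  have hm : MIn M (sMat q c' y z') := by
    obtain ⟨r, hr, er⟩ := sMat_rat hF hS h2 hc hd hcc hdc
    refine ⟨g * r * g⁻¹, M.mul_mem (M.mul_mem hg (hH hr)) (M.inv_mem hg), matrix_ext fun x => ?_⟩
    obtain ⟨u, rfl⟩ : ∃ u, x = G *ᵥ u := ⟨_, (mulVec_P_inv g x).symm⟩
    rw [Units.val_mul, Units.val_mul, ← Matrix.mulVec_mulVec, ← Matrix.mulVec_mulVec, mulVec_inv_P, er,
      sMat_mulVec hcc, sMat_mulVec hc'c', Matrix.mulVec_add, Matrix.mulVec_sub, Matrix.mulVec_add,
      Matrix.mulVec_smul, Matrix.mulVec_smul, Matrix.mulVec_smul, hy, herm_smul_right, pow_q_q hF, hgf, e,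
      ← hgf u c, e, herm_smul_right, hz', pow_succ]
    module
  have hyy : hf y y = l ^ (q + 1) * hf d d := by
    rw [hy, herm_smul_left, herm_smul_right, hgf, pow_q_q hF, pow_succ]; ring
  have hzm : -(hf d d / 2) ∈ F₀ := F₀.neg_mem (F₀.div_mem (rat_one hF hS hd hd) two_mem)
  have hval : ∀ w, InW F₀ P w → hf w c' = 0 → hf y w ∈ F₀ := by
    intro w hw hwc
    have hs := (sMat_rat hF hS h2 hc' hw hc'c' hwc).mono hH
    have h1 := hm.mul hs
    have h2' := hs.mul hm
    rw [sMat_mul hF hc'c' hyc hwc] at h1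
    rw [sMat_mul hF hc'c' hwc hyc, add_comm w y] at h2'
    have h3 := tMat_of_sMat hF hc'c' (by rw [herm_add_left, hyc, hwc, add_zero]) h1 h2'
    have h4 := hno c' hc' hc'0 hc'c' _ (by
      rw [sub_pow_q hF, sub_pow_q hF, sub_pow_q hF, add_pow_q hF, add_pow_q hF, ← herm_conj hF y w,
        ← herm_conj hF w y]
      ring) h3
    refine (hS.fix _).2 ?_
    rw [← herm_conj hF y w]
    linear_combination -h4
  obtain ⟨a, b, ha, hb, hy', -⟩ := exists_decomp hF hS hδ y
  obtain ⟨hac, hbc⟩ := comp_perp hF hS hδ ha hb hc' (hy' ▸ hyc)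
  have hbperp : ∀ w, InW F₀ P w → hf w c' = 0 → hf w b = 0 := by
    intro w hw hwc
    have h := hval w hw hwc
    rw [hy', herm_add_left, herm_smul_left] at h
    exact herm_eq_zero_comm hF (split_eq_zero hF hS hδ (F₀.sub_mem (rat_one hF hS ha hw) h)
      (rat_one hF hS hb hw) (by ring)).2
  obtain ⟨k, hk⟩ := mem_line_of_perp hF hS hc' hc'0 hbperp
  have hkm : k ∈ F₀ := hb.scalar_mem hc' hk hc'0
  have hkq : (δ * k) ^ q = -(δ * k) := by rw [mul_pow, hδq, pow_q_of_mem hF hS hkm, neg_mul]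
  have hey : y = a + (δ * k) • c' := by rw [mul_smul, ← hk, ← hy']
  have hyy' : hf y y = hf a a := by
    rw [hey]
    simp [herm_add_left, herm_add_right hF, herm_smul_left, herm_smul_right, hac, herm_eq_zero_comm hF hac, hc'c']
  rw [hey, sMat_add_smul hF hc'c', hkq] at hm
  have h3 := tMat_of_sMat hF hc'c' hac hm ((sMat_rat hF hS h2 hc' ha hc'c' hac).mono hH)
  have hz : z' = -(hf a a / 2) := by rw [← hyy', hyy, hz']; ring
  rw [hz, show -(hf a a / 2) + δ * k - -(δ * k) - -(hf a a / 2) = 2 * (δ * k) by ring] at h3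
  have h4 := hno c' hc' hc'0 hc'c' _ (by rw [mul_pow, pow_q_two hF, hkq]; ring) h3
  rw [hey, (mul_eq_zero.1 h4).resolve_left h2, zero_smul, add_zero]
  exact ha

/-- Without rational transvections in `M`, only rational elements fix a rational isotropic line. -/
lemma rational_of_line {g : GL (Fin 4) F} (hg : g ∈ M) {c c' : Fin 4 → F} (hc : InW F₀ P c) (hc' : InW F₀ P c')
    (hc0 : c ≠ 0) (hcc : hf c c = 0) {l : F} (e : (g : Matrix (Fin 4) (Fin 4) F) *ᵥ c = l • c') :
    g ∈ Cfsg.Geo.subfieldSubgroup F₀ P := by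
  obtain ⟨δ, hδ0, hδq, hδ⟩ := exists_skew_unit hF hS h2
  have hgf := form_of_mem hF hS h2 hH hM hg
  set G := (g : Matrix (Fin 4) (Fin 4) F) with hG
  have hgc0 : G *ᵥ c ≠ 0 := fun h => hc0 (by rw [← mulVec_inv_P g c, ← hG, h, Matrix.mulVec_zero])
  have hl0 : l ≠ 0 := fun h => hgc0 (by rw [e, h, zero_smul])
  have hc'0 : c' ≠ 0 := fun h => hgc0 (by rw [e, h, smul_zero])
  have hc'c' : hf c' c' = 0 := by
    have h := (hgf c c).trans hcc
    rw [e, herm_self_smul] at h
    exact (mul_eq_zero.1 h).resolve_left (pow_ne_zero _ hl0)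
  set N := l ^ (q + 1) with hN
  have hN0 : N ≠ 0 := pow_ne_zero _ hl0
  have hNm : N ∈ F₀ := norm_mem hF hS l
  have conv : ∀ d, InW F₀ P d → hf d c = 0 → ∃ w, InW F₀ P w ∧ G *ᵥ d = l • w := fun d hd hdc =>
    ⟨N⁻¹ • (l ^ q • G *ᵥ d), (image_rat hF hS h2 hH hM hno hg hc hc' hc'0 hcc hc'c' hl0 e hd hdc).smul
      (F₀.inv_mem hNm), by
        rw [smul_smul, smul_smul, hN, pow_succ]; field_simp; rw [one_smul]⟩
  obtain ⟨z₀, hz₀, -, hcz⟩ := exists_iso_pair hF hS h2 hc hc0 hcc
  have hzc : hf z₀ c = 1 := (herm_symm_one hF hS hc hz₀).trans hcz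
  set u := l⁻¹ • G *ᵥ z₀ with hu
  have hgi : ((g⁻¹ : GL (Fin 4) F) : Matrix (Fin 4) (Fin 4) F) *ᵥ c' = l⁻¹ • c := by
    have h := mulVec_inv_P g c
    rw [← hG, e, Matrix.mulVec_smul] at h
    exact (inv_smul_smul₀ hl0 _).symm.trans (congrArg (l⁻¹ • ·) h)
  have huval : ∀ w, InW F₀ P w → hf w c' = 0 → hf u w ∈ F₀ := by
    intro w hw hwc
    have hd := image_rat hF hS h2 hH hM hno (M.inv_mem hg) hc' hc hc0 hc'c' hcc (inv_ne_zero hl0) hgi hw hwc
    set d := (l⁻¹) ^ q • ((g⁻¹ : GL (Fin 4) F) : Matrix (Fin 4) (Fin 4) F) *ᵥ w with hddef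
    have hgd : G *ᵥ d = (l⁻¹) ^ q • w := by rw [hddef, Matrix.mulVec_smul, hG, mulVec_P_inv]
    have h := hgf z₀ d
    rw [hgd, herm_smul_right, pow_q_q hF] at h
    rw [hu, herm_smul_left, h]
    exact rat_one hF hS hz₀ hd
  obtain ⟨A, B, hA, hB, hu', -⟩ := exists_decomp hF hS hδ u
  have hbperp : ∀ w, InW F₀ P w → hf w c' = 0 → hf w B = 0 := by
    intro w hw hwc
    have h := huval w hw hwc
    rw [hu', herm_add_left, herm_smul_left] at h
    exact herm_eq_zero_comm hF (split_eq_zero hF hS hδ (F₀.sub_mem (rat_one hF hS hA hw) h)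
      (rat_one hF hS hB hw) (by ring)).2
  obtain ⟨k, hk⟩ := mem_line_of_perp hF hS hc' hc'0 hbperp
  have hkm : k ∈ F₀ := hB.scalar_mem hc' hk hc'0
  have hgz : G *ᵥ z₀ = l • A + (l * δ * k) • c' := by
    have h : G *ᵥ z₀ = l • u := by rw [hu, smul_smul, mul_inv_cancel₀ hl0, one_smul]
    rw [h, hu', hk]; module
  have hgzc : hf (G *ᵥ z₀) c' = (l ^ q)⁻¹ := by
    have h := hgf z₀ c
    rw [e, herm_smul_right, hzc] at h
    exact eq_inv_of_mul_eq_one_right h
  set κ := -(N * δ * k) with hκ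
  have hκq : κ + κ ^ q = 0 := by
    rw [hκ, neg_pow_q hF, mul_pow, mul_pow, hδq, pow_q_of_mem hF hS hNm, pow_q_of_mem hF hS hkm]; ring
  obtain ⟨t, ht, et⟩ := exists_tMat_mem hF hc'c' hκq
  have hth : t * g ∈ Cfsg.Geo.subfieldSubgroup F₀ P := mem_subfield_of_lines fun v hv => by
    have hd : hf (v - hf v c • z₀) c = 0 := by rw [herm_sub_left, herm_smul_left, hzc, mul_one, sub_self]
    have hvc : hf v c ∈ F₀ := rat_one hF hS hv hc
    obtain ⟨w, hw, ew⟩ := conv _ (hv.sub (hz₀.smul hvc)) hd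
    refine ⟨l, w + hf v c • A, hw.add (hA.smul hvc), ?_⟩
    have hgd : hf (G *ᵥ (v - hf v c • z₀)) c' = 0 := by
      have h := (hgf (v - hf v c • z₀) c).trans hd
      rw [e, herm_smul_right] at h
      exact (mul_eq_zero.1 h).resolve_left (pow_ne_zero _ hl0)
    rw [show v = (v - hf v c • z₀) + hf v c • z₀ by rw [sub_add_cancel], Units.val_mul, ← Matrix.mulVec_mulVec,
      ← hG, Matrix.mulVec_add, Matrix.mulVec_smul, Matrix.mulVec_add, Matrix.mulVec_smul, et, tMat_mulVec,
      tMat_mulVec, hgd, hgzc, hgz, ew, hκ, hN, pow_succ, sub_add_cancel]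
    match_scalars <;> field_simp <;> ring
  have hmem : MIn M (tMat q c' κ) := ⟨t, by
    simpa using M.mul_mem (hH ⟨hth, (SUGL 4 F q).mul_mem ht (hM hg)⟩) (M.inv_mem hg), et⟩
  have hk0 := hno c' hc' hc'0 hc'c' κ hκq hmem
  rw [show t = 1 from Units.ext (by rw [et, hk0, tMat_zero hF]; rfl), one_mul] at hth
  exact hth

end

lemma exists_scale {c e : Fin 4 → F} (hc : InW F₀ P c) (he : InW F₀ P e) (hcc : hf c c = 0) (hee : hf e e = 0)
    (hce : hf c e = 1) {s : F} (hs : s ∈ F₀) (hs0 : s ≠ 0) :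
    ∃ g ∈ M, (g : Matrix (Fin 4) (Fin 4) F) *ᵥ c = s • e := by
  have hec : hf e c = 1 := (herm_symm_one hF hS hc he).trans hce
  obtain ⟨p, hp, hpc, hpe, hpp⟩ := exists_perp_value hF hS h2 hc he
    (by rw [hcc, hee, hce]; norm_num) (m := -(2 * s)) (F₀.neg_mem (F₀.mul_mem two_mem hs))
  set a := c + s • e + p with ha
  have har : InW F₀ P a := (hc.add (he.smul hs)).add hp
  have hsq := pow_q_of_mem hF hS hs
  have haa : hf a a = 0 := by
    simp only [ha, herm_add_left, herm_add_right hF, herm_smul_left, herm_smul_right, hcc, hee, hce, hec, hpp, hpc,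
      hpe, herm_eq_zero_comm hF hpc, herm_eq_zero_comm hF hpe, hsq]
    ring
  have hca : hf c a = s := by
    simp [ha, herm_add_right hF, herm_smul_right, hcc, hce, herm_eq_zero_comm hF hpc, hsq]
  have hea : hf e a = 1 := by
    simp [ha, herm_add_right hF, herm_smul_right, hee, hec, herm_eq_zero_comm hF hpe]
  set v := e - s⁻¹ • c with hv
  have hvr : InW F₀ P v := he.sub (hc.smul (F₀.inv_mem hs))
  have hva : hf v a = 0 := by rw [hv, herm_sub_left, herm_smul_left, hca, hea, inv_mul_cancel₀ hs0, sub_self]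
  obtain ⟨g, hg, eg⟩ := sMat_rat hF hS h2 har hvr haa hva
  refine ⟨g, hH hg, ?_⟩
  have hsi := pow_q_of_mem hF hS (F₀.inv_mem hs)
  have hcv : hf c v = 1 := by rw [hv, herm_sub_right hF, herm_smul_right, hce, hcc, mul_zero, sub_zero]
  have hvv : hf v v = -(2 * s⁻¹) := by
    simp only [hv, herm_sub_left, herm_sub_right hF, herm_smul_left, herm_smul_right, hcc, hee, hce, hec, hsi]
    ring
  rw [eg, sMat_mulVec haa, hca, hcv, hvv, hv]
  match_scalars <;> field_simp <;> ring

lemma GoodCentre.conj96 {g : GL (Fin 4) F} (hg : g ∈ M) {c : Fin 4 → F} (h : GoodCentre q M c) :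
    GoodCentre q M ((g : Matrix (Fin 4) (Fin 4) F) *ᵥ c) := fun k hk => by
  obtain ⟨r, hr, er⟩ := h k hk
  refine ⟨g * r * g⁻¹, M.mul_mem (M.mul_mem hg hr) (M.inv_mem hg), ?_⟩
  rw [Units.val_mul, Units.val_mul, er, conj_tMat hF (form_of_mem hF hS h2 hH hM hg)]

lemma good_smul {c : Fin 4 → F} (h : GoodCentre q M c) (s : F) : GoodCentre q M (s • c) := fun k hk => by
  rw [tMat_smul hF]
  exact h _ (by rw [mul_pow, norm_pow_q hF, ← add_mul, hk, zero_mul])

lemma good_self {c : Fin 4 → F} (hc : InW F₀ P c) (hc0 : c ≠ 0) (hcc : hf c c = 0) {k : F} (hk0 : k ≠ 0)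
    (hk : k + k ^ q = 0) (h : MIn M (tMat q c k)) : GoodCentre q M c := by
  obtain ⟨e, he, hee, hce⟩ := exists_iso_pair hF hS h2 hc hc0 hcc
  have hec : hf e c = 1 := (herm_symm_one hF hS hc he).trans hce
  obtain ⟨g₁, hg₁, e₁⟩ := exists_scale hF hS h2 hH hM he hc hee hcc hec F₀.one_mem one_ne_zero
  have sq : ∀ x ∈ F₀, MIn M (tMat q c (k * (x * x))) := by
    intro x hx
    by_cases hx0 : x = 0
    · exact ⟨1, M.one_mem, by simp [hx0, tMat_zero hF]⟩
    obtain ⟨g, hg, eg⟩ := exists_scale hF hS h2 hH hM hc he hcc hee hce hx hx0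
    obtain ⟨r, hr, er⟩ := h
    have hg₁g := M.mul_mem hg₁ hg
    refine ⟨(g₁ * g) * r * (g₁ * g)⁻¹, M.mul_mem (M.mul_mem hg₁g hr) (M.inv_mem hg₁g), ?_⟩
    rw [Units.val_mul, Units.val_mul, er, conj_tMat hF (form_of_mem hF hS h2 hH hM hg₁g), Units.val_mul,
      ← Matrix.mulVec_mulVec, eg, Matrix.mulVec_smul, e₁, smul_smul, mul_one, tMat_smul hF, pow_succ,
      pow_q_of_mem hF hS hx]
  intro k' hk'
  have hm : k' / k ∈ F₀ := (hS.fix _).2 (by
    rw [div_pow, show k ^ q = -k by linear_combination hk, show k' ^ q = -k' by linear_combination hk',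
      neg_div_neg_eq])
  obtain ⟨x, hx, y, hy, hxy⟩ := exists_binary hF hS h2 F₀.one_mem F₀.one_mem one_ne_zero one_ne_zero hm
  have := (sq x hx).mul (sq y hy)
  rwa [tMat_mul hF hcc, ← mul_add, show x * x + y * y = k' / k by linear_combination hxy,
    mul_div_cancel₀ _ hk0] at this

lemma good_nonorth {c d : Fin 4 → F} (hc : InW F₀ P c) (hd : InW F₀ P d) (hcc : hf c c = 0) (hdd : hf d d = 0)
    (hcd : hf c d ≠ 0) (h : GoodCentre q M c) : GoodCentre q M d := by
  have hcdm := rat_one hF hS hc hd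
  obtain ⟨g, hg, eg⟩ := exists_scale hF hS h2 hH hM hc (hd.smul (F₀.inv_mem hcdm)) hcc
    (by rw [herm_self_smul, hdd, mul_zero])
    (by rw [herm_smul_right, inv_pow, pow_q_of_mem hF hS hcdm, inv_mul_cancel₀ hcd]) hcdm hcd
  have := GoodCentre.conj96 hF hS h2 hH hM hg h
  rwa [eg, smul_smul, mul_inv_cancel₀ hcd, one_smul] at this

lemma good_rational {c : Fin 4 → F} (hc : InW F₀ P c) (hc0 : c ≠ 0) (hcc : hf c c = 0) {k : F} (hk0 : k ≠ 0)
    (hk : k + k ^ q = 0) (h : MIn M (tMat q c k)) {d : Fin 4 → F} (hd : InW F₀ P d) (hdd : hf d d = 0) :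
    GoodCentre q M d := by
  have hgc := good_self hF hS h2 hH hM hc hc0 hcc hk0 hk h
  by_cases hcd : hf c d ≠ 0
  · exact good_nonorth hF hS h2 hH hM hc hd hcc hdd hcd hgc
  push Not at hcd
  by_cases hline : ∃ s : F, d = s • c
  · obtain ⟨s, rfl⟩ := hline
    exact good_smul hF hS h2 hH hM hgc s
  push Not at hline
  obtain ⟨y₁, hy₁, hcy₁, -⟩ := exists_pair_rat hF hS h2 hc inW_zero (fun k => by rwa [smul_zero])
  obtain ⟨y, hy, hcy, hdy⟩ : ∃ y, InW F₀ P y ∧ hf c y = 1 ∧ hf d y ≠ 0 := by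
    by_cases hdy₁ : hf d y₁ = 0
    · obtain ⟨y₂, hy₂, hdy₂, hcy₂⟩ := exists_pair_rat hF hS h2 hd hc hline
      exact ⟨y₁ + y₂, hy₁.add hy₂, by rw [herm_add_right hF, hcy₁, hcy₂, add_zero],
        by rw [herm_add_right hF, hdy₁, hdy₂, zero_add]; exact one_ne_zero⟩
    · exact ⟨y₁, hy₁, hcy₁, hdy₁⟩
  set e := y - (hf y y / 2) • c with he
  have hm : hf y y / 2 ∈ F₀ := F₀.div_mem (rat_one hF hS hy hy) two_mem
  have hyc : hf y c = 1 := (herm_symm_one hF hS hc hy).trans hcy
  have her : InW F₀ P e := hy.sub (hc.smul hm)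
  have hee : hf e e = 0 := by
    simp only [he, herm_sub_left, herm_sub_right hF, herm_smul_left, herm_smul_right, hcc, hcy, hyc,
      pow_q_of_mem hF hS hm]
    field_simp
    ring
  have hce : hf c e = 1 := by rw [he, herm_sub_right hF, herm_smul_right, hcc, hcy, mul_zero, sub_zero]
  refine good_nonorth hF hS h2 hH hM her hd hee hdd ?_
    (good_nonorth hF hS h2 hH hM hc her hcc hee (by rw [hce]; exact one_ne_zero) hgc)
  rw [he, herm_sub_left, herm_smul_left, hcd, mul_zero, sub_zero]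
  exact fun h0 => hdy (herm_eq_zero_comm hF h0)

lemma rootMem4 {a b : Fin 4 → F} (ha : InW F₀ P a) (hb : InW F₀ P b) (haa : hf a a = 0) (hbb : hf b b = 0)
    (hab : hf a b = 0) {t : F} (ht : t ∈ F₀) : MIn M (rMat q a (t • b)) := by
  have := (rMat_rat hF hS ha hb haa hbb hab ht).mono hH
  rwa [mul_one] at this

/-- With all rational transvections, `M` is the whole special unitary group. -/
lemma le_of_good_rational (hgood : ∀ d, InW F₀ P d → hermForm 4 F q d d = 0 → GoodCentre q M d) :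
    SUGL 4 F q ≤ M := by
  obtain ⟨δ, hδ0, hδq⟩ := exists_skew hF
  have hδ := not_mem_of_skew hF hS h2 hδ0 hδq
  have base : ∀ v, hermForm 4 F q v v = 0 → hermForm 4 F q v (sigma q P v) = 0 → GoodCentre q M v := by
    intro v hv hz
    obtain ⟨a, b, ha, hb, rfl, hs⟩ := exists_decomp hF hS hδ v
    rw [hs] at hz
    simp only [herm_add_left, herm_add_right hF, herm_smul_left, herm_smul_right, hδq, neg_pow_q hF,
      herm_symm_one hF hS ha hb] at hv hz
    obtain ⟨h1, h3⟩ := split_eq_zero hF hS hδ (rat_one hF hS ha ha) (rat_one hF hS ha hb)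
      (mul_left_cancel₀ h2 (by linear_combination hv + hz))
    have h4 : hermForm 4 F q b b = 0 := by
      rw [h1, h3] at hv
      exact (mul_eq_zero.1 (show δ * δ * hermForm 4 F q b b = 0 by linear_combination -hv)).resolve_left
        (mul_ne_zero hδ0 hδ0)
    intro k hk
    rw [tMat_split hF h1 h4 h3 δ hk]
    refine ((hgood a ha h1 k hk).mul (hgood b hb h4 _ ?_)).mul (rootMem4 hF hS h2 hH hM ha hb h1 h4 h3
      ((hS.fix _).2 ?_))
    · rw [mul_pow, norm_pow_q hF, ← add_mul, hk, zero_mul]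
    · rw [mul_pow, hδq, show k ^ q = -k by linear_combination hk, neg_mul_neg]
  have step : ∀ v, hermForm 4 F q v v = 0 → hermForm 4 F q v (sigma q P v) ≠ 0 → ∀ w : F,
      (∀ v', hermForm 4 F q v' v' = 0 →
        hermForm 4 F q v' (sigma q P v') = hermForm 4 F q v (sigma q P v) + 2 * δ * w ^ 2 → GoodCentre q M v') →
      GoodCentre q M v := by
    intro v hv hz w ih
    obtain ⟨a, b, ha, hb, hve, hs⟩ := exists_decomp hF hS hδ v
    have hD : hermForm 4 F q a a * hermForm 4 F q b b - hermForm 4 F q a b ^ 2 ≠ 0 := by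
      intro hD
      rw [hs, hve] at hz
      rw [hve] at hv
      simp only [herm_add_left, herm_add_right hF, herm_smul_left, herm_smul_right, hδq, neg_pow_q hF,
        herm_symm_one hF hS ha hb] at hv hz
      have h5 : (hermForm 4 F q a b + δ * hermForm 4 F q b b) * (hermForm 4 F q a b + δ * -hermForm 4 F q b b) = 0 := by
        linear_combination hermForm 4 F q b b * hv - hD
      have h6 : hermForm 4 F q a b = 0 ∧ hermForm 4 F q b b = 0 := by
        rcases mul_eq_zero.1 h5 with h | h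
        · exact split_eq_zero hF hS hδ (rat_one hF hS ha hb) (rat_one hF hS hb hb) h
        · obtain ⟨x, y⟩ := split_eq_zero hF hS hδ (rat_one hF hS ha hb) (F₀.neg_mem (rat_one hF hS hb hb)) h
          exact ⟨x, neg_eq_zero.1 y⟩
      rw [h6.1, h6.2] at hv hz
      exact hz (by linear_combination hv)
    obtain ⟨w₁, hw₁, w₂, hw₂, hw⟩ := exists_scalar_decomp hF hS hδ w
    obtain ⟨e, he, hee, hae, hbe⟩ := exists_iso_prescribed hF hS h2 ha hb hD hw₁ hw₂
    have hvw : hermForm 4 F q v e = w := by rw [hve, herm_add_left, herm_smul_left, hae, hbe, hw]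
    obtain ⟨g, hg, eg⟩ := hgood e he hee δ (by rw [hδq, add_neg_cancel])
    have hgv : (g : Matrix (Fin 4) (Fin 4) F) *ᵥ v = v + (δ * w) • e := by rw [eg, tMat_mulVec, hvw]
    have hev : hermForm 4 F q e v = w ^ q := by rw [herm_conj hF v e, hvw]
    have hsv : hermForm 4 F q (sigma q P v) e = w ^ q := by
      have h7 := herm_sigma hF hS v e
      rw [one_mul, one_mul, he.sigma_eq hF hS, hvw] at h7
      exact h7.symm
    have hes : hermForm 4 F q e (sigma q P v) = w := by rw [herm_conj hF (sigma q P v) e, hsv, pow_q_q hF]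
    have hG := ih (v + (δ * w) • e) (by
        rw [← hgv, form_of_mem hF hS h2 hH hM hg]; exact hv) (by
        rw [sigma_add hF, sigma_smul hF, he.sigma_eq hF hS]
        simp only [herm_add_left, herm_add_right hF, herm_smul_left, herm_smul_right, hee, hes, hvw, mul_pow,
          pow_q_q hF]
        ring)
    intro k hk
    obtain ⟨r, hr, er⟩ := hG k hk
    refine ⟨g⁻¹ * r * g⁻¹⁻¹, M.mul_mem (M.mul_mem (M.inv_mem hg) hr) (M.inv_mem (M.inv_mem hg)), ?_⟩
    rw [Units.val_mul, Units.val_mul, er, conj_tMat hF (form_of_mem hF hS h2 hH hM (M.inv_mem hg)), ← hgv,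
      mulVec_inv_P]
  obtain ⟨i, hi⟩ : IsSquare (-1 : F) := by
    rw [FiniteField.isSquare_neg_one_iff, hF]
    intro h
    rw [Nat.pow_mod] at h
    have h4 : q % 4 < 4 := Nat.mod_lt _ (by norm_num)
    interval_cases q % 4 <;> simp_all
  have main : ∀ v, hermForm 4 F q v v = 0 → GoodCentre q M v := by
    intro v hv
    set z := hermForm 4 F q v (sigma q P v) with hzdef
    by_cases hz : z = 0
    · exact base v hv hz
    set t := z / (2 * δ) with ht
    have hzt : z = 2 * δ * t := by rw [ht, mul_comm, div_mul_cancel₀ _ (mul_ne_zero h2 hδ0)]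
    refine step v hv hz ((t - 1) / 2) fun v' hv' hz' => ?_
    rw [← hzdef] at hz'
    by_cases hz0 : hermForm 4 F q v' (sigma q P v') = 0
    · exact base v' hv' hz0
    refine step v' hv' hz0 (i * ((t + 1) / 2)) fun v'' hv'' hz'' => base v'' hv'' ?_
    rw [hz'', hz', hzt, mul_pow, sq i, ← hi]
    field_simp
    ring
  exact le_of_tMat_mem hF (by omega) fun v c hv hc => main v hv c hc

end CfsgLib.SUFour96.OrthSub
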